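import Cfsg.Agent.Lib.Block.BrauerFeit
import Cfsg.Agent.Lib.CharExtra.Central

/-!
# Blocks of defect at most two with a central involution have rank one
-/

set_option autoImplicit false
set_option linter.unusedSectionVars false
set_option linter.unusedSimpArgs false
set_option linter.unusedVariables false

open scoped ComplexConjugate
open Cfsg MonoidAlgebra Module Cfsg.Agent.Lib.CharExtra Cfsg.Agent.Lib.Block

namespace Cfsg.Agent.Lib.FF

section Form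

variable {G : Type*} [Group G] [Fintype G] {p : ℕ} [hp : Fact p.Prime] {M : Ideal AlgInt}

/-- The integer form on a block. -/
theorem exists_block_form_spec (hM : IsPModular p M) {B : Set (IrrCharacter G)} (hB : IsPBlock M B) :
    ∃ (b₀ : ℕ) (χ₀ : IrrCharacter G) (n : IrrCharacter G → IrrCharacter G → ℤ), (∀ ξ ∈ B, ∀ ψ, n ξ ψ * (p : ℤ) ^ b₀ = regCoeff p ξ ψ) ∧ χ₀ ∈ B ∧
      blockHeight p B (χ₀ : G → ℂ) = 0 ∧
      (∀ ξ ψ, n ξ ψ = n ψ ξ) ∧
      (open Classical in ∀ χ ψ, χ ∈ B → ψ ∈ B →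
        ∑ ξ : IrrCharacter G, (if ξ ∈ B then n χ ξ * n ξ ψ else 0) = (p : ℤ) ^ blockDefect p B * n χ ψ) ∧
      (∀ ξ ψ, ξ ∈ B → ψ ∈ B → (p : ℤ) ^ blockHeight p B (ξ : G → ℂ) ∣ n ξ ψ) ∧
      (∀ θ ξ, θ ∈ B → ξ ∈ B → blockHeight p B (θ : G → ℂ) = 0 → n ξ θ ≠ 0) ∧
      (∀ χ₁, χ₁ ∈ B → 0 < blockHeight p B (χ₁ : G → ℂ) → (p : ℤ) ^ (blockHeight p B (χ₁ : G → ℂ) + 1) ∣ n χ₁ χ₁) ∧
      (open Classical in
        ∑ ξ : IrrCharacter G, (if ξ ∈ B then n ξ ξ else 0) = (p : ℤ) ^ blockDefect p B * (blockRank p B : ℤ)) := by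
  classical
  have := isPModular_isPrime hM
  obtain ⟨χ₀, h₀, h₁, hmin⟩ := exists_min_height hB hM
  obtain ⟨b₀, hb₀⟩ : ∃ b₀, b₀ = (charDegree (χ₀ : G → ℂ)).factorization p := ⟨_, rfl⟩
  rw [← hb₀] at h₁ hmin
  obtain ⟨a, ha⟩ : ∃ a, a = (Nat.card G).factorization p := ⟨_, rfl⟩
  have hdef : blockDefect p B = a - b₀ := by
    unfold blockDefect; rw [← h₁, ha]
  have hle : b₀ ≤ a := by
    rw [hb₀, ha]
    exact factorization_le_card χ₀
  have hheight : ∀ ξ : IrrCharacter G, blockHeight p B (ξ : G → ℂ) = (charDegree (ξ : G → ℂ)).factorization p - b₀ := by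
    intro ξ
    unfold blockHeight
    rw [← h₁]
  have hheight' : ∀ ξ ∈ B, (charDegree (ξ : G → ℂ)).factorization p = b₀ + blockHeight p B (ξ : G → ℂ) := by
    intro ξ hξ
    rw [hheight]
    have := hmin ξ hξ
    omega
  have hpz : (p : ℤ) ^ b₀ ≠ 0 := pow_ne_zero _ (by exact_mod_cast hp.out.ne_zero)
  have hdvd : ∀ ξ ∈ B, ∀ ψ, (p : ℤ) ^ b₀ ∣ regCoeff p ξ ψ := fun ξ hξ ψ =>
    dvd_trans (pow_dvd_pow _ (hmin ξ hξ)) (pow_dvd_regCoeff ξ ψ)
  refine ⟨b₀, χ₀, fun ξ ψ => regCoeff p ξ ψ / (p : ℤ) ^ b₀, ?_, h₀, ?_, ?_, ?_, ?_, ?_, ?_, ?_⟩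
  · intro ξ hξ ψ
    rw [mul_comm]
    exact Int.mul_ediv_cancel' (hdvd ξ hξ ψ)
  · rw [hheight, ← hb₀, Nat.sub_self]
  · intro ξ ψ
    show regCoeff p ξ ψ / (p : ℤ) ^ b₀ = regCoeff p ψ ξ / (p : ℤ) ^ b₀
    rw [regCoeff_comm]
  · intro χ ψ hχ hψ
    have e1 : ∀ ξ, (if ξ ∈ B then (regCoeff p χ ξ / (p : ℤ) ^ b₀) * (regCoeff p ξ ψ / (p : ℤ) ^ b₀) else 0) * ((p : ℤ) ^ b₀ * (p : ℤ) ^ b₀) =
        regCoeff p χ ξ * regCoeff p ξ ψ := by
      intro ξ
      split_ifs with h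
      · have h1 := Int.mul_ediv_cancel' (hdvd χ hχ ξ)
        have h2 := Int.mul_ediv_cancel' (hdvd ξ h ψ)
        calc _ = ((p : ℤ) ^ b₀ * (regCoeff p χ ξ / (p : ℤ) ^ b₀)) * ((p : ℤ) ^ b₀ * (regCoeff p ξ ψ / (p : ℤ) ^ b₀)) := by ring
          _ = _ := by rw [h1, h2]
      · rw [regCoeff_eq_zero_of_notMem hM hB hχ h]
        simp
    have e2 := sum_regCoeff_mul (p := p) χ ψ
    rw [← ha] at e2
    have e3 : (∑ ξ : IrrCharacter G, (if ξ ∈ B then (regCoeff p χ ξ / (p : ℤ) ^ b₀) * (regCoeff p ξ ψ / (p : ℤ) ^ b₀) else 0)) * ((p : ℤ) ^ b₀ * (p : ℤ) ^ b₀) =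
        (p : ℤ) ^ (a - b₀) * (regCoeff p χ ψ / (p : ℤ) ^ b₀) * ((p : ℤ) ^ b₀ * (p : ℤ) ^ b₀) := by
      rw [Finset.sum_mul]
      simp only [e1]
      rw [e2]
      have h1 := Int.mul_ediv_cancel' (hdvd χ hχ ψ)
      have h2 : (p : ℤ) ^ a = (p : ℤ) ^ (a - b₀) * (p : ℤ) ^ b₀ := by
        rw [← pow_add, Nat.sub_add_cancel hle]
      rw [h2]
      conv_lhs => rw [← h1]
      ring
    rw [hdef]
    exact mul_right_cancel₀ (mul_ne_zero hpz hpz) e3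
  · intro ξ ψ hξ hψ
    have h1 := pow_dvd_regCoeff (p := p) ξ ψ
    rw [hheight' ξ hξ, pow_add] at h1
    have h2 := Int.mul_ediv_cancel' (hdvd ξ hξ ψ)
    rw [← h2] at h1
    exact (mul_dvd_mul_iff_left hpz).mp h1
  · intro θ ξ hθ hξ hh
    intro h0
    have hθmin : ∀ u ∈ B, (charDegree (θ : G → ℂ)).factorization p ≤ (charDegree (u : G → ℂ)).factorization p := by
      intro u hu
      rw [hheight' θ hθ, hh, add_zero]
      exact hmin u hu
    have h1 := memLocalIdeal_regCoeff_div_iff hM hB hθ hθmin hθ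
    have h2 : ¬ MemLocalIdeal M ((regCoeff p θ θ : ℂ) / (θ : G → ℂ) 1) := by
      rw [h1]
      exact lt_irrefl _
    have h3 := memLocalIdeal_regCoeff_div_sub hM (sameBlock_of_mem hB hξ hθ) θ
    have h4 : regCoeff p ξ θ = 0 := by
      have h5 := Int.mul_ediv_cancel' (hdvd ξ hξ θ)
      show regCoeff p ξ θ = 0
      rw [← h5]
      have h6 : regCoeff p ξ θ / (p : ℤ) ^ b₀ = 0 := h0
      rw [h6, mul_zero]
    rw [h4] at h3
    simp only [Int.cast_zero, zero_div, zero_sub] at h3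
    apply h2
    simpa using memLocalIdeal_neg h3
  · intro χ₁ hχ₁ hh
    have h2 : MemLocalIdeal M ((regCoeff p χ₀ χ₁ : ℂ) / (χ₀ : G → ℂ) 1) := by
      rw [memLocalIdeal_regCoeff_div_iff hM hB h₀ (by rw [← hb₀]; exact hmin) hχ₁, ← hb₀, hheight' χ₁ hχ₁]
      omega
    have h3 := memLocalIdeal_regCoeff_div_sub hM (sameBlock_of_mem hB hχ₁ h₀) χ₁
    have h5 : MemLocalIdeal M ((regCoeff p χ₁ χ₁ : ℂ) / (χ₁ : G → ℂ) 1) := by
      simpa using memLocalIdeal_add h3 h2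
    have hdeg : (χ₁ : G → ℂ) 1 = (charDegree (χ₁ : G → ℂ) : ℂ) := Cfsg.Agent.Lib.Char.map_one_eq_charDegree (Cfsg.Agent.Lib.Char.IsIrrCharacter.isCharacter χ₁.2)
    rw [hdeg] at h5
    have h6 := pow_succ_dvd_of_memLocalIdeal hM (Cfsg.Agent.Lib.Char.charDegree_pos_of_irr χ₁.2).ne' (pow_dvd_regCoeff χ₁ χ₁) h5
    rw [hheight' χ₁ hχ₁, add_assoc, pow_add] at h6
    have h7 := Int.mul_ediv_cancel' (hdvd χ₁ hχ₁ χ₁)
    rw [← h7] at h6
    exact (mul_dvd_mul_iff_left hpz).mp h6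
  · have e1 : ∀ ξ, (if ξ ∈ B then regCoeff p ξ ξ / (p : ℤ) ^ b₀ else 0) * (p : ℤ) ^ b₀ = if ξ ∈ B then regCoeff p ξ ξ else 0 := by
      intro ξ
      split_ifs with h
      · rw [mul_comm]
        exact Int.mul_ediv_cancel' (hdvd ξ h ξ)
      · simp
    have e2 := sum_regCoeff_self_eq hM hB
    rw [← ha] at e2
    have e3 : (∑ ξ : IrrCharacter G, (if ξ ∈ B then regCoeff p ξ ξ / (p : ℤ) ^ b₀ else 0)) * (p : ℤ) ^ b₀ =
        (p : ℤ) ^ (a - b₀) * (blockRank p B : ℤ) * (p : ℤ) ^ b₀ := by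
      rw [Finset.sum_mul]
      simp only [e1]
      rw [e2]
      have h2 : (p : ℤ) ^ a = (p : ℤ) ^ (a - b₀) * (p : ℤ) ^ b₀ := by
        rw [← pow_add, Nat.sub_add_cancel hle]
      rw [h2]
      ring
    rw [hdef]
    exact mul_right_cancel₀ hpz e3

end Form

section Numeric

/-- A symmetric integer matrix with nonzero entries and `A² = Q A`, `Q ≤ 2`, has trace `Q`. -/
theorem trace_half {ι : Type*} [DecidableEq ι] (T : Finset ι) (n : ι → ι → ℤ) (Q : ℤ) (hQ : Q = 1 ∨ Q = 2)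
    (hs : ∀ ξ ψ, n ξ ψ = n ψ ξ) (hne : ∀ ξ ∈ T, ∀ ψ ∈ T, n ξ ψ ≠ 0)
    (hrow : ∀ ξ ∈ T, ∑ ψ ∈ T, n ξ ψ ^ 2 = Q * n ξ ξ) (hT : T.Nonempty) : ∑ ξ ∈ T, n ξ ξ = Q := by
  obtain ⟨ξ, hξ⟩ := hT
  have hQpos : 0 < Q := by rcases hQ with rfl | rfl <;> norm_num
  have h1 := hrow ξ hξ
  rw [← Finset.add_sum_erase T _ hξ] at h1
  have ha : n ξ ξ ≠ 0 := hne ξ hξ ξ hξ
  have hnn : 0 ≤ ∑ ψ ∈ T.erase ξ, n ξ ψ ^ 2 := Finset.sum_nonneg fun ψ _ => sq_nonneg _
  have hapos : 0 < n ξ ξ := by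
    by_contra hc
    push Not at hc
    have h2 : 0 < n ξ ξ ^ 2 := by positivity
    nlinarith
  have hale : n ξ ξ ≤ Q := by
    by_contra hc
    push Not at hc
    nlinarith
  by_cases heq : n ξ ξ = Q
  · -- the row has only the diagonal
    have h2 : ∑ ψ ∈ T.erase ξ, n ξ ψ ^ 2 = 0 := by
      rw [heq] at h1
      nlinarith
    have h3 : T.erase ξ = ∅ := by
      by_contra hc
      obtain ⟨ψ, hψ⟩ := Finset.nonempty_iff_ne_empty.2 hc
      have h4 := (Finset.sum_eq_zero_iff_of_nonneg (fun ψ _ => sq_nonneg (n ξ ψ))).1 h2 ψ hψ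
      exact hne ξ hξ ψ (Finset.mem_of_mem_erase hψ) (pow_eq_zero_iff (by norm_num) |>.1 h4)
    rw [← Finset.add_sum_erase T _ hξ, h3, Finset.sum_empty, add_zero, heq]
  · have hQ2 : Q = 2 := by
      rcases hQ with rfl | rfl
      · omega
      · rfl
    subst hQ2
    have ha1 : n ξ ξ = 1 := by omega
    rw [ha1] at h1
    have h2 : ∑ ψ ∈ T.erase ξ, n ξ ψ ^ 2 = 1 := by linarith
    have hge : ∀ ψ ∈ T.erase ξ, 1 ≤ n ξ ψ ^ 2 := by
      intro ψ hψ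
      have h3 := hne ξ hξ ψ (Finset.mem_of_mem_erase hψ)
      have h4 : 0 < n ξ ψ ^ 2 := by positivity
      omega
    have hcard : ((T.erase ξ).card : ℤ) ≤ 1 := by
      have := Finset.card_nsmul_le_sum (T.erase ξ) (fun ψ => n ξ ψ ^ 2) 1 hge
      rw [h2] at this
      simpa using this
    have hne' : (T.erase ξ).Nonempty := by
      by_contra hc
      rw [Finset.not_nonempty_iff_eq_empty] at hc
      rw [hc] at h2
      simp at h2
    have hcard1 : (T.erase ξ).card = 1 := by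
      have := Finset.card_pos.2 hne'
      omega
    obtain ⟨ψ, hψe⟩ := Finset.card_eq_one.1 hcard1
    have hψ : ψ ∈ T := by
      have : ψ ∈ T.erase ξ := by rw [hψe]; simp
      exact Finset.mem_of_mem_erase this
    have hψξ : ψ ≠ ξ := by
      have : ψ ∈ T.erase ξ := by rw [hψe]; simp
      exact Finset.ne_of_mem_erase this
    have hT : T = {ξ, ψ} := by
      ext w
      simp only [Finset.mem_insert, Finset.mem_singleton]
      constructor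
      · intro hw
        by_cases h : w = ξ
        · exact Or.inl h
        · right
          have : w ∈ T.erase ξ := Finset.mem_erase.2 ⟨h, hw⟩
          rw [hψe] at this
          simpa using this
      · rintro (rfl | rfl)
        · exact hξ
        · exact hψ
    have h3 : n ξ ψ ^ 2 = 1 := by
      rw [hψe, Finset.sum_singleton] at h2
      exact h2
    have h4 := hrow ψ hψ
    rw [hT, Finset.sum_pair (Ne.symm hψξ), hs ψ ξ, h3] at h4
    have h5 : (n ψ ψ - 1) ^ 2 = 0 := by nlinarith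
    have h6 : n ψ ψ = 1 := by
      have := pow_eq_zero_iff (n := 2) (by norm_num) |>.1 h5
      omega
    rw [hT, Finset.sum_pair (Ne.symm hψξ), ha1, h6]
    norm_num

end Numeric

section Signed

variable {G : Type*} [Group G] [Fintype G] {p : ℕ} [hp : Fact p.Prime] {M : Ideal AlgInt}

open Classical in
/-- The signed relation for a central element of `p`-power order. -/
theorem sum_signed_regCoeff (hM : IsPModular p M) {B : Set (IrrCharacter G)} (hU : IsBlockUnion M B)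
    {u : G} (hc : ∀ y : G, Commute y u) (hu : ∃ k, orderOf u = p ^ k) (hu1 : u ≠ 1) (ε : IrrCharacter G → ℤ)
    (hε : ∀ (ψ : IrrCharacter G) (y : G), (ψ : G → ℂ) (y * u) = (ε ψ : ℂ) * (ψ : G → ℂ) y) (ξ η : IrrCharacter G) :
    ∑ ψ : IrrCharacter G, (if ψ ∈ B then ε ψ * (regCoeff p ξ ψ * regCoeff p ψ η) else 0) = 0 := by
  have key : ∑ ψ : IrrCharacter G, (if ψ ∈ B then (ε ψ : ℂ) * ((regCoeff p ξ ψ : ℂ) * (regCoeff p ψ η : ℂ)) else 0) = 0 := by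
    obtain ⟨c, hcdef⟩ : ∃ c : ℂ, c = (Nat.card G : ℂ)⁻¹ * ((p ^ (Nat.card G).factorization p : ℕ) : ℂ) := ⟨_, rfl⟩
    have hr : ∀ a b : IrrCharacter G, (regCoeff p a b : ℂ) = c * ∑ x : G, (if p ∣ orderOf x then (0 : ℂ) else (a : G → ℂ) x * conj ((b : G → ℂ) x)) := by
      intro a b
      rw [← regCoeff_spec, classInner_regPart, hcdef]
    have h0 : ∀ x y : G, ¬ p ∣ orderOf x → ¬ p ∣ orderOf y →
        ∑ ψ : IrrCharacter G, (if ψ ∈ B then conj ((ψ : G → ℂ) x) * ((ε ψ : ℂ) * (ψ : G → ℂ) y) else 0) = 0 := by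
      intro x y hx hy
      have h1 := sum_block_eq_zero hM hU hx (dvd_orderOf_mul (hc y) hy hu hu1)
      have h2 := congrArg conj h1
      rw [map_zero, map_sum] at h2
      refine Eq.trans ?_ h2
      refine Finset.sum_congr rfl fun ψ _ => ?_
      split_ifs with h
      · rw [map_mul, Complex.conj_conj, hε, mul_comm]
      · simp
    have expand : ∀ ψ : IrrCharacter G, (ε ψ : ℂ) * ((regCoeff p ξ ψ : ℂ) * (regCoeff p ψ η : ℂ)) =
        c * c * ∑ x : G, ∑ y : G, (if p ∣ orderOf x ∨ p ∣ orderOf y then (0 : ℂ) else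
          (ξ : G → ℂ) x * conj ((η : G → ℂ) y) * (conj ((ψ : G → ℂ) x) * ((ε ψ : ℂ) * (ψ : G → ℂ) y))) := by
      intro ψ
      rw [hr ξ ψ, hr ψ η]
      have e : (ε ψ : ℂ) * ((c * ∑ x : G, (if p ∣ orderOf x then (0 : ℂ) else (ξ : G → ℂ) x * conj ((ψ : G → ℂ) x))) *
          (c * ∑ y : G, (if p ∣ orderOf y then (0 : ℂ) else (ψ : G → ℂ) y * conj ((η : G → ℂ) y)))) =
          c * c * ((∑ x : G, (if p ∣ orderOf x then (0 : ℂ) else (ξ : G → ℂ) x * conj ((ψ : G → ℂ) x))) *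
          (∑ y : G, (ε ψ : ℂ) * (if p ∣ orderOf y then (0 : ℂ) else (ψ : G → ℂ) y * conj ((η : G → ℂ) y)))) := by
        rw [← Finset.mul_sum]
        ring
      rw [e, Finset.sum_mul_sum]
      congr 1
      refine Finset.sum_congr rfl fun x _ => Finset.sum_congr rfl fun y _ => ?_
      by_cases hx : p ∣ orderOf x
      · simp [hx]
      by_cases hy : p ∣ orderOf y
      · simp [hy]
      simp only [hx, hy, or_self, if_false]
      ring
    have step : ∀ ψ : IrrCharacter G, (if ψ ∈ B then (ε ψ : ℂ) * ((regCoeff p ξ ψ : ℂ) * (regCoeff p ψ η : ℂ)) else 0) =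
        c * c * ∑ x : G, ∑ y : G, (if p ∣ orderOf x ∨ p ∣ orderOf y then (0 : ℂ) else
          (ξ : G → ℂ) x * conj ((η : G → ℂ) y) * (if ψ ∈ B then conj ((ψ : G → ℂ) x) * ((ε ψ : ℂ) * (ψ : G → ℂ) y) else 0)) := by
      intro ψ
      by_cases hψ : ψ ∈ B
      · simp only [if_pos hψ]
        exact expand ψ
      · simp only [if_neg hψ, mul_zero, ite_self, Finset.sum_const_zero]
    simp_rw [step]
    rw [← Finset.mul_sum, Finset.sum_comm]
    have : ∀ x : G, ∑ ψ : IrrCharacter G, ∑ y : G, (if p ∣ orderOf x ∨ p ∣ orderOf y then (0 : ℂ) else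
          (ξ : G → ℂ) x * conj ((η : G → ℂ) y) * (if ψ ∈ B then conj ((ψ : G → ℂ) x) * ((ε ψ : ℂ) * (ψ : G → ℂ) y) else 0)) = 0 := by
      intro x
      rw [Finset.sum_comm]
      refine Finset.sum_eq_zero fun y _ => ?_
      by_cases h : p ∣ orderOf x ∨ p ∣ orderOf y
      · simp [h]
      · simp only [if_neg h]
        rw [← Finset.mul_sum]
        push Not at h
        rw [h0 x y h.1 h.2, mul_zero]
    rw [Finset.sum_eq_zero fun x _ => this x, mul_zero]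
  have h2 : ((∑ ψ : IrrCharacter G, (if ψ ∈ B then ε ψ * (regCoeff p ξ ψ * regCoeff p ψ η) else 0) : ℤ) : ℂ) = 0 := by
    rw [← key]
    push_cast
    refine Finset.sum_congr rfl fun ψ _ => ?_
    split_ifs <;> simp
  exact_mod_cast h2

end Signed

section Main

variable {G : Type*} [Group G] [Fintype G] {M : Ideal AlgInt}

/-- **A block of defect at most two with a central involution has rank one.** -/
theorem blockRank_eq_one_of_central_involution (hM : IsPModular 2 M) {B : Set (IrrCharacter G)} (hB : IsPBlock M B)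
    {u : G} (hu : u ∈ Subgroup.center G) (hu1 : u ≠ 1) (huu : u * u = 1) (hd : blockDefect 2 B ≤ 2) : blockRank 2 B = 1 := by
  classical
  haveI : Fact (Nat.Prime 2) := ⟨Nat.prime_two⟩
  have hMp := isPModular_isPrime hM
  have hU := isBlockUnion_of_isPBlock hB
  obtain ⟨b₀, χ₀, n, hnr, h₀, hh₀, hs, hrow, -, hne, -, htr⟩ := exists_block_form_spec hM hB
  have hbf := (brauer_feit_height hM hB).2
  have hh : ∀ χ ∈ B, blockHeight 2 B (χ : G → ℂ) = 0 := by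
    intro χ hχ
    obtain ⟨h1, h2⟩ := hbf χ hχ
    by_cases hd1 : blockDefect 2 B ≤ 1
    · exact h1 hd1
    · have := h2 (by omega)
      omega
  have hne' : ∀ ξ ∈ B, ∀ ψ ∈ B, n ξ ψ ≠ 0 := fun ξ hξ ψ hψ => hne ψ ξ hψ hξ (hh ψ hψ)
  -- the signs
  have hsign : ∀ ψ : IrrCharacter G, ∃ e : ℤ, (e = 1 ∨ e = -1) ∧ ∀ y : G, (ψ : G → ℂ) (y * u) = (e : ℂ) * (ψ : G → ℂ) y := by
    intro ψ
    have h1 := fun y => irr_mul_central ψ hu y
    have hψ1 : (ψ : G → ℂ) 1 ≠ 0 := Cfsg.Agent.Lib.Char.map_one_ne_zero_of_irr ψ.2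
    have h2 := h1 u
    rw [huu] at h2
    obtain ⟨c, hc⟩ : ∃ c, c = (ψ : G → ℂ) u / (ψ : G → ℂ) 1 := ⟨_, rfl⟩
    have h2' : (ψ : G → ℂ) u * (ψ : G → ℂ) u = (ψ : G → ℂ) 1 * (ψ : G → ℂ) 1 := by
      field_simp at h2
      linear_combination -h2
    have h3 : c * c = 1 := by
      rw [hc, div_mul_div_comm, h2', div_self (mul_ne_zero hψ1 hψ1)]
    have h4 : (c - 1) * (c + 1) = 0 := by linear_combination h3
    rcases mul_eq_zero.1 h4 with h5 | h5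
    · refine ⟨1, Or.inl rfl, fun y => ?_⟩
      rw [h1 y]
      have h6 : c = 1 := by linear_combination h5
      rw [hc] at h6
      have h7 : (ψ : G → ℂ) u = (ψ : G → ℂ) 1 := by
        field_simp at h6
        exact h6
      rw [h7]
      push_cast
      field_simp
    · refine ⟨-1, Or.inr rfl, fun y => ?_⟩
      rw [h1 y]
      have h6 : c = -1 := by linear_combination h5
      rw [hc] at h6
      have h7 : (ψ : G → ℂ) u = -(ψ : G → ℂ) 1 := by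
        field_simp at h6
        exact h6
      rw [h7]
      push_cast
      field_simp
  choose ε hε hεv using hsign
  have hcomm : ∀ y : G, Commute y u := fun y => (Subgroup.mem_center_iff.1 hu y)
  have hord : ∃ k, orderOf u = 2 ^ k := ⟨1, by
    rw [pow_one]
    exact orderOf_eq_prime (by rw [pow_two]; exact huu) hu1⟩
  have hsg := sum_signed_regCoeff hM hU hcomm hord hu1 ε hεv
  obtain ⟨S, hS⟩ : ∃ S : Finset (IrrCharacter G), S = Finset.univ.filter (· ∈ B) := ⟨_, rfl⟩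
  have hmS : ∀ ξ, ξ ∈ S ↔ ξ ∈ B := fun ξ => by simp [hS]
  obtain ⟨P, hP⟩ : ∃ P : ℤ, P = ((2 : ℕ) : ℤ) ^ blockDefect 2 B := ⟨_, rfl⟩
  rw [← hP] at hrow htr
  have hPpos : 0 < P := by rw [hP]; positivity
  -- the two rows
  have hr1 : ∀ ξ ∈ S, ∑ ψ ∈ S, n ξ ψ ^ 2 = P * n ξ ξ := by
    intro ξ hξ
    have h1 := hrow ξ ξ ((hmS ξ).1 hξ) ((hmS ξ).1 hξ)
    rw [← Finset.sum_filter, ← hS] at h1
    rw [← h1]
    refine Finset.sum_congr rfl fun ψ _ => ?_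
    rw [hs ψ ξ]
    ring
  have hr2 : ∀ ξ ∈ S, ∑ ψ ∈ S, ε ψ * n ξ ψ ^ 2 = 0 := by
    intro ξ hξ
    have hξB := (hmS ξ).1 hξ
    have h1 := hsg ξ ξ
    rw [← Finset.sum_filter, ← hS] at h1
    have h2 : ((2 : ℕ) : ℤ) ^ b₀ * ((2 : ℕ) : ℤ) ^ b₀ * ∑ ψ ∈ S, ε ψ * n ξ ψ ^ 2 = 0 := by
      rw [← h1, Finset.mul_sum]
      refine Finset.sum_congr rfl fun ψ hψ => ?_
      have hψB := (hmS ψ).1 hψ
      rw [← hnr ξ hξB ψ, ← hnr ψ hψB ξ, hs ψ ξ]
      ring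
    have h3 : ((2 : ℕ) : ℤ) ^ b₀ * ((2 : ℕ) : ℤ) ^ b₀ ≠ 0 := by positivity
    exact (mul_eq_zero.1 h2).resolve_left h3
  obtain ⟨Tp, hTp⟩ : ∃ Tp : Finset (IrrCharacter G), Tp = S.filter (fun ψ => ε ψ = 1) := ⟨_, rfl⟩
  obtain ⟨Tm, hTm⟩ : ∃ Tm : Finset (IrrCharacter G), Tm = S.filter (fun ψ => ¬ ε ψ = 1) := ⟨_, rfl⟩
  have hsplit : ∀ f : IrrCharacter G → ℤ, ∑ ψ ∈ S, f ψ = ∑ ψ ∈ Tp, f ψ + ∑ ψ ∈ Tm, f ψ := by
    intro f
    rw [hTp, hTm, Finset.sum_filter_add_sum_filter_not]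
  have hsplit2 : ∀ f : IrrCharacter G → ℤ, ∑ ψ ∈ S, ε ψ * f ψ = ∑ ψ ∈ Tp, f ψ - ∑ ψ ∈ Tm, f ψ := by
    intro f
    rw [hsplit, sub_eq_add_neg, ← Finset.sum_neg_distrib]
    congr 1
    · refine Finset.sum_congr rfl fun ψ hψ => ?_
      rw [hTp] at hψ
      rw [(Finset.mem_filter.1 hψ).2, one_mul]
    · refine Finset.sum_congr rfl fun ψ hψ => ?_
      rw [hTm] at hψ
      have h1 := (Finset.mem_filter.1 hψ).2
      rw [(hε ψ).resolve_left h1]
      ring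
  have hTpS : ∀ ψ ∈ Tp, ψ ∈ S := fun ψ hψ => by
    rw [hTp] at hψ
    exact (Finset.mem_filter.1 hψ).1
  have hTmS : ∀ ψ ∈ Tm, ψ ∈ S := fun ψ hψ => by
    rw [hTm] at hψ
    exact (Finset.mem_filter.1 hψ).1
  have hp1 : ∀ ξ ∈ S, 2 * ∑ ψ ∈ Tp, n ξ ψ ^ 2 = P * n ξ ξ := by
    intro ξ hξ
    have h1 := hr1 ξ hξ
    have h2 := hr2 ξ hξ
    rw [hsplit] at h1
    rw [hsplit2] at h2
    linarith
  have hp2 : ∀ ξ ∈ S, 2 * ∑ ψ ∈ Tm, n ξ ψ ^ 2 = P * n ξ ξ := by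
    intro ξ hξ
    have h1 := hr1 ξ hξ
    have h2 := hr2 ξ hξ
    rw [hsplit] at h1
    rw [hsplit2] at h2
    linarith
  have h₀S : χ₀ ∈ S := (hmS χ₀).2 h₀
  have ha0 : ∀ ξ ∈ S, 0 < n ξ ξ := by
    intro ξ hξ
    have hξB := (hmS ξ).1 hξ
    have h1 := hr1 ξ hξ
    have h2 : n ξ ξ ^ 2 ≤ ∑ ψ ∈ S, n ξ ψ ^ 2 := Finset.single_le_sum (f := fun ψ => n ξ ψ ^ 2) (fun ψ _ => sq_nonneg _) hξ
    have h3 : 0 < n ξ ξ ^ 2 := by
      have := hne' ξ hξB ξ hξB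
      positivity
    have h4 : 0 < P * n ξ ξ := by linarith
    exact (mul_pos_iff_of_pos_left hPpos).1 h4
  have hTpne : Tp.Nonempty := by
    by_contra hc
    rw [Finset.not_nonempty_iff_eq_empty] at hc
    have h1 := hp1 χ₀ h₀S
    rw [hc, Finset.sum_empty, mul_zero] at h1
    have := mul_pos hPpos (ha0 χ₀ h₀S)
    omega
  have hTmne : Tm.Nonempty := by
    by_contra hc
    rw [Finset.not_nonempty_iff_eq_empty] at hc
    have h1 := hp2 χ₀ h₀S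
    rw [hc, Finset.sum_empty, mul_zero] at h1
    have := mul_pos hPpos (ha0 χ₀ h₀S)
    omega
  -- `P` is even
  obtain ⟨Q, hQ1, hQ2⟩ : ∃ Q : ℤ, P = 2 * Q ∧ (Q = 1 ∨ Q = 2) := by
    have hcases : blockDefect 2 B = 0 ∨ blockDefect 2 B = 1 ∨ blockDefect 2 B = 2 := by omega
    rcases hcases with h | h | h
    · exfalso
      rw [h] at hP
      have hP1 : P = 1 := by rw [hP]; norm_num
      have h1 := hr1 χ₀ h₀S
      have h2 : n χ₀ χ₀ ^ 2 ≤ ∑ ψ ∈ S, n χ₀ ψ ^ 2 :=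
        Finset.single_le_sum (f := fun ψ => n χ₀ ψ ^ 2) (fun ψ _ => sq_nonneg _) h₀S
      have h3 := ha0 χ₀ h₀S
      rw [h1, hP1] at h2
      have h4 : n χ₀ χ₀ = 1 := by nlinarith
      have h5 := hp1 χ₀ h₀S
      rw [hP1, h4] at h5
      omega
    · refine ⟨1, ?_, Or.inl rfl⟩
      rw [hP, h]
      norm_num
    · refine ⟨2, ?_, Or.inr rfl⟩
      rw [hP, h]
      norm_num
  have hQpos : 0 < Q := by rcases hQ2 with rfl | rfl <;> norm_num
  have htp : ∑ ξ ∈ Tp, n ξ ξ = Q := by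
    refine trace_half Tp n Q hQ2 hs (fun ξ hξ ψ hψ => hne' ξ ((hmS ξ).1 (hTpS ξ hξ)) ψ ((hmS ψ).1 (hTpS ψ hψ))) (fun ξ hξ => ?_) hTpne
    have h1 := hp1 ξ (hTpS ξ hξ)
    rw [hQ1] at h1
    nlinarith
  have htm : ∑ ξ ∈ Tm, n ξ ξ = Q := by
    refine trace_half Tm n Q hQ2 hs (fun ξ hξ ψ hψ => hne' ξ ((hmS ξ).1 (hTmS ξ hξ)) ψ ((hmS ψ).1 (hTmS ψ hψ))) (fun ξ hξ => ?_) hTmne
    have h1 := hp2 ξ (hTmS ξ hξ)
    rw [hQ1] at h1
    nlinarith
  have h1 : P * (blockRank 2 B : ℤ) = P := by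
    rw [← htr, ← Finset.sum_filter, ← hS, hsplit, htp, htm, hQ1]
    ring
  have h2 : (blockRank 2 B : ℤ) = 1 := by
    have : P * ((blockRank 2 B : ℤ) - 1) = 0 := by linarith
    have h3 := (mul_eq_zero.1 this).resolve_left hPpos.ne'
    linarith
  exact_mod_cast h2

end Main

end Cfsg.Agent.Lib.FF
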