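import Cfsg.Agent.Lib.FF.CycMain

/-!
# Perfect isometries for blocks with cyclic defect group: general integrality lemmas
-/

set_option autoImplicit false
set_option linter.unusedSectionVars false
set_option linter.unusedVariables false
set_option maxSynthPendingDepth 3
set_option linter.style.haveILetI false
set_option linter.unusedSimpArgs false
set_option linter.unnecessarySimpa false

open scoped ComplexConjugate
open Module Cfsg Cfsg.Agent.Lib.Block Cfsg.Agent.Lib.Char Cfsg.Agent.Lib.CharExtra Cfsg.Agent.Lib.BPair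

namespace Cfsg.Agent.Lib.FF

attribute [local instance] Cfsg.Agent.Lib.BPair.subFintype

section Gen

variable {G : Type*} [Group G] [Fintype G] {p : ℕ} [hp : Fact p.Prime] {M : Ideal AlgInt}

/-- The sum over a Sylow subgroup of the centralizer of the values on a section. -/
theorem exists_sum_sylow (hM : IsPModular p M) {x : G} {C : Subgroup G} (hC : C = Subgroup.centralizer ({x} : Set G))
    (S : Sylow p C) (χ : IrrCharacter G) :
    ∃ τ : ℂ, MemLocalRing M τ ∧ ∑ s : (S : Subgroup C), (χ : G → ℂ) (x * ((s : C) : G)) = (Nat.card S : ℂ) * τ := by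
  classical
  have := isPModular_isPrime hM
  have hxC : x ∈ C := by
    rw [hC]
    exact mem_centralizer_self x
  have hcC : ∀ c : C, (c : G) * x = x * c := by
    intro c
    have h1 : (c : G) ∈ Subgroup.centralizer ({x} : Set G) := by
      rw [← hC]
      exact c.2
    exact Subgroup.mem_centralizer_singleton_iff.1 h1
  obtain ⟨x₀, hx₀⟩ : ∃ x₀ : C, (x₀ : G) = x := ⟨⟨x, hxC⟩, rfl⟩
  have hz : x₀ ∈ Subgroup.center C := by
    rw [Subgroup.mem_center_iff]
    intro c
    apply Subtype.ext
    push_cast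
    rw [hx₀]
    exact hcC c
  have hcf : IsClassFunction C (fun c : C => (χ : G → ℂ) c) :=
    IsCharacter.isClassFunction (IsCharacter.restrict C (IsIrrCharacter.isCharacter χ.2))
  choose m hm using fun ρ : IrrCharacter C => classInner_isCharacter_nat
    (IsCharacter.restrict C (IsIrrCharacter.isCharacter χ.2)) (IsIrrCharacter.isCharacter ρ.2)
  choose n' hn' using fun ρ : IrrCharacter C => classInner_isCharacter_nat
    (IsCharacter.restrict (S : Subgroup C) (IsIrrCharacter.isCharacter ρ.2)) (IsCharacter.one (G := (S : Subgroup C)))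
  have hPc : (Nat.card S : ℂ) ≠ 0 := by exact_mod_cast Nat.card_pos.ne'
  have h1 : ∀ ρ : IrrCharacter C, ∑ s : (S : Subgroup C), (ρ : C → ℂ) s = (Nat.card S : ℂ) * (n' ρ : ℂ) := by
    intro ρ
    rw [← hn' ρ, classInner_def]
    have hc : (Nat.card (S : Subgroup C) : ℂ) = (Nat.card S : ℂ) := rfl
    rw [hc, ← mul_assoc, mul_inv_cancel₀ hPc, one_mul]
    refine Finset.sum_congr rfl fun g _ => ?_
    simp
  refine ⟨∑ ρ : IrrCharacter C, (m ρ : ℂ) * (om (ρ : C → ℂ) (MonoidAlgebra.single x₀ (1 : ℂ)) * (n' ρ : ℂ)), ?_, ?_⟩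
  · refine memLocalRing_sum _ _ fun ρ _ => memLocalRing_mul (memLocalRing_natCast _) (memLocalRing_mul ?_ (memLocalRing_natCast _))
    exact memLocalRing_om ρ.2 (NilU.isCentralElt_single_of_center hz) (localCoeff_single _ memLocalRing_one)
  · rw [Finset.mul_sum]
    have h2 : ∀ c : C, (χ : G → ℂ) (x * c) = ∑ ρ : IrrCharacter C, (m ρ : ℂ) *
        (om (ρ : C → ℂ) (MonoidAlgebra.single x₀ (1 : ℂ)) * (ρ : C → ℂ) c) := by
      intro c
      have h3 := congrFun (classFunction_eq_sum _ hcf) (c * x₀)
      simp only [Finset.sum_apply, Pi.smul_apply, smul_eq_mul, hm] at h3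
      have e1 : (((c * x₀ : C)) : G) = x * c := by
        push_cast
        rw [hx₀, hcC c]
      rw [e1] at h3
      rw [h3]
      refine Finset.sum_congr rfl fun ρ _ => ?_
      rw [irr_mul_central ρ hz c, NilU.om_single_central]
      ring
    simp only [h2]
    rw [Finset.sum_comm]
    refine Finset.sum_congr rfl fun ρ _ => ?_
    simp only [← Finset.mul_sum]
    rw [h1 ρ]
    ring

/-- A generalized character vanishing on singular elements: its value at `x` is divisible by the order of the centralizer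
of `x`, locally. -/
theorem memLocal_of_vanish (hM : IsPModular p M) (a₁ : IrrCharacter G → ℤ)
    (hvan : ∀ g : G, p ∣ orderOf g → ∑ χ : IrrCharacter G, (a₁ χ : ℂ) * (χ : G → ℂ) g = 0) (x : G) :
    MemLocalRing M ((∑ χ : IrrCharacter G, (a₁ χ : ℂ) * (χ : G → ℂ) x) / (Nat.card (Subgroup.centralizer ({x} : Set G)) : ℂ)) := by
  classical
  have := isPModular_isPrime hM
  by_cases hx : p ∣ orderOf x
  · rw [hvan x hx, zero_div]
    exact memLocalRing_zero
  obtain ⟨C, hC⟩ : ∃ C, C = Subgroup.centralizer ({x} : Set G) := ⟨_, rfl⟩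
  rw [← hC]
  obtain ⟨S⟩ : Nonempty (Sylow p C) := inferInstance
  have hcardS : Nat.card S = p ^ (Nat.card C).factorization p := Sylow.card_eq_multiplicity S
  choose τ hτ1 hτ2 using fun χ : IrrCharacter G => exists_sum_sylow hM hC S χ
  have hcC : ∀ c : C, Commute x (c : G) := by
    intro c
    have h1 : (c : G) ∈ Subgroup.centralizer ({x} : Set G) := by
      rw [← hC]
      exact c.2
    exact (Subgroup.mem_centralizer_singleton_iff.1 h1).symm
  have h1 : ∑ s : (S : Subgroup C), ∑ χ : IrrCharacter G, (a₁ χ : ℂ) * (χ : G → ℂ) (x * ((s : C) : G)) =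
      ∑ χ : IrrCharacter G, (a₁ χ : ℂ) * (χ : G → ℂ) x := by
    rw [Finset.sum_eq_single (1 : (S : Subgroup C))]
    · simp
    · intro s _ hs
      apply hvan
      have hs1 : ((s : C) : G) ≠ 1 := fun h => hs (Subtype.ext (Subtype.ext h))
      obtain ⟨k, hk⟩ := S.isPGroup' s
      have hk' : ((s : C) : G) ^ p ^ k = 1 := by
        have := congrArg (fun a : (S : Subgroup C) => ((a : C) : G)) hk
        simpa using this
      have h3 : orderOf ((s : C) : G) ∣ p ^ k := orderOf_dvd_of_pow_eq_one hk'
      obtain ⟨j, -, hj⟩ := (Nat.dvd_prime_pow hp.out).1 h3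
      have hd : p ∣ orderOf ((s : C) : G) := by
        rw [hj]
        rcases j with _ | j
        · exfalso
          apply hs1
          rw [pow_zero] at hj
          exact orderOf_eq_one_iff.1 hj
        · exact dvd_pow_self _ (by omega)
      have hcop : Nat.Coprime (orderOf x) (orderOf ((s : C) : G)) := by
        rw [hj]
        apply Nat.Coprime.pow_right
        exact ((Nat.Prime.coprime_iff_not_dvd hp.out).2 hx).symm
      rw [(hcC s).orderOf_mul_eq_mul_orderOf_of_coprime hcop]
      exact dvd_mul_of_dvd_right hd _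
    · intro h
      exact absurd (Finset.mem_univ _) h
  rw [← h1, Finset.sum_comm]
  simp only [← Finset.mul_sum, hτ2]
  obtain ⟨c, hc⟩ : ∃ c, Nat.card C = Nat.card S * c ∧ ¬ p ∣ c := by
    refine ⟨Nat.card C / p ^ (Nat.card C).factorization p, ?_, Nat.not_dvd_ordCompl hp.out Nat.card_pos.ne'⟩
    rw [hcardS, Nat.ordProj_mul_ordCompl_eq_self]
  have hSc : (Nat.card S : ℂ) ≠ 0 := by exact_mod_cast Nat.card_pos.ne'
  have hcc : (c : ℂ) ≠ 0 := by
    have : c ≠ 0 := fun h => hc.2 (by rw [h]; exact dvd_zero p)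
    exact_mod_cast this
  have e1 : (∑ χ : IrrCharacter G, (a₁ χ : ℂ) * ((Nat.card S : ℂ) * τ χ)) / (Nat.card C : ℂ) =
      (∑ χ : IrrCharacter G, (a₁ χ : ℂ) * τ χ) * (c : ℂ)⁻¹ := by
    rw [hc.1]
    push_cast
    have e2 : ∑ χ : IrrCharacter G, (a₁ χ : ℂ) * ((Nat.card S : ℂ) * τ χ) = (Nat.card S : ℂ) * ∑ χ : IrrCharacter G, (a₁ χ : ℂ) * τ χ := by
      rw [Finset.mul_sum]
      refine Finset.sum_congr rfl fun χ _ => ?_
      ring
    rw [e2]
    field_simp
  rw [e1]
  refine memLocalRing_mul (memLocalRing_sum _ _ fun χ _ => memLocalRing_mul (memLocalRing_intCast _) (hτ1 χ)) (memLocalRing_natCast_inv hM hc.2)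

/-- Induction preserves local integrality. -/
theorem memLocal_indFun [M.IsPrime] {L : Subgroup G} {m : L → ℂ} (hm : IsClassFunction L m) (hl : ∀ l, MemLocalRing M (m l)) (g : G) :
    MemLocalRing M (indFun L m g) := by
  classical
  rw [indFun_apply]
  haveI : Fintype (G ⧸ L) := Fintype.ofFinite _
  rw [sum_eq_card_mul_sum_quotient (T := L)]
  · refine memLocalRing_sum _ _ fun q _ => ?_
    by_cases h : q.out⁻¹ * g * q.out ∈ L
    · rw [extendByZero_of_mem L _ h]
      exact hl _
    · rw [extendByZero_of_not_mem L _ h]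
      exact memLocalRing_zero
  · intro x t ht
    have e1 : (x * t)⁻¹ * g * (x * t) = t⁻¹ * (x⁻¹ * g * x) * t := by group
    rw [e1]
    by_cases h : x⁻¹ * g * x ∈ L
    · have h' : t⁻¹ * (x⁻¹ * g * x) * t ∈ L := Subgroup.mul_mem _ (Subgroup.mul_mem _ (Subgroup.inv_mem _ ht) h) ht
      rw [extendByZero_of_mem L _ h, extendByZero_of_mem L _ h']
      have h2 := hm ⟨_, h⟩ (⟨t, ht⟩ : L)⁻¹
      rw [← h2]
      refine congrArg _ (Subtype.ext ?_)
      simp
    · have h' : t⁻¹ * (x⁻¹ * g * x) * t ∉ L := by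
        intro h3
        apply h
        have h4 := Subgroup.mul_mem _ (Subgroup.mul_mem _ ht h3) (Subgroup.inv_mem _ ht)
        have e2 : t * (t⁻¹ * (x⁻¹ * g * x) * t) * t⁻¹ = x⁻¹ * g * x := by group
        rwa [e2] at h4
      rw [extendByZero_of_not_mem L _ h, extendByZero_of_not_mem L _ h']

/-- The induced function over the order of the centralizer. -/
theorem indFun_div_cen {L : Subgroup G} (m : L → ℂ) (g : G) :
    indFun L m g / (Nat.card (Subgroup.centralizer ({g} : Set G)) : ℂ) =
      (Nat.card L : ℂ)⁻¹ * tr m (resAlg L (classSum g)) := by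
  classical
  have hC : (Nat.card (Subgroup.centralizer ({g} : Set G)) : ℂ) ≠ 0 := by exact_mod_cast Nat.card_pos.ne'
  rw [indFun_apply, Cfsg.Agent.Lib.Block.sum_conj_eq, nsmul_eq_mul, mul_div_assoc, mul_div_cancel_left₀ _ hC]
  congr 1
  unfold tr
  simp only [coeff_resAlg, coeff_classSum]
  rw [Finset.sum_filter]
  have e1 : ∀ u : G, (if IsConj g u then extendByZero L m u else 0) =
      if h : u ∈ L then (if IsConj g u then 1 else 0) * m ⟨u, h⟩ else 0 := by
    intro u
    by_cases h : u ∈ L
    · rw [dif_pos h, extendByZero_of_mem L _ h]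
      by_cases h2 : IsConj g u <;> simp [h2]
    · rw [dif_neg h, extendByZero_of_not_mem L _ h]
      simp
  simp only [e1]
  have e2 := Finset.sum_subtype (F := inferInstance) (Finset.univ.filter (· ∈ L)) (p := (· ∈ L)) (by simp)
    (fun u : G => if h : u ∈ L then (if IsConj g u then (1 : ℂ) else 0) * m ⟨u, h⟩ else 0)
  rw [Finset.sum_filter] at e2
  have e3 : ∀ u : G, (if u ∈ L then (if h : u ∈ L then (if IsConj g u then (1 : ℂ) else 0) * m ⟨u, h⟩ else 0) else 0) =
      (if h : u ∈ L then (if IsConj g u then (1 : ℂ) else 0) * m ⟨u, h⟩ else 0) := by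
    intro u
    by_cases h : u ∈ L <;> simp [h]
  simp only [e3] at e2
  rw [e2]
  refine Finset.sum_congr rfl fun l _ => ?_
  rw [dif_pos l.2]

end Gen

section Reg

variable {X : Type*} [Group X] [Fintype X] {p : ℕ}

open Classical in
/-- The part of an element supported on regular elements. -/
noncomputable def regPart (p : ℕ) (z : MonoidAlgebra ℂ X) : MonoidAlgebra ℂ X :=
  ofFun (fun g => if p ∣ orderOf g then 0 else z.coeff g)

open Classical in
theorem coeff_regPart (z : MonoidAlgebra ℂ X) (g : X) : (regPart p z).coeff g = if p ∣ orderOf g then 0 else z.coeff g :=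
  coeff_ofFun _ _

theorem isCentralElt_regPart {z : MonoidAlgebra ℂ X} (hz : IsCentralElt z) : IsCentralElt (regPart p z) := by
  classical
  intro x g
  rw [coeff_regPart, coeff_regPart, Cfsg.Agent.Lib.Block.orderOf_conj, hz x g]

theorem localCoeff_regPart {M : Ideal AlgInt} [M.IsPrime] {z : MonoidAlgebra ℂ X} (hz : LocalCoeff M z) : LocalCoeff M (regPart p z) := by
  classical
  intro g
  rw [coeff_regPart]
  split_ifs
  · exact memLocalRing_zero
  · exact hz g

theorem tr_pRegularPart [hp : Fact p.Prime] (χ : X → ℂ) (z : MonoidAlgebra ℂ X) : tr (pRegularPart p χ) z = tr χ (regPart p z) := by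
  classical
  unfold tr
  refine Finset.sum_congr rfl fun g _ => ?_
  rw [coeff_regPart]
  by_cases hg : p ∣ orderOf g
  · rw [pRegularPart_eq_zero_of_dvd _ hg, if_pos hg]
    simp
  · rw [pRegularPart_eq_of_regular _ hg, if_neg hg]

end Reg

end Cfsg.Agent.Lib.FF
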