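import Cfsg.Agent.Lib.FF.CycP1

/-!
# Perfect isometries for blocks with cyclic defect group: comparing two sides
-/

set_option autoImplicit false
set_option linter.unusedSectionVars false
set_option linter.unusedVariables false
set_option maxSynthPendingDepth 3
set_option linter.style.haveILetI false
set_option linter.unusedSimpArgs false
set_option linter.unnecessarySimpa false

open scoped ComplexConjugate
open Module Cfsg Cfsg.Agent.Lib.Block Cfsg.Agent.Lib.Char Cfsg.Agent.Lib.CharExtra Cfsg.Agent.Lib.BPair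

namespace Cfsg.Agent.Lib.FF

attribute [local instance] Cfsg.Agent.Lib.BPair.subFintype

section Fourier

/-- The relation between exponents. -/
def RelN (N e j j' : ℕ) : Prop := ∃ s : ℕ, s ^ e ≡ 1 [MOD N] ∧ j' ≡ s * j [MOD N]

/-- A primitive root of unity. -/
noncomputable def zetaN (N : ℕ) : ℂ := Complex.exp (2 * Real.pi * Complex.I / N)

theorem zetaN_prim {N : ℕ} (hN : N ≠ 0) : IsPrimitiveRoot (zetaN N) N := Complex.isPrimitiveRoot_exp N hN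

theorem sum_zeta_pow {N : ℕ} (hN : 0 < N) {j j' : ℕ} (hj : j < N) (hj' : j' < N) :
    ∑ r ∈ Finset.range N, zetaN N ^ (j * r) * zetaN N ^ (j' * ((N - 1) * r)) = if j = j' then (N : ℂ) else 0 := by
  have hζ := zetaN_prim hN.ne'
  obtain ⟨t, ht⟩ : ∃ t, t = zetaN N ^ (j + j' * (N - 1)) := ⟨_, rfl⟩
  have e1 : ∀ r, zetaN N ^ (j * r) * zetaN N ^ (j' * ((N - 1) * r)) = t ^ r := by
    intro r
    rw [ht, ← pow_add, ← pow_mul]
    congr 1
    ring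
  simp only [e1]
  have htN : t ^ N = 1 := by
    rw [ht, ← pow_mul, mul_comm, pow_mul, hζ.pow_eq_one, one_pow]
  have e2 : (j + j' * (N - 1)) + j' = j + j' * N := by
    obtain ⟨m, rfl⟩ : ∃ m, N = m + 1 := ⟨N - 1, by omega⟩
    simp only [Nat.add_sub_cancel]
    ring
  have e3 : t * zetaN N ^ j' = zetaN N ^ j := by
    rw [ht, ← pow_add, e2, pow_add, mul_comm j' N, pow_mul, hζ.pow_eq_one, one_pow, mul_one]
  by_cases h : j = j'
  · subst h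
    rw [if_pos rfl]
    have h0 : zetaN N ^ j ≠ 0 := pow_ne_zero _ (hζ.ne_zero hN.ne')
    have ht1 : t = 1 := mul_right_cancel₀ h0 (by rw [e3, one_mul])
    rw [ht1]
    simp
  · rw [if_neg h]
    have ht1 : t ≠ 1 := by
      intro h1
      rw [h1, one_mul] at e3
      exact h (hζ.pow_inj hj hj' e3.symm)
    have h3 := geom_sum_mul t N
    rw [htN, sub_self] at h3
    exact (mul_eq_zero.1 h3).resolve_right (sub_ne_zero.2 ht1)

/-- The Plancherel formula. -/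
theorem plancherel {N : ℕ} (hN : 0 < N) (a b : ℕ → ℂ) :
    (N : ℂ) * ∑ j ∈ Finset.range N, a j * b j = ∑ r ∈ Finset.range N,
      (∑ j ∈ Finset.range N, zetaN N ^ (j * r) * a j) * (∑ j ∈ Finset.range N, zetaN N ^ (j * ((N - 1) * r)) * b j) := by
  have e0 : ∀ r, (∑ j ∈ Finset.range N, zetaN N ^ (j * r) * a j) * (∑ j ∈ Finset.range N, zetaN N ^ (j * ((N - 1) * r)) * b j) =
      ∑ j ∈ Finset.range N, ∑ j' ∈ Finset.range N, (zetaN N ^ (j * r) * zetaN N ^ (j' * ((N - 1) * r))) * (a j * b j') := by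
    intro r
    rw [Finset.sum_mul_sum]
    refine Finset.sum_congr rfl fun j _ => Finset.sum_congr rfl fun j' _ => ?_
    ring
  simp only [e0]
  rw [Finset.sum_comm, Finset.mul_sum]
  refine Finset.sum_congr rfl fun j hj => ?_
  rw [Finset.sum_comm, Finset.sum_eq_single j]
  · rw [← Finset.sum_mul, sum_zeta_pow hN (Finset.mem_range.1 hj) (Finset.mem_range.1 hj), if_pos rfl]
  · intro j' hj' hne
    rw [← Finset.sum_mul, sum_zeta_pow hN (Finset.mem_range.1 hj) (Finset.mem_range.1 hj'), if_neg (Ne.symm hne), zero_mul]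
  · intro h
    exact absurd hj h

end Fourier

section Side

variable {G : Type*} [Group G] [Fintype G] {p : ℕ} [hp : Fact p.Prime] {M : Ideal AlgInt}

/-- The sum over `X`. -/
noncomputable def rTil (XS : Finset (IrrCharacter G)) (u₀ : IrrCharacter G → ℤ) (x : G) : ℂ :=
  ∑ χ ∈ XS, (u₀ χ : ℂ) * (χ : G → ℂ) x

/-- The vector attached to an element. -/
noncomputable def wSide (XS : Finset (IrrCharacter G)) (u₀ : IrrCharacter G → ℤ) (ε₀ : ℤ) (ψh : ℕ → IrrCharacter G) (x : G) (j : ℕ) : ℂ :=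
  if j = 0 then - rTil XS u₀ x else (ε₀ : ℂ) * (ψh j : G → ℂ) x

/-- The Fourier transform of the vector attached to an element. -/
noncomputable def aSide (N : ℕ) (XS : Finset (IrrCharacter G)) (u₀ : IrrCharacter G → ℤ) (ε₀ : ℤ) (ψh : ℕ → IrrCharacter G) (r : ℕ) (x : G) : ℂ :=
  ∑ j ∈ Finset.range N, zetaN N ^ (j * r) * wSide XS u₀ ε₀ ψh x j

open Classical in
/-- The data on one side of a perfect isometry. -/
structure Side (p : ℕ) [Fact p.Prime] (M : Ideal AlgInt) (B : Set (IrrCharacter G)) (N e : ℕ) (XS : Finset (IrrCharacter G))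
    (u₀ : IrrCharacter G → ℤ) (ε₀ : ℤ) (ψh : ℕ → IrrCharacter G) : Prop where
  hM : IsPModular p M
  hN0 : 0 < N
  hpe : ¬ p ∣ e
  hε₀ : ε₀ = 1 ∨ ε₀ = -1
  hu : ∀ χ ∈ XS, u₀ χ = 1 ∨ u₀ χ = -1
  hcard : XS.card = e
  hB : ∀ χ, χ ∈ B ↔ χ ∈ XS ∨ ∃ j, 0 < j ∧ j < N ∧ ψh j = χ
  hdisj : ∀ j, 0 < j → j < N → ψh j ∉ XS
  hrel : ∀ j j', 0 < j → j < N → 0 < j' → j' < N → (ψh j = ψh j' ↔ RelN N e j j')
  hfib : ∀ j, 0 < j → j < N → ((Finset.Ioo 0 N).filter (fun j' => RelN N e j j')).card = e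
  hA1 : ∀ r x, MemLocalRing M (aSide N XS u₀ ε₀ ψh r x / (N : ℂ))
  hA2 : ∀ r x, MemLocalRing M (aSide N XS u₀ ε₀ ψh r x / (Nat.card (Subgroup.centralizer ({x} : Set G)) : ℂ))
  hsing : ∀ x, p ∣ orderOf x → ∑ j ∈ Finset.range N, wSide XS u₀ ε₀ ψh x j = 0
  hreg : ∀ x, ¬ p ∣ orderOf x → ∀ j, j < N → wSide XS u₀ ε₀ ψh x j = wSide XS u₀ ε₀ ψh x 0
  hP1 : ∀ χ ∈ XS, ∀ x, p ∣ orderOf x → (e : ℂ) * ((u₀ χ : ℂ) * (χ : G → ℂ) x) = rTil XS u₀ x
  hP2 : ∀ χ ∈ XS, ∀ x, MemLocalRing M (((e : ℂ) * ((u₀ χ : ℂ) * (χ : G → ℂ) x) - rTil XS u₀ x) /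
    (Nat.card (Subgroup.centralizer ({x} : Set G)) : ℂ))

theorem val_loc [M.IsPrime] (χ : IrrCharacter G) (g : G) : MemLocalRing M ((χ : G → ℂ) g) :=
  memLocalRing_of_isIntegral (IsCharacter.isIntegral' (IsIrrCharacter.isCharacter χ.2) g)

variable {B : Set (IrrCharacter G)} {N e : ℕ} {XS : Finset (IrrCharacter G)} {u₀ : IrrCharacter G → ℤ} {ε₀ : ℤ} {ψh : ℕ → IrrCharacter G}

namespace Side

variable (S : Side p M B N e XS u₀ ε₀ ψh)
include S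

theorem isPrime : M.IsPrime := isPModular_isPrime S.hM

theorem hEc : (e : ℂ) ≠ 0 := by
  have h : e ≠ 0 := fun h => S.hpe (by rw [h]; exact dvd_zero p)
  exact_mod_cast h

theorem rTil_loc (x : G) : MemLocalRing M (rTil XS u₀ x) := by
  have := S.isPrime
  exact memLocalRing_sum _ _ fun χ _ => memLocalRing_mul (memLocalRing_intCast _) (val_loc χ x)

theorem P_loc {χ : IrrCharacter G} (x : G) : MemLocalRing M ((e : ℂ) * ((u₀ χ : ℂ) * (χ : G → ℂ) x) - rTil XS u₀ x) := by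
  have := S.isPrime
  exact memLocalRing_sub (memLocalRing_mul (memLocalRing_natCast _) (memLocalRing_mul (memLocalRing_intCast _) (val_loc χ x))) (S.rTil_loc x)

theorem e_inv_loc : MemLocalRing M ((e : ℂ)⁻¹) := memLocalRing_natCast_inv S.hM S.hpe

end Side

end Side

section Compare

variable {G : Type*} [Group G] [Fintype G] {G' : Type*} [Group G'] [Fintype G'] {p : ℕ} [hp : Fact p.Prime] {M : Ideal AlgInt}
variable {B : Set (IrrCharacter G)} {N e : ℕ} {XS : Finset (IrrCharacter G)} {u₀ : IrrCharacter G → ℤ} {ε₀ : ℤ} {ψh : ℕ → IrrCharacter G}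
variable {B' : Set (IrrCharacter G')} {XS' : Finset (IrrCharacter G')} {u₀' : IrrCharacter G' → ℤ} {ε₀' : ℤ} {ψh' : ℕ → IrrCharacter G'}

/-- The kernel in terms of the vectors. -/
noncomputable def kSide (N : ℕ) (XS : Finset (IrrCharacter G)) (u₀ : IrrCharacter G → ℤ) (ε₀ : ℤ) (ψh : ℕ → IrrCharacter G)
    (XS' : Finset (IrrCharacter G')) (u₀' : IrrCharacter G' → ℤ) (ε₀' : ℤ) (ψh' : ℕ → IrrCharacter G') (x : G) (y : G') : ℂ :=
  ∑ j ∈ Finset.range N, wSide XS u₀ ε₀ ψh x j * wSide XS' u₀' ε₀' ψh' y j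

theorem kSide_loc_left (S : Side p M B N e XS u₀ ε₀ ψh) (S' : Side p M B' N e XS' u₀' ε₀' ψh') (x : G) (y : G') :
    MemLocalRing M (kSide N XS u₀ ε₀ ψh XS' u₀' ε₀' ψh' x y / (Nat.card (Subgroup.centralizer ({x} : Set G)) : ℂ)) := by
  have := S.isPrime
  have hNc : (N : ℂ) ≠ 0 := by exact_mod_cast S.hN0.ne'
  have h := plancherel S.hN0 (wSide XS u₀ ε₀ ψh x) (wSide XS' u₀' ε₀' ψh' y)
  have e1 : kSide N XS u₀ ε₀ ψh XS' u₀' ε₀' ψh' x y = ∑ r ∈ Finset.range N,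
      aSide N XS u₀ ε₀ ψh r x * (aSide N XS' u₀' ε₀' ψh' ((N - 1) * r) y / (N : ℂ)) := by
    have e2 : kSide N XS u₀ ε₀ ψh XS' u₀' ε₀' ψh' x y = (N : ℂ)⁻¹ * ((N : ℂ) * ∑ j ∈ Finset.range N, wSide XS u₀ ε₀ ψh x j * wSide XS' u₀' ε₀' ψh' y j) := by
      rw [← mul_assoc, inv_mul_cancel₀ hNc, one_mul]
      rfl
    rw [e2, h, Finset.mul_sum]
    refine Finset.sum_congr rfl fun r _ => ?_
    unfold aSide
    field_simp
  rw [e1, Finset.sum_div]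
  refine memLocalRing_sum _ _ fun r _ => ?_
  have e3 : aSide N XS u₀ ε₀ ψh r x * (aSide N XS' u₀' ε₀' ψh' ((N - 1) * r) y / (N : ℂ)) / (Nat.card (Subgroup.centralizer ({x} : Set G)) : ℂ) =
      (aSide N XS u₀ ε₀ ψh r x / (Nat.card (Subgroup.centralizer ({x} : Set G)) : ℂ)) * (aSide N XS' u₀' ε₀' ψh' ((N - 1) * r) y / (N : ℂ)) := by
    ring
  rw [e3]
  exact memLocalRing_mul (S.hA2 r x) (S'.hA1 _ y)

theorem kSide_loc_right (S : Side p M B N e XS u₀ ε₀ ψh) (S' : Side p M B' N e XS' u₀' ε₀' ψh') (x : G) (y : G') :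
    MemLocalRing M (kSide N XS u₀ ε₀ ψh XS' u₀' ε₀' ψh' x y / (Nat.card (Subgroup.centralizer ({y} : Set G')) : ℂ)) := by
  have := S.isPrime
  have hNc : (N : ℂ) ≠ 0 := by exact_mod_cast S.hN0.ne'
  have h := plancherel S.hN0 (wSide XS u₀ ε₀ ψh x) (wSide XS' u₀' ε₀' ψh' y)
  have e1 : kSide N XS u₀ ε₀ ψh XS' u₀' ε₀' ψh' x y = ∑ r ∈ Finset.range N,
      (aSide N XS u₀ ε₀ ψh r x / (N : ℂ)) * aSide N XS' u₀' ε₀' ψh' ((N - 1) * r) y := by
    have e2 : kSide N XS u₀ ε₀ ψh XS' u₀' ε₀' ψh' x y = (N : ℂ)⁻¹ * ((N : ℂ) * ∑ j ∈ Finset.range N, wSide XS u₀ ε₀ ψh x j * wSide XS' u₀' ε₀' ψh' y j) := by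
      rw [← mul_assoc, inv_mul_cancel₀ hNc, one_mul]
      rfl
    rw [e2, h, Finset.mul_sum]
    refine Finset.sum_congr rfl fun r _ => ?_
    unfold aSide
    field_simp
  rw [e1, Finset.sum_div]
  refine memLocalRing_sum _ _ fun r _ => ?_
  rw [mul_div_assoc]
  exact memLocalRing_mul (S.hA1 r x) (S'.hA2 _ y)

theorem kSide_eq (hN : 0 < N) (x : G) (y : G') : kSide N XS u₀ ε₀ ψh XS' u₀' ε₀' ψh' x y =
    rTil XS u₀ x * rTil XS' u₀' y + (ε₀ : ℂ) * ε₀' * ∑ j ∈ Finset.Ioo 0 N, (ψh j : G → ℂ) x * (ψh' j : G' → ℂ) y := by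
  unfold kSide
  have e1 : Finset.range N = insert 0 (Finset.Ioo 0 N) := by
    ext j
    simp only [Finset.mem_range, Finset.mem_insert, Finset.mem_Ioo]
    omega
  rw [e1, Finset.sum_insert (by simp), Finset.mul_sum]
  congr 1
  · simp [wSide]
  · refine Finset.sum_congr rfl fun j hj => ?_
    have h0 : j ≠ 0 := by
      have := (Finset.mem_Ioo.1 hj).1
      omega
    simp only [wSide, if_neg h0]
    ring

theorem kSide_zero_left (S : Side p M B N e XS u₀ ε₀ ψh) (S' : Side p M B' N e XS' u₀' ε₀' ψh') {x : G} {y : G'}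
    (hx : ¬ p ∣ orderOf x) (hy : p ∣ orderOf y) : kSide N XS u₀ ε₀ ψh XS' u₀' ε₀' ψh' x y = 0 := by
  unfold kSide
  have e1 : ∀ j ∈ Finset.range N, wSide XS u₀ ε₀ ψh x j * wSide XS' u₀' ε₀' ψh' y j =
      wSide XS u₀ ε₀ ψh x 0 * wSide XS' u₀' ε₀' ψh' y j := fun j hj => by
    rw [S.hreg x hx j (Finset.mem_range.1 hj)]
  rw [Finset.sum_congr rfl e1, ← Finset.mul_sum, S'.hsing y hy, mul_zero]

theorem kSide_zero_right (S : Side p M B N e XS u₀ ε₀ ψh) (S' : Side p M B' N e XS' u₀' ε₀' ψh') {x : G} {y : G'}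
    (hx : p ∣ orderOf x) (hy : ¬ p ∣ orderOf y) : kSide N XS u₀ ε₀ ψh XS' u₀' ε₀' ψh' x y = 0 := by
  unfold kSide
  have e1 : ∀ j ∈ Finset.range N, wSide XS u₀ ε₀ ψh x j * wSide XS' u₀' ε₀' ψh' y j =
      wSide XS u₀ ε₀ ψh x j * wSide XS' u₀' ε₀' ψh' y 0 := fun j hj => by
    rw [S'.hreg y hy j (Finset.mem_range.1 hj)]
  rw [Finset.sum_congr rfl e1, ← Finset.sum_mul, S.hsing x hx, zero_mul]

open Classical in
theorem exists_match (S : Side p M B N e XS u₀ ε₀ ψh) (S' : Side p M B' N e XS' u₀' ε₀' ψh') :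
    ∃ I : IrrCharacter G' → IrrCharacter G, (∀ χ' ∈ XS', I χ' ∈ XS) ∧ (∀ χ' ∈ XS', ∀ χ'' ∈ XS', I χ' = I χ'' → χ' = χ'') ∧
      (∀ χ ∈ XS, ∃ χ' ∈ XS', I χ' = χ) ∧ (∀ j, 0 < j → j < N → I (ψh' j) = ψh j) := by
  have hcc : XS'.card = XS.card := by rw [S.hcard, S'.hcard]
  let Xeq : XS' ≃ XS := Finset.equivOfCardEq hcc
  refine ⟨fun χ' => if h : χ' ∈ XS' then (Xeq ⟨χ', h⟩).1
    else if h2 : ∃ j, 0 < j ∧ j < N ∧ ψh' j = χ' then ψh (Classical.choose h2) else ψh 1, ?_, ?_, ?_, ?_⟩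
  · intro χ' h
    simp only [dif_pos h]
    exact (Xeq ⟨χ', h⟩).2
  · intro χ' h χ'' h' e
    simp only [dif_pos h, dif_pos h'] at e
    have := Xeq.injective (Subtype.ext e)
    exact congrArg Subtype.val this
  · intro χ h
    refine ⟨(Xeq.symm ⟨χ, h⟩).1, (Xeq.symm ⟨χ, h⟩).2, ?_⟩
    simp only [dif_pos (Xeq.symm ⟨χ, h⟩).2]
    simp
  · intro j hj hjN
    have h1 := S'.hdisj j hj hjN
    have h2 : ∃ j', 0 < j' ∧ j' < N ∧ ψh' j' = ψh' j := ⟨j, hj, hjN, rfl⟩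
    simp only [dif_neg h1, dif_pos h2]
    obtain ⟨h3, h4, h5⟩ := Classical.choose_spec h2
    exact (S.hrel _ _ h3 h4 hj hjN).2 ((S'.hrel _ _ h3 h4 hj hjN).1 h5)

open Classical in
theorem sum_img (S' : Side p M B' N e XS' u₀' ε₀' ψh') (f : IrrCharacter G' → ℂ) :
    ∑ j ∈ Finset.Ioo 0 N, f (ψh' j) = (e : ℂ) * ∑ b ∈ (Finset.Ioo 0 N).image ψh', f b := by
  rw [Finset.sum_comp f ψh', Finset.mul_sum]
  refine Finset.sum_congr rfl fun b hb => ?_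
  obtain ⟨j, hj, rfl⟩ := Finset.mem_image.1 hb
  have hj' := Finset.mem_Ioo.1 hj
  have h1 : ((Finset.Ioo 0 N).filter (fun a => ψh' a = ψh' j)).card = e := by
    rw [← S'.hfib j hj'.1 hj'.2]
    congr 1
    refine Finset.filter_congr fun a ha => ?_
    have ha' := Finset.mem_Ioo.1 ha
    rw [eq_comm]
    exact S'.hrel _ _ hj'.1 hj'.2 ha'.1 ha'.2
  rw [h1, nsmul_eq_mul]

open Classical in
theorem kernel_eq (S : Side p M B N e XS u₀ ε₀ ψh) (S' : Side p M B' N e XS' u₀' ε₀' ψh')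
    (I : IrrCharacter G' → IrrCharacter G) (ε : IrrCharacter G' → ℤ)
    (hI1 : ∀ χ' ∈ XS', I χ' ∈ XS) (hI2 : ∀ χ' ∈ XS', ∀ χ'' ∈ XS', I χ' = I χ'' → χ' = χ'')
    (hI3 : ∀ χ ∈ XS, ∃ χ' ∈ XS', I χ' = χ) (hI4 : ∀ j, 0 < j → j < N → I (ψh' j) = ψh j)
    (hε1 : ∀ χ' ∈ XS', ε χ' = u₀ (I χ') * u₀' χ') (hε2 : ∀ j, 0 < j → j < N → ε (ψh' j) = ε₀ * ε₀') (x : G) (y : G') :
    (e : ℂ) ^ 2 * signedBijectionKernel B' I ε x y = (e : ℂ) * kSide N XS u₀ ε₀ ψh XS' u₀' ε₀' ψh' x y +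
      ∑ χ' ∈ XS', ((e : ℂ) * ((u₀ (I χ') : ℂ) * (I χ' : G → ℂ) x) - rTil XS u₀ x) *
        ((e : ℂ) * ((u₀' χ' : ℂ) * (χ' : G' → ℂ) y) - rTil XS' u₀' y) := by
  have hE := S.hEc
  -- the set as a union
  have hBu : Finset.univ.filter (fun η => η ∈ B') = XS' ∪ (Finset.Ioo 0 N).image ψh' := by
    ext η
    simp only [Finset.mem_filter, Finset.mem_univ, true_and, Finset.mem_union, Finset.mem_image, Finset.mem_Ioo]
    rw [S'.hB]
    constructor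
    · rintro (h | ⟨j, h1, h2, h3⟩)
      · exact Or.inl h
      · exact Or.inr ⟨j, ⟨h1, h2⟩, h3⟩
    · rintro (h | ⟨j, ⟨h1, h2⟩, h3⟩)
      · exact Or.inl h
      · exact Or.inr ⟨j, h1, h2, h3⟩
  have hd : Disjoint XS' ((Finset.Ioo 0 N).image ψh') := by
    rw [Finset.disjoint_left]
    intro η h1 h2
    obtain ⟨j, hj, rfl⟩ := Finset.mem_image.1 h2
    exact S'.hdisj j (Finset.mem_Ioo.1 hj).1 (Finset.mem_Ioo.1 hj).2 h1
  -- the kernel
  have hK : signedBijectionKernel B' I ε x y = ∑ χ' ∈ XS', ((u₀ (I χ') : ℂ) * (I χ' : G → ℂ) x) * ((u₀' χ' : ℂ) * (χ' : G' → ℂ) y) +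
      (ε₀ : ℂ) * ε₀' * ∑ η ∈ (Finset.Ioo 0 N).image ψh', (I η : G → ℂ) x * (η : G' → ℂ) y := by
    unfold signedBijectionKernel
    rw [finsum_mem_irr, ← Finset.sum_filter, hBu, Finset.sum_union hd]
    congr 1
    · refine Finset.sum_congr rfl fun χ' h => ?_
      rw [hε1 _ h]
      push_cast
      ring
    · rw [Finset.mul_sum]
      refine Finset.sum_congr rfl fun η h => ?_
      obtain ⟨j, hj, rfl⟩ := Finset.mem_image.1 h
      have hj' := Finset.mem_Ioo.1 hj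
      rw [hε2 _ hj'.1 hj'.2]
      push_cast
      ring
  have hY : (e : ℂ) * ∑ η ∈ (Finset.Ioo 0 N).image ψh', (I η : G → ℂ) x * (η : G' → ℂ) y =
      ∑ j ∈ Finset.Ioo 0 N, (ψh j : G → ℂ) x * (ψh' j : G' → ℂ) y := by
    rw [← sum_img S' (fun η => (I η : G → ℂ) x * (η : G' → ℂ) y)]
    refine Finset.sum_congr rfl fun j hj => ?_
    have hj' := Finset.mem_Ioo.1 hj
    simp only [hI4 _ hj'.1 hj'.2]
  have hS1 : ∑ χ' ∈ XS', ((u₀ (I χ') : ℂ) * (I χ' : G → ℂ) x) = rTil XS u₀ x := by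
    unfold rTil
    refine Finset.sum_nbij I hI1 ?_ ?_ (fun _ _ => rfl)
    · intro a ha b hb hab
      exact hI2 a ha b hb hab
    · intro b hb
      obtain ⟨a, ha, hab⟩ := hI3 b hb
      exact ⟨a, ha, hab⟩
  have hS2 : ∑ χ' ∈ XS', ((u₀' χ' : ℂ) * (χ' : G' → ℂ) y) = rTil XS' u₀' y := rfl
  have hP : ∑ χ' ∈ XS', ((e : ℂ) * ((u₀ (I χ') : ℂ) * (I χ' : G → ℂ) x) - rTil XS u₀ x) *
        ((e : ℂ) * ((u₀' χ' : ℂ) * (χ' : G' → ℂ) y) - rTil XS' u₀' y) =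
      (e : ℂ) ^ 2 * ∑ χ' ∈ XS', ((u₀ (I χ') : ℂ) * (I χ' : G → ℂ) x) * ((u₀' χ' : ℂ) * (χ' : G' → ℂ) y)
       - (e : ℂ) * (rTil XS u₀ x * rTil XS' u₀' y) := by
    have e1 : ∀ χ' ∈ XS', ((e : ℂ) * ((u₀ (I χ') : ℂ) * (I χ' : G → ℂ) x) - rTil XS u₀ x) *
        ((e : ℂ) * ((u₀' χ' : ℂ) * (χ' : G' → ℂ) y) - rTil XS' u₀' y) =
        (e : ℂ) ^ 2 * (((u₀ (I χ') : ℂ) * (I χ' : G → ℂ) x) * ((u₀' χ' : ℂ) * (χ' : G' → ℂ) y))
          - (e : ℂ) * rTil XS' u₀' y * ((u₀ (I χ') : ℂ) * (I χ' : G → ℂ) x)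
          - (e : ℂ) * rTil XS u₀ x * ((u₀' χ' : ℂ) * (χ' : G' → ℂ) y)
          + rTil XS u₀ x * rTil XS' u₀' y := fun χ' _ => by ring
    rw [Finset.sum_congr rfl e1, Finset.sum_add_distrib, Finset.sum_sub_distrib, Finset.sum_sub_distrib,
      ← Finset.mul_sum, ← Finset.mul_sum, ← Finset.mul_sum, hS1, hS2, Finset.sum_const, S'.hcard, nsmul_eq_mul]
    ring
  rw [hK, kSide_eq S.hN0, hP, mul_add, ← hY]
  ring

open Classical in
theorem Side.perfect (S : Side p M B N e XS u₀ ε₀ ψh) (S' : Side p M B' N e XS' u₀' ε₀' ψh') :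
    ∃ (I : IrrCharacter G' → IrrCharacter G) (ε : IrrCharacter G' → ℤ),
      IsPerfectIsometry p M B' B I ε ∧ (∀ j, 0 < j → j < N → ε (ψh' j) = ε₀ * ε₀') := by
  have := S.isPrime
  have hE := S.hEc
  obtain ⟨I, hI1, hI2, hI3, hI4⟩ := exists_match S S'
  let ε : IrrCharacter G' → ℤ := fun χ' => if χ' ∈ XS' then u₀ (I χ') * u₀' χ' else ε₀ * ε₀'
  have hε1 : ∀ χ' ∈ XS', ε χ' = u₀ (I χ') * u₀' χ' := fun χ' h => if_pos h
  have hε2 : ∀ j, 0 < j → j < N → ε (ψh' j) = ε₀ * ε₀' := fun j hj hjN => if_neg (S'.hdisj j hj hjN)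
  refine ⟨I, ε, ⟨⟨?_, ?_, ?_⟩, ?_, ?_⟩, hε2⟩
  · intro χ' h
    rcases (S'.hB χ').1 h with h | ⟨j, h1, h2, rfl⟩
    · exact (S.hB _).2 (Or.inl (hI1 _ h))
    · rw [hI4 j h1 h2]
      exact (S.hB _).2 (Or.inr ⟨j, h1, h2, rfl⟩)
  · intro χ' h χ'' h' hh
    rcases (S'.hB χ').1 h with h | ⟨j, h1, h2, rfl⟩ <;> rcases (S'.hB χ'').1 h' with h' | ⟨j', h1', h2', rfl⟩
    · exact hI2 _ h _ h' hh
    · rw [hI4 j' h1' h2'] at hh
      exact absurd (hh ▸ hI1 _ h) (S.hdisj j' h1' h2')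
    · rw [hI4 j h1 h2] at hh
      exact absurd (hh.symm ▸ hI1 _ h') (S.hdisj j h1 h2)
    · rw [hI4 j h1 h2, hI4 j' h1' h2'] at hh
      exact (S'.hrel _ _ h1 h2 h1' h2').2 ((S.hrel _ _ h1 h2 h1' h2').1 hh)
  · intro χ h
    rcases (S.hB χ).1 h with h | ⟨j, h1, h2, rfl⟩
    · obtain ⟨χ', h3, h4⟩ := hI3 χ h
      exact ⟨χ', (S'.hB _).2 (Or.inl h3), h4⟩
    · exact ⟨ψh' j, (S'.hB _).2 (Or.inr ⟨j, h1, h2, rfl⟩), hI4 j h1 h2⟩
  · intro χ' h
    rcases (S'.hB χ').1 h with h | ⟨j, h1, h2, rfl⟩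
    · rw [hε1 _ h]
      rcases S.hu _ (hI1 _ h) with h3 | h3 <;> rcases S'.hu _ h with h4 | h4 <;> rw [h3, h4] <;> norm_num
    · rw [hε2 j h1 h2]
      rcases S.hε₀ with h3 | h3 <;> rcases S'.hε₀ with h4 | h4 <;> rw [h3, h4] <;> norm_num
  · intro x y
    have hK := kernel_eq S S' I ε hI1 hI2 hI3 hI4 hε1 hε2 x y
    have hE2 : (e : ℂ) ^ 2 ≠ 0 := pow_ne_zero _ hE
    have hK2 : signedBijectionKernel B' I ε x y = (e : ℂ)⁻¹ * kSide N XS u₀ ε₀ ψh XS' u₀' ε₀' ψh' x y +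
      ((e : ℂ)⁻¹) ^ 2 * ∑ χ' ∈ XS', ((e : ℂ) * ((u₀ (I χ') : ℂ) * (I χ' : G → ℂ) x) - rTil XS u₀ x) *
        ((e : ℂ) * ((u₀' χ' : ℂ) * (χ' : G' → ℂ) y) - rTil XS' u₀' y) := by
      apply mul_left_cancel₀ hE2
      rw [hK]
      field_simp
    refine ⟨?_, ?_, ?_⟩
    · rw [hK2, add_div]
      refine memLocalRing_add ?_ ?_
      · rw [mul_div_assoc]
        exact memLocalRing_mul S.e_inv_loc (kSide_loc_left S S' x y)
      · rw [mul_div_assoc, Finset.sum_div]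
        refine memLocalRing_mul (memLocalRing_pow S.e_inv_loc 2) (memLocalRing_sum _ _ fun χ' h => ?_)
        rw [mul_div_right_comm]
        exact memLocalRing_mul (S.hP2 _ (hI1 _ h) x) (S'.P_loc y)
    · rw [hK2, add_div]
      refine memLocalRing_add ?_ ?_
      · rw [mul_div_assoc]
        exact memLocalRing_mul S.e_inv_loc (kSide_loc_right S S' x y)
      · rw [mul_div_assoc, Finset.sum_div]
        refine memLocalRing_mul (memLocalRing_pow S.e_inv_loc 2) (memLocalRing_sum _ _ fun χ' h => ?_)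
        rw [mul_div_assoc]
        exact memLocalRing_mul (S.P_loc x) (S'.hP2 _ h y)
    · unfold IsPRegular
      by_cases hx : p ∣ orderOf x <;> by_cases hy : p ∣ orderOf y
      · exact Or.inl (by simp [hx, hy])
      · right
        rw [hK2, kSide_zero_right S S' hx hy, mul_zero, zero_add]
        refine mul_eq_zero_of_right _ (Finset.sum_eq_zero fun χ' h => ?_)
        rw [S.hP1 _ (hI1 _ h) x hx, sub_self, zero_mul]
      · right
        rw [hK2, kSide_zero_left S S' hx hy, mul_zero, zero_add]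
        refine mul_eq_zero_of_right _ (Finset.sum_eq_zero fun χ' h => ?_)
        rw [S'.hP1 _ h y hy, sub_self, mul_zero]
      · exact Or.inl (by simp [hx, hy])

end Compare

end Cfsg.Agent.Lib.FF
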