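import Cfsg.Agent.Lib.FF.CycP2

/-!
# Perfect isometries for blocks with cyclic defect group: the data attached to a block
-/

set_option autoImplicit false
set_option linter.unusedSectionVars false
set_option linter.unusedVariables false
set_option maxSynthPendingDepth 3
set_option linter.style.haveILetI false
set_option linter.unusedSimpArgs false
set_option linter.unnecessarySimpa false

open scoped ComplexConjugate
open Module Cfsg Cfsg.Agent.Lib.Block Cfsg.Agent.Lib.Char Cfsg.Agent.Lib.CharExtra Cfsg.Agent.Lib.BPair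
open Cfsg.Agent.Lib.SmallSimple.Star

namespace Cfsg.Agent.Lib.FF

attribute [local instance] Cfsg.Agent.Lib.BPair.subFintype

section Arith

theorem card_rel_le {p n e N : ℕ} [hp : Fact p.Prime] (hN : N = p ^ (n + 1)) (he : e ∣ p - 1) (he0 : 0 < e) (j : ℕ)
    [DecidablePred fun j' => RelN N e j j'] :
    ((Finset.Ioo 0 N).filter (fun j' => RelN N e j j')).card ≤ e := by
  classical
  by_cases h2 : p = 2
  · have he1 : e = 1 := by
      subst h2
      exact Nat.dvd_one.1 he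
    subst he1
    calc _ ≤ ({j % N} : Finset ℕ).card := Finset.card_le_card ?_
      _ = 1 := Finset.card_singleton _
    intro j' hj'
    obtain ⟨hj1, s, hs1, hs2⟩ := Finset.mem_filter.1 hj'
    rw [pow_one] at hs1
    have h3 : j' ≡ j [MOD N] := hs2.trans (by simpa using hs1.mul_right j)
    rw [Finset.mem_singleton]
    have h4 : j' % N = j % N := h3
    rwa [Nat.mod_eq_of_lt (Finset.mem_Ioo.1 hj1).2] at h4
  · haveI : NeZero N := ⟨by rw [hN]; exact (pow_pos hp.out.pos _).ne'⟩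
    haveI : IsCyclic (ZMod N)ˣ := by
      rw [hN]
      exact ZMod.isCyclic_units_of_prime_pow p hp.out h2 (n + 1)
    have h1 := IsCyclic.card_pow_eq_one_le (α := (ZMod N)ˣ) he0
    refine le_trans (Finset.card_le_card ?_) (Finset.card_image_le (f := fun s : (ZMod N)ˣ => ((s : ZMod N) * (j : ZMod N)).val)
      |>.trans h1)
    intro j' hj'
    obtain ⟨hj1, s, hs1, hs2⟩ := Finset.mem_filter.1 hj'
    have hj'N := (Finset.mem_Ioo.1 hj1).2
    have e1 : (s : ZMod N) ^ e = 1 := by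
      have := (ZMod.natCast_eq_natCast_iff _ _ _).2 hs1
      push_cast at this
      exact this
    have e2 : (j' : ZMod N) = (s : ZMod N) * (j : ZMod N) := by
      have := (ZMod.natCast_eq_natCast_iff _ _ _).2 hs2
      push_cast at this
      exact this
    rw [Finset.mem_image]
    refine ⟨Units.ofPowEqOne _ e e1 he0.ne', ?_, ?_⟩
    · rw [Finset.mem_filter]
      exact ⟨Finset.mem_univ _, Units.pow_ofPowEqOne _ _⟩
    · simp only [Units.val_ofPowEqOne]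
      rw [← e2, ZMod.val_natCast_of_lt hj'N]

end Arith

section Ind

variable {G : Type*} [Group G] [Fintype G] {L : Subgroup G}

/-- Linearity of induction. -/
theorem sum_mul_indFun {ι : Type*} (s : Finset ι) (c : ι → ℂ) (m : ι → L → ℂ) (g : G) :
    ∑ b ∈ s, c b * indFun L (m b) g = indFun L (fun l => ∑ b ∈ s, c b * m b l) g := by
  classical
  simp only [indFun_apply]
  simp only [mul_left_comm (c _), ← Finset.mul_sum]
  congr 1
  simp only [Finset.mul_sum]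
  rw [Finset.sum_comm]
  refine Finset.sum_congr rfl fun x _ => ?_
  by_cases h : x⁻¹ * g * x ∈ L
  · simp only [extendByZero_of_mem L _ h]
  · simp only [extendByZero_of_not_mem L _ h]
    simp

theorem indFun_div_const (m : L → ℂ) (c : ℂ) (g : G) : indFun L (fun l => m l / c) g = indFun L m g / c := by
  have h1 := sum_mul_indFun ({()} : Finset Unit) (fun _ => c⁻¹) (fun _ => m) g
  simp only [Finset.sum_singleton] at h1
  have h2 : (fun l => m l / c) = fun l => c⁻¹ * m l := by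
    funext l
    rw [div_eq_inv_mul]
  rw [h2, ← h1, div_eq_inv_mul]

end Ind

section G

variable {G : Type*} [Group G] [Fintype G] {p : ℕ} [hp : Fact p.Prime] {M : Ideal AlgInt}
  {B : Set (IrrCharacter G)} {L : Subgroup G} {xh : L} {f : Set (IrrCharacter L)}
  {e' : Set (IrrCharacter (Subgroup.centralizer ({xh} : Set L)))} {φ : Subgroup.centralizer ({xh} : Set L) → ℂ}
  {N n : ℕ} {ε : ℂ} {u : MonoidAlgebra ℂ L} {ξ₀ : IrrCharacter L} {D A B' : ℕ} {Tp : Subgroup G} {e : ℕ}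

namespace CycG

variable (C : CycG p M B L xh f e' φ N n ε u ξ₀ D A B' Tp e)
include C

/-- Every root of unity occurs exactly once among the members of `f`. -/
theorem exists_root {j : ℕ} (hj : j < N) :
    ∃ ξ ∈ f, ε * dd N xh φ 1 ξ = zetaN N ^ j ∧ ∀ ξ' ∈ f, ε * dd N xh φ 1 ξ' = zetaN N ^ j → ξ' = ξ := by
  classical
  have hN0 := C.S.hN0
  have hζ := zetaN_prim hN0.ne'
  obtain ⟨ω, hω⟩ : ∃ ω, ω = zetaN N ^ ((N - 1) * j) := ⟨_, rfl⟩
  have hω1 : ω * zetaN N ^ j = 1 := by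
    rw [hω, ← pow_add]
    have : (N - 1) * j + j = N * j := by
      obtain ⟨m, rfl⟩ : ∃ m, N = m + 1 := ⟨N - 1, by omega⟩
      simp only [Nat.add_sub_cancel]
      ring
    rw [this, pow_mul, hζ.pow_eq_one, one_pow]
  have hω0 : ω ≠ 0 := left_ne_zero_of_mul_eq_one hω1
  have hωN : ω ^ N = 1 := by
    rw [hω, ← pow_mul, mul_comm, pow_mul, hζ.pow_eq_one, one_pow]
  obtain ⟨T, hT⟩ : ∃ T : Finset (IrrCharacter L), T = Finset.univ.filter (· ∈ f) := ⟨_, rfl⟩
  have hTm : ∀ χ, χ ∈ T ↔ χ ∈ f := fun χ => by simp [hT]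
  have hcard : T.card = N := by
    rw [← C.S.hcardf, Nat.card_eq_fintype_card, Fintype.card_subtype, hT]
  have hη := C.U.hη
  have hgeom : ∀ ξ ∈ T, ∑ k ∈ Finset.range N, (ω * (ε * dd N xh φ 1 ξ)) ^ k = if ε * dd N xh φ 1 ξ = zetaN N ^ j then (N : ℂ) else 0 := by
    intro ξ hξ
    split_ifs with h
    · rw [h, hω1]
      simp
    · have h1 := geom_sum_mul (ω * (ε * dd N xh φ 1 ξ)) N
      rw [mul_pow, hη ξ ((hTm ξ).1 hξ), hωN, mul_one, sub_self] at h1
      refine (mul_eq_zero.1 h1).resolve_right (sub_ne_zero.2 fun h2 => h ?_)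
      exact mul_left_cancel₀ hω0 (h2.trans hω1.symm)
  have hsum : ∑ k ∈ Finset.range N, ∑ ξ ∈ T, (ω * (ε * dd N xh φ 1 ξ)) ^ k = (N : ℂ) := by
    have h0 : (Finset.range N).sum (fun k => ∑ ξ ∈ T, (ω * (ε * dd N xh φ 1 ξ)) ^ k) =
        ∑ ξ ∈ T, (ω * (ε * dd N xh φ 1 ξ)) ^ 0 := by
      apply Finset.sum_eq_single_of_mem 0 (Finset.mem_range.2 hN0)
      intro k hk hk0
      have e1 : ∀ ξ, (ω * (ε * dd N xh φ 1 ξ)) ^ k = ω ^ k * (ε * dd N xh φ 1 ξ) ^ k := fun ξ => mul_pow _ _ _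
      simp only [e1]
      rw [← Finset.mul_sum, hT, Finset.sum_filter, C.S.sum_pow_eq_zero C.U.hε hη (Nat.pos_of_ne_zero hk0) (Finset.mem_range.1 hk), mul_zero]
    rw [h0]
    simp [hcard]
  rw [Finset.sum_comm, Finset.sum_congr rfl hgeom, Finset.sum_ite, Finset.sum_const_zero, add_zero, Finset.sum_const,
    nsmul_eq_mul] at hsum
  have hc1 : (T.filter fun ξ => ε * dd N xh φ 1 ξ = zetaN N ^ j).card = 1 := by
    have h1 : ((T.filter fun ξ => ε * dd N xh φ 1 ξ = zetaN N ^ j).card : ℂ) = 1 := by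
      apply mul_right_cancel₀ C.S.hNc
      rw [hsum, one_mul]
    exact_mod_cast h1
  obtain ⟨ξ₁, hξ₁⟩ := Finset.card_eq_one.1 hc1
  have hmem : ξ₁ ∈ T.filter fun ξ => ε * dd N xh φ 1 ξ = zetaN N ^ j := by
    rw [hξ₁]
    exact Finset.mem_singleton_self _
  refine ⟨ξ₁, (hTm _).1 (Finset.mem_filter.1 hmem).1, (Finset.mem_filter.1 hmem).2, fun ξ hξ h1 => ?_⟩
  have h2 : ξ ∈ T.filter fun ξ => ε * dd N xh φ 1 ξ = zetaN N ^ j := Finset.mem_filter.2 ⟨(hTm _).2 hξ, h1⟩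
  rw [hξ₁] at h2
  exact Finset.mem_singleton.1 h2

/-- The enumeration of `A`. -/
theorem exists_enum : ∃ ah : ℕ → AT f ξ₀, (∀ j, 0 < j → j < N → ε * dd N xh φ 1 (ah j).1 = zetaN N ^ j) ∧
    (∀ b : AT f ξ₀, ∃ j, 0 < j ∧ j < N ∧ ah j = b) := by
  classical
  have hN0 := C.S.hN0
  have hζ := zetaN_prim hN0.ne'
  obtain ⟨a₀⟩ := C.nonempty_AT
  have h1 : ∀ j, ∃ x : AT f ξ₀, 0 < j → j < N → ε * dd N xh φ 1 x.1 = zetaN N ^ j := by
    intro j
    by_cases hj : 0 < j ∧ j < N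
    · obtain ⟨ξ, hξ, h2, -⟩ := C.exists_root hj.2
      refine ⟨⟨ξ, hξ, ?_⟩, fun _ _ => h2⟩
      rintro rfl
      rw [C.U.hone] at h2
      have h3 := (hζ.pow_eq_one_iff_dvd j).1 h2.symm
      exact absurd (Nat.le_of_dvd hj.1 h3) (by omega)
    · exact ⟨a₀, fun h h' => absurd ⟨h, h'⟩ hj⟩
  choose ah hah using h1
  refine ⟨ah, hah, fun b => ?_⟩
  haveI : NeZero N := ⟨hN0.ne'⟩
  obtain ⟨j, hj, hjb⟩ := hζ.eq_pow_of_pow_eq_one (C.U.hη b.1 b.2.1)
  have hj0 : 0 < j := by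
    rcases Nat.eq_zero_or_pos j with rfl | h
    · rw [pow_zero] at hjb
      exact absurd (C.U.huniq b.1 b.2.1 hjb.symm) b.2.2
    · exact h
  refine ⟨j, hj0, hj, ?_⟩
  obtain ⟨ξ, hξ, h2, h3⟩ := C.exists_root hj
  apply Subtype.ext
  rw [h3 _ (ah j).2.1 (hah j hj0 hj), h3 _ b.2.1 hjb.symm]

end CycG

section Fm

open Classical

/-- The combination of the members of `f`. -/
noncomputable def Mr (f : Set (IrrCharacter L)) (ε : ℂ) (N : ℕ) (xh : L) (φ : Subgroup.centralizer ({xh} : Set L) → ℂ) (r : ℕ) (l : L) : ℂ :=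
  ∑ ξ : IrrCharacter L, if ξ ∈ f then (ε * dd N xh φ 1 ξ) ^ r * (ξ : L → ℂ) l else 0

theorem Mr_class (r : ℕ) (c : ℂ) : IsClassFunction L (fun l => Mr f ε N xh φ r l / c) := by
  intro g x
  have h1 : Mr f ε N xh φ r (x * g * x⁻¹) = Mr f ε N xh φ r g := by
    unfold Mr
    refine Finset.sum_congr rfl fun ξ _ => ?_
    split_ifs
    · rw [IsCharacter.conj_apply (IsIrrCharacter.isCharacter ξ.2)]
    · rfl
  simp only [h1]

namespace CycG

variable (C : CycG p M B L xh f e' φ N n ε u ξ₀ D A B' Tp e)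
include C

theorem one_add_sum_pow {r : ℕ} (hr : ¬ N ∣ r) : 1 + ∑ b : AT f ξ₀, (ε * dd N xh φ 1 b.1) ^ r = 0 := by
  have h1 := C.sum_AT (fun ξ => (ε * dd N xh φ 1 ξ) ^ r)
  simp only [C.U.hone, one_pow] at h1
  rw [add_comm, h1]
  have h2 : ∀ ξ : IrrCharacter L, (if ξ ∈ f then (ε * dd N xh φ 1 ξ) ^ r else 0) = (if ξ ∈ f then (ε * dd N xh φ 1 ξ) ^ (r % N) else 0) := by
    intro ξ
    split_ifs with h
    · rw [← pow_eq_pow_mod r (C.U.hη ξ h)]
    · rfl
  simp only [h2]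
  exact C.S.sum_pow_eq_zero C.U.hε C.U.hη (Nat.pos_of_ne_zero fun h => hr (Nat.dvd_of_mod_eq_zero h)) (Nat.mod_lt _ C.S.hN0)

theorem sum_f_eq (g : L) : ∑ ξ : IrrCharacter L, (if ξ ∈ f then (ξ : L → ℂ) g else 0) = (N : ℂ) * pRegularPart p (ξ₀ : L → ℂ) g := by
  by_cases hg : p ∣ orderOf g
  · rw [C.psi_sing hg, pRegularPart_eq_zero_of_dvd _ hg, mul_zero]
  · rw [pRegularPart_eq_of_regular _ hg]
    have h2 : ∀ ξ : IrrCharacter L, (if ξ ∈ f then (ξ : L → ℂ) g else 0) = if ξ ∈ f then (ξ₀ : L → ℂ) g else 0 := by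
      intro ξ
      split_ifs with hξ
      · exact NilU.reg_eq C.S hξ C.U.h₀ hg
      · rfl
    simp only [h2]
    rw [Finset.sum_ite, Finset.sum_const_zero, add_zero, Finset.sum_const, nsmul_eq_mul]
    have hc : (Finset.univ.filter (· ∈ f)).card = N := by
      rw [← C.S.hcardf, Nat.card_eq_fintype_card, Fintype.card_subtype]
    rw [hc]

theorem tr_sum_f (z : MonoidAlgebra ℂ L) : ∑ ξ : IrrCharacter L, (if ξ ∈ f then tr (ξ : L → ℂ) z else 0) =
    (N : ℂ) * tr (pRegularPart p (ξ₀ : L → ℂ)) z := by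
  unfold tr
  rw [Finset.mul_sum]
  simp only [mul_left_comm (N : ℂ), ← C.sum_f_eq, Finset.mul_sum]
  rw [Finset.sum_comm]
  refine Finset.sum_congr rfl fun ξ _ => ?_
  split_ifs
  · rfl
  · simp

theorem tr_Mr (r : ℕ) (w : MonoidAlgebra ℂ L) : tr (Mr f ε N xh φ r) w = (N : ℂ) * tr (pRegularPart p (ξ₀ : L → ℂ)) (u ^ r * w) := by
  rw [← C.tr_sum_f]
  have huc := C.U.huc C.S
  have h1 : ∀ ξ : IrrCharacter L, (if ξ ∈ f then tr (ξ : L → ℂ) (u ^ r * w) else 0) =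
      if ξ ∈ f then (ε * dd N xh φ 1 ξ) ^ r * tr (ξ : L → ℂ) w else 0 := by
    intro ξ
    split_ifs with hξ
    · rw [tr_mul_central ξ.2 (isCentralElt_pow huc r), om_pow ξ.2 huc, C.U.om_u C.S hξ]
    · rfl
  simp only [h1]
  unfold tr Mr
  simp only [Finset.mul_sum]
  rw [Finset.sum_comm]
  refine Finset.sum_congr rfl fun ξ _ => ?_
  split_ifs
  · refine Finset.sum_congr rfl fun g _ => ?_
    ring
  · simp

theorem localCoeff_u : LocalCoeff M u := by
  have := C.isPrime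
  rw [C.U.hu]
  refine localCoeff_smul ?_ C.S.wW_local
  refine memLocalRing_mul (memLocalRing_mul ?_ (memLocalRing_natCast _)) (memLocalRing_natCast_inv C.hM C.U.hA)
  rcases C.U.hε with rfl | rfl
  · exact memLocalRing_one
  · exact memLocalRing_neg memLocalRing_one

theorem reg_loc (g : L) : MemLocalRing M (pRegularPart p (ξ₀ : L → ℂ) g) := by
  have := C.isPrime
  by_cases hg : p ∣ orderOf g
  · rw [pRegularPart_eq_zero_of_dvd _ hg]
    exact memLocalRing_zero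
  · rw [pRegularPart_eq_of_regular _ hg]
    exact val_loc _ _

theorem Mr_loc (r : ℕ) (l : L) : MemLocalRing M (Mr f ε N xh φ r l / (N : ℂ)) := by
  have := C.isPrime
  have h1 : Mr f ε N xh φ r l = tr (Mr f ε N xh φ r) (MonoidAlgebra.single l (1 : ℂ)) := by
    rw [tr_single, one_mul]
  rw [h1, C.tr_Mr, mul_div_cancel_left₀ _ C.S.hNc]
  unfold tr
  refine memLocalRing_sum _ _ fun g _ => memLocalRing_mul ?_ (C.reg_loc g)
  exact localCoeff_mul (localCoeff_pow C.localCoeff_u r) (localCoeff_single _ memLocalRing_one) g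

theorem ind_Mr_loc (r : ℕ) (x : G) : MemLocalRing M (indFun L (Mr f ε N xh φ r) x / (N : ℂ)) := by
  have := C.isPrime
  rw [← indFun_div_const]
  exact memLocal_indFun (Mr_class r _) (fun l => C.Mr_loc r l) x

theorem ind_Mr_cen (r : ℕ) (x : G) : MemLocalRing M (indFun L (Mr f ε N xh φ r) x / (Nat.card (Subgroup.centralizer ({x} : Set G)) : ℂ)) := by
  have := C.isPrime
  rw [indFun_div_cen, C.tr_Mr, tr_pRegularPart]
  obtain ⟨z, hz⟩ : ∃ z, z = regPart p (u ^ r * resAlg L (classSum x)) := ⟨_, rfl⟩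
  rw [← hz]
  have hzc : IsCentralElt z := by
    rw [hz]
    exact isCentralElt_regPart (isCentralElt_mul (isCentralElt_pow (C.U.huc C.S) r) (isCentralElt_resAlg L (isCentralElt_classSum x)))
  have hzl : LocalCoeff M z := by
    rw [hz]
    exact localCoeff_regPart (localCoeff_mul (localCoeff_pow C.localCoeff_u r) (localCoeff_resAlg L (Cfsg.Agent.Lib.Block.localCoeff_classSum x)))
  have h1 : tr (ξ₀ : L → ℂ) z = om (ξ₀ : L → ℂ) z * (D : ℂ) := by
    unfold om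
    rw [C.U.hD1 C.U.h₀, div_mul_cancel₀ _ C.U.hDne]
  rw [h1]
  have h2 : (Nat.card L : ℂ)⁻¹ * ((N : ℂ) * (om (ξ₀ : L → ℂ) z * (D : ℂ))) = ((Nat.card L : ℂ)⁻¹ * ((N : ℂ) * D)) * om (ξ₀ : L → ℂ) z := by ring
  rw [h2, C.U.hBA]
  exact memLocalRing_mul (memLocalRing_mul (memLocalRing_natCast _) (memLocalRing_natCast_inv C.hM C.U.hA)) (memLocalRing_om ξ₀.2 hzc hzl)

end CycG

section Fm2

variable {u₀ : IrrCharacter G → ℤ} {ε₀ : ℤ} {ψ : AT f ξ₀ → IrrCharacter G}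

namespace CycG

variable (C : CycG p M B L xh f e' φ N n ε u ξ₀ D A B' Tp e)
  (hε : ε₀ = 1 ∨ ε₀ = -1) (F : Form (cc ξ₀ : AT f ξ₀ → IrrCharacter G → ℤ) (rT Tp L f ξ₀) u₀ ε₀ ψ) (hu0 : ∀ a, u₀ (ψ a) = 0)
  {ah : ℕ → AT f ξ₀} (ha1 : ∀ j, 0 < j → j < N → ε * dd N xh φ 1 (ah j).1 = zetaN N ^ j) (ha2 : ∀ b : AT f ξ₀, ∃ j, 0 < j ∧ j < N ∧ ah j = b)

include C ha1 ha2 in
theorem sum_enum (F' : AT f ξ₀ → ℂ) : ∑ j ∈ Finset.Ioo 0 N, F' (ah j) = ∑ b, F' b := by
  refine Finset.sum_nbij ah (fun _ _ => Finset.mem_univ _) ?_ ?_ (fun _ _ => rfl)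
  · intro j hj j' hj' h
    have hj1 := Finset.mem_Ioo.1 hj
    have hj2 := Finset.mem_Ioo.1 hj'
    have e1 := ha1 j hj1.1 hj1.2
    rw [h, ha1 j' hj2.1 hj2.2] at e1
    exact ((zetaN_prim C.S.hN0.ne').pow_inj hj2.2 hj1.2 e1).symm
  · intro b _
    obtain ⟨j, h1, h2, h3⟩ := ha2 b
    exact ⟨j, Finset.mem_Ioo.2 ⟨h1, h2⟩, h3⟩

omit hp in
theorem rTil_eq (x : G) : rTil (Finset.univ.filter fun χ => u₀ χ ≠ 0) u₀ x = ∑ χ : IrrCharacter G, (u₀ χ : ℂ) * (χ : G → ℂ) x := by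
  unfold rTil
  rw [Finset.sum_filter]
  refine Finset.sum_congr rfl fun χ _ => ?_
  by_cases h : u₀ χ = 0
  · simp [h]
  · simp [h]

omit hp in
include F in
theorem WW_form (a : AT f ξ₀) (x : G) : WW ξ₀ a x = rTil (Finset.univ.filter fun χ => u₀ χ ≠ 0) u₀ x + (ε₀ : ℂ) * (ψ a : G → ℂ) x := by
  rw [WW_eq, rTil_eq]
  have h2 : ∀ χ : IrrCharacter G, (cc ξ₀ a χ : ℂ) * (χ : G → ℂ) x =
      (u₀ χ : ℂ) * (χ : G → ℂ) x + if χ = ψ a then (ε₀ : ℂ) * (χ : G → ℂ) x else 0 := by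
    intro χ
    rw [F.val]
    by_cases h : χ = ψ a
    · rw [if_pos h, if_pos h]
      push_cast
      ring
    · rw [if_neg h, if_neg h]
      push_cast
      ring
  rw [Finset.sum_congr rfl (fun χ _ => h2 χ), Finset.sum_add_distrib, Finset.sum_ite_eq', if_pos (Finset.mem_univ _)]

include C F ha1 ha2 in
theorem aSide_eq (r : ℕ) (x : G) : aSide N (Finset.univ.filter fun χ => u₀ χ ≠ 0) u₀ ε₀ (fun j => ψ (ah j)) r x =
    ∑ b : AT f ξ₀, (ε * dd N xh φ 1 b.1) ^ r * WW ξ₀ b x -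
      rTil (Finset.univ.filter fun χ => u₀ χ ≠ 0) u₀ x * (1 + ∑ b : AT f ξ₀, (ε * dd N xh φ 1 b.1) ^ r) := by
  unfold aSide
  have e1 : Finset.range N = insert 0 (Finset.Ioo 0 N) := by
    ext j
    simp only [Finset.mem_range, Finset.mem_insert, Finset.mem_Ioo]
    have := C.S.hN0
    omega
  rw [e1, Finset.sum_insert (by simp)]
  obtain ⟨XS, hXS⟩ : ∃ XS, XS = (Finset.univ.filter fun χ => u₀ χ ≠ 0) := ⟨_, rfl⟩
  have e2 : ∑ j ∈ Finset.Ioo 0 N, zetaN N ^ (j * r) * wSide (Finset.univ.filter fun χ => u₀ χ ≠ 0) u₀ ε₀ (fun j => ψ (ah j)) x j =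
      ∑ j ∈ Finset.Ioo 0 N, (fun b : AT f ξ₀ => (ε * dd N xh φ 1 b.1) ^ r * (WW ξ₀ b x - rTil (Finset.univ.filter fun χ => u₀ χ ≠ 0) u₀ x)) (ah j) := by
    refine Finset.sum_congr rfl fun j hj => ?_
    have hj' := Finset.mem_Ioo.1 hj
    have h0 : j ≠ 0 := by omega
    simp only [wSide, if_neg h0]
    rw [ha1 j hj'.1 hj'.2, ← pow_mul, WW_form F]
    ring
  rw [e2, C.sum_enum ha1 ha2 (fun b : AT f ξ₀ => (ε * dd N xh φ 1 b.1) ^ r * (WW ξ₀ b x - rTil (Finset.univ.filter fun χ => u₀ χ ≠ 0) u₀ x))]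
  simp only [mul_sub, Finset.sum_sub_distrib, wSide, if_true, zero_mul, pow_zero, one_mul]
  rw [← Finset.sum_mul, ← hXS]
  ring

include C F hu0 in
theorem ip_u_cc (hε : ε₀ = 1 ∨ ε₀ = -1) (b : AT f ξ₀) : ∑ χ : IrrCharacter G, (u₀ χ : ℂ) * (cc ξ₀ b χ : ℂ) = (e : ℂ) := by
  have h1 : ∀ χ : IrrCharacter G, (u₀ χ : ℂ) * (cc ξ₀ b χ : ℂ) = if u₀ χ ≠ 0 then 1 else 0 := by
    intro χ
    by_cases h : u₀ χ = 0
    · simp [h]
    · rw [if_pos h, C.cc_X F hu0 h]
      exact_mod_cast C.u_sq F hu0 h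
  simp only [h1]
  rw [Finset.sum_ite, Finset.sum_const_zero, add_zero, Finset.sum_const, nsmul_eq_mul, mul_one, E_card_X C.ae F hu0 hε b]

include C in
theorem sum_cc_cc (b : AT f ξ₀) : ∑ a : AT f ξ₀, ∑ χ : IrrCharacter G, (cc ξ₀ a χ : ℂ) * (cc ξ₀ b χ : ℂ) = (N : ℂ) * e := by
  have hgram : ∀ a b : AT f ξ₀, ∑ χ : IrrCharacter G, (cc ξ₀ a χ : ℂ) * (cc ξ₀ b χ : ℂ) =
      (e : ℂ) + if rT Tp L f ξ₀ a b then 1 else 0 := by
    intro a b
    have h1 := C.gram a b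
    have h2 := congrArg (Int.cast : ℤ → ℂ) h1
    unfold ip at h2
    push_cast at h2
    exact h2
  simp only [hgram]
  rw [Finset.sum_add_distrib, Finset.sum_const, Finset.card_univ, nsmul_eq_mul]
  have e1 : ∑ a : AT f ξ₀, (if rT Tp L f ξ₀ a b then (1 : ℂ) else 0) = (e : ℂ) := by
    have e2 := C.card_cls b
    have e3 : ∑ a : AT f ξ₀, (if rT Tp L f ξ₀ a b then (1 : ℂ) else 0) =
        ((Finset.univ.filter fun a => rT Tp L f ξ₀ b a).card : ℂ) := by
      rw [Finset.card_filter]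
      push_cast
      refine Finset.sum_congr rfl fun a _ => ?_
      have hsym : rT Tp L f ξ₀ b a ↔ rT Tp L f ξ₀ a b := ⟨C.rT_symm, C.rT_symm⟩
      simp only [hsym]
    rw [e3, e2]
  rw [e1]
  have h3 : (N : ℂ) = (Fintype.card (AT f ξ₀) : ℂ) + 1 := by
    rw [← C.card_AT]
    push_cast
    rfl
  rw [h3]
  ring

/-- The integer combination attached to the sum of the vectors. -/
noncomputable def a1S (N : ℕ) (f : Set (IrrCharacter L)) (ξ₀ : IrrCharacter L) (u₀ : IrrCharacter G → ℤ) (χ : IrrCharacter G) : ℤ :=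
  ∑ a : AT f ξ₀, cc ξ₀ a χ - (N : ℤ) * u₀ χ

omit hp in
theorem sum_a1S (x : G) : ∑ χ : IrrCharacter G, (a1S N f ξ₀ u₀ χ : ℂ) * (χ : G → ℂ) x =
    ∑ a : AT f ξ₀, WW ξ₀ a x - (N : ℂ) * rTil (Finset.univ.filter fun χ => u₀ χ ≠ 0) u₀ x := by
  simp only [WW_eq, rTil_eq, a1S]
  push_cast
  simp only [sub_mul, Finset.sum_mul]
  rw [Finset.sum_sub_distrib, Finset.sum_comm, Finset.mul_sum]
  congr 1
  refine Finset.sum_congr rfl fun χ _ => ?_
  ring

include C F hu0 hε in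
theorem a1S_vanish {x : G} (hx : p ∣ orderOf x) : ∑ χ : IrrCharacter G, (a1S N f ξ₀ u₀ χ : ℂ) * (χ : G → ℂ) x = 0 := by
  apply C.sing_vanish (fun χ => (a1S N f ξ₀ u₀ χ : ℂ)) _ _ hx
  · intro χ hχ
    have h1 : u₀ χ = 0 := by
      by_contra h
      exact hχ (C.X_mem F hu0 h)
    have h2 : a1S N f ξ₀ u₀ χ = 0 := by
      unfold a1S
      rw [h1, mul_zero, sub_zero]
      exact Finset.sum_eq_zero fun a _ => C.hc0 a hχ
    simp [h2]
  · intro b
    simp only [a1S]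
    push_cast
    simp only [sub_mul, Finset.sum_mul]
    rw [Finset.sum_sub_distrib, Finset.sum_comm, C.sum_cc_cc b]
    have h1 : ∑ χ : IrrCharacter G, (N : ℂ) * (u₀ χ : ℂ) * (cc ξ₀ b χ : ℂ) = (N : ℂ) * e := by
      rw [← C.ip_u_cc F hu0 hε b, Finset.mul_sum]
      refine Finset.sum_congr rfl fun χ _ => ?_
      ring
    rw [h1, sub_self]

/-- The integer combination attached to a member of `X`. -/
noncomputable def a2S (e : ℕ) (u₀ : IrrCharacter G → ℤ) (χ χ' : IrrCharacter G) : ℤ :=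
  (if χ' = χ then (e : ℤ) * u₀ χ else 0) - u₀ χ'

omit hp in
theorem sum_a2S (χ : IrrCharacter G) (x : G) : ∑ χ' : IrrCharacter G, (a2S e u₀ χ χ' : ℂ) * (χ' : G → ℂ) x =
    (e : ℂ) * ((u₀ χ : ℂ) * (χ : G → ℂ) x) - rTil (Finset.univ.filter fun χ => u₀ χ ≠ 0) u₀ x := by
  rw [rTil_eq]
  simp only [a2S]
  push_cast
  simp only [sub_mul]
  rw [Finset.sum_sub_distrib]
  congr 1
  rw [Finset.sum_eq_single χ]
  · rw [if_pos rfl]
    ring
  · intro b _ hb
    rw [if_neg hb, zero_mul]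
  · intro h
    exact absurd (Finset.mem_univ _) h

include C F hu0 hε in
theorem a2S_vanish {χ : IrrCharacter G} (hχ : u₀ χ ≠ 0) {x : G} (hx : p ∣ orderOf x) :
    ∑ χ' : IrrCharacter G, (a2S e u₀ χ χ' : ℂ) * (χ' : G → ℂ) x = 0 := by
  apply C.sing_vanish (fun χ' => (a2S e u₀ χ χ' : ℂ)) _ _ hx
  · intro χ' hχ'
    have h1 : u₀ χ' = 0 := by
      by_contra h
      exact hχ' (C.X_mem F hu0 h)
    have h2 : χ' ≠ χ := fun h => hχ' (h ▸ C.X_mem F hu0 hχ)
    simp [a2S, h1, h2]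
  · intro b
    simp only [a2S]
    push_cast
    simp only [sub_mul]
    rw [Finset.sum_sub_distrib, C.ip_u_cc F hu0 hε b, Finset.sum_eq_single χ]
    · rw [if_pos rfl, C.cc_X F hu0 hχ]
      have h1 : (u₀ χ : ℂ) * (u₀ χ : ℂ) = 1 := by exact_mod_cast C.u_sq F hu0 hχ
      calc (e : ℂ) * (u₀ χ : ℂ) * (u₀ χ : ℂ) - (e : ℂ) = (e : ℂ) * ((u₀ χ : ℂ) * (u₀ χ : ℂ)) - (e : ℂ) := by ring
        _ = 0 := by rw [h1]; ring
    · intro a _ ha
      rw [if_neg ha, zero_mul]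
    · intro h
      exact absurd (Finset.mem_univ _) h

include C ha1 ha2 in
theorem rel_classes (hN : N = p ^ (n + 1)) (hact : ∀ g ∈ Tp, ∃ s : ℕ, s ^ e ≡ 1 [MOD N] ∧ ∀ ξ ∈ f, ε * dd N xh φ 1 (actI L g ξ) = (ε * dd N xh φ 1 ξ) ^ s)
    {j : ℕ} (hj0 : 0 < j) (hjN : j < N) :
    ((Finset.Ioo 0 N).filter (fun j' => RelN N e j j')).card = e ∧
      ∀ j', 0 < j' → j' < N → (rT Tp L f ξ₀ (ah j) (ah j') ↔ RelN N e j j') := by
  have hζ := zetaN_prim C.S.hN0.ne'
  have hsub : ∀ j', 0 < j' → j' < N → rT Tp L f ξ₀ (ah j) (ah j') → RelN N e j j' := by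
    intro j' h1 h2 ⟨g, hg, hg2⟩
    obtain ⟨s, hs1, hs2⟩ := hact g hg
    refine ⟨s, hs1, ?_⟩
    have h3 := hs2 _ (ah j).2.1
    rw [hg2, ha1 j' h1 h2, ha1 j hj0 hjN, ← pow_mul] at h3
    have h5 : j' % N = (s * j) % N := by
      rw [mul_comm s j]
      refine hζ.pow_inj (Nat.mod_lt _ C.S.hN0) (Nat.mod_lt _ C.S.hN0) ?_
      rw [← pow_eq_pow_mod _ hζ.pow_eq_one, ← pow_eq_pow_mod _ hζ.pow_eq_one]
      exact h3
    exact h5
  obtain ⟨K, hK⟩ : ∃ K, K = (Finset.Ioo 0 N).filter (fun j' => rT Tp L f ξ₀ (ah j) (ah j')) := ⟨_, rfl⟩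
  obtain ⟨R, hR⟩ : ∃ R, R = (Finset.Ioo 0 N).filter (fun j' => RelN N e j j') := ⟨_, rfl⟩
  have hKc : K.card = e := by
    rw [← C.card_cls (ah j), hK]
    refine Finset.card_nbij ah ?_ ?_ ?_
    · intro j' h
      obtain ⟨h1, h2⟩ := Finset.mem_filter.1 h
      exact Finset.mem_coe.2 (Finset.mem_filter.2 ⟨Finset.mem_univ _, h2⟩)
    · intro a ha b hb hab
      have h1 := Finset.mem_Ioo.1 (Finset.mem_filter.1 (Finset.mem_coe.1 ha)).1
      have h2 := Finset.mem_Ioo.1 (Finset.mem_filter.1 (Finset.mem_coe.1 hb)).1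
      have e1 := ha1 a h1.1 h1.2
      rw [hab, ha1 b h2.1 h2.2] at e1
      exact (hζ.pow_inj h2.2 h1.2 e1).symm
    · intro b hb
      obtain ⟨j', h1, h2, h3⟩ := ha2 b
      refine ⟨j', ?_, h3⟩
      have h4 := (Finset.mem_filter.1 (Finset.mem_coe.1 hb)).2
      rw [← h3] at h4
      exact Finset.mem_coe.2 (Finset.mem_filter.2 ⟨Finset.mem_Ioo.2 ⟨h1, h2⟩, h4⟩)
  have hKR : K ⊆ R := by
    intro j' h
    rw [hK] at h
    obtain ⟨h1, h2⟩ := Finset.mem_filter.1 h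
    have h3 := Finset.mem_Ioo.1 h1
    rw [hR]
    exact Finset.mem_filter.2 ⟨h1, hsub j' h3.1 h3.2 h2⟩
  have hRc : R.card ≤ e := by
    rw [hR]
    exact card_rel_le hN C.he C.e_pos j
  have hKR2 : K = R := Finset.eq_of_subset_of_card_le hKR (by rw [hKc]; exact hRc)
  refine ⟨by rw [← hR, ← hKR2, hKc], fun j' h1 h2 => ⟨hsub j' h1 h2, fun h3 => ?_⟩⟩
  have h4 : j' ∈ R := by
    rw [hR]
    exact Finset.mem_filter.2 ⟨Finset.mem_Ioo.2 ⟨h1, h2⟩, h3⟩
  rw [← hKR2, hK] at h4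
  exact (Finset.mem_filter.1 h4).2

end CycG

end Fm2

namespace CycG

variable (C : CycG p M B L xh f e' φ N n ε u ξ₀ D A B' Tp e)
include C

/-- **The data attached to a block with cyclic defect group.** -/
theorem exists_side (hN : N = p ^ (n + 1))
    (hact : ∀ g ∈ Tp, ∃ s : ℕ, s ^ e ≡ 1 [MOD N] ∧ ∀ ξ ∈ f, ε * dd N xh φ 1 (actI L g ξ) = (ε * dd N xh φ 1 ξ) ^ s) :
    ∃ (XS : Finset (IrrCharacter G)) (u₀ : IrrCharacter G → ℤ) (ε₀ : ℤ) (ψh : ℕ → IrrCharacter G),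
      Side p M B N e XS u₀ ε₀ ψh ∧ (∀ g : G, p ∣ orderOf g → rTil XS u₀ g = - indFun L (ξ₀ : L → ℂ) g) := by
  have := C.isPrime
  obtain ⟨u₀, ε₀, ψ, hε, F, hu0⟩ := C.exists_form
  obtain ⟨ah, ha1, ha2⟩ := C.exists_enum
  obtain ⟨a₀⟩ := C.nonempty_AT
  have hNc := C.S.hNc
  have hNpos := C.S.hN0
  have hXS : ∀ χ, χ ∈ (Finset.univ.filter fun χ => u₀ χ ≠ 0) ↔ u₀ χ ≠ 0 := fun χ => by simp
  have hsumW : ∀ x, ∑ j ∈ Finset.range N, wSide (Finset.univ.filter fun χ => u₀ χ ≠ 0) u₀ ε₀ (fun j => ψ (ah j)) x j =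
      ∑ χ : IrrCharacter G, (a1S N f ξ₀ u₀ χ : ℂ) * (χ : G → ℂ) x := by
    intro x
    have h1 := C.aSide_eq F ha1 ha2 0 x
    unfold aSide at h1
    simp only [mul_zero, pow_zero, one_mul] at h1
    rw [h1, sum_a1S]
    rw [Finset.sum_const, Finset.card_univ, nsmul_eq_mul, mul_one]
    have h3 : (N : ℂ) = (Fintype.card (AT f ξ₀) : ℂ) + 1 := by
      rw [← C.card_AT]
      push_cast
      rfl
    rw [h3]
    ring
  have hone_dvd : ∀ {r}, N ∣ r → ∀ b : AT f ξ₀, (ε * dd N xh φ 1 b.1) ^ r = 1 := by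
    intro r hr b
    obtain ⟨t, rfl⟩ := hr
    rw [pow_mul, C.U.hη b.1 b.2.1, one_pow]
  have hsing : ∀ x, p ∣ orderOf x → ∑ j ∈ Finset.range N, wSide (Finset.univ.filter fun χ => u₀ χ ≠ 0) u₀ ε₀ (fun j => ψ (ah j)) x j = 0 := by
    intro x hx
    rw [hsumW]
    exact C.a1S_vanish hε F hu0 hx
  have hreg : ∀ x, ¬ p ∣ orderOf x → ∀ j, j < N → wSide (Finset.univ.filter fun χ => u₀ χ ≠ 0) u₀ ε₀ (fun j => ψ (ah j)) x j =
      wSide (Finset.univ.filter fun χ => u₀ χ ≠ 0) u₀ ε₀ (fun j => ψ (ah j)) x 0 := by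
    intro x hx j hj
    rcases Nat.eq_zero_or_pos j with rfl | h0
    · rfl
    · simp only [wSide, if_neg h0.ne', if_true]
      rw [rTil_eq]
      linear_combination C.reg_rel F hu0 (ah j) hx
  have hP1 : ∀ χ ∈ (Finset.univ.filter fun χ => u₀ χ ≠ 0), ∀ x, p ∣ orderOf x → (e : ℂ) * ((u₀ χ : ℂ) * (χ : G → ℂ) x) =
      rTil (Finset.univ.filter fun χ => u₀ χ ≠ 0) u₀ x := by
    intro χ hχ x hx
    have h1 := C.a2S_vanish hε F hu0 ((hXS χ).1 hχ) hx
    rw [sum_a2S] at h1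
    exact sub_eq_zero.1 h1
  refine ⟨Finset.univ.filter fun χ => u₀ χ ≠ 0, u₀, ε₀, fun j => ψ (ah j), ?_, ?_⟩
  · refine ⟨C.hM, C.S.hN0, C.not_dvd_e F hu0, hε, ?_, E_card_X C.ae F hu0 hε a₀, ?_, ?_, ?_, ?_, ?_, ?_, hsing, hreg, hP1, ?_⟩
    · intro χ hχ
      exact C.unit F hu0 ((hXS χ).1 hχ)
    · intro χ
      rw [hXS]
      constructor
      · intro h
        rcases C.mem_cases F hu0 h with h1 | h1
        · exact Or.inl h1
        · obtain ⟨a, -, rfl⟩ := Finset.mem_image.1 h1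
          obtain ⟨j, h2, h3, rfl⟩ := ha2 a
          exact Or.inr ⟨j, h2, h3, rfl⟩
      · rintro (h | ⟨j, -, -, rfl⟩)
        · exact C.X_mem F hu0 h
        · exact C.Y_mem F hu0 _
    · intro j _ _ h
      exact (hXS _).1 h (hu0 _)
    · intro j j' h1 h2 h3 h4
      rw [F.hψ]
      exact (C.rel_classes ha1 ha2 hN hact h1 h2).2 j' h3 h4
    · intro j h1 h2
      exact (C.rel_classes ha1 ha2 hN hact h1 h2).1
    · intro r x
      by_cases hr : N ∣ r
      · -- the exponent is divisible by `N`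
        by_cases hx : p ∣ orderOf x
        · have h1 : aSide N (Finset.univ.filter fun χ => u₀ χ ≠ 0) u₀ ε₀ (fun j => ψ (ah j)) r x = 0 := by
            rw [← hsing x hx]
            unfold aSide
            refine Finset.sum_congr rfl fun j _ => ?_
            obtain ⟨t, rfl⟩ := hr
            rw [← mul_assoc, mul_comm j N, mul_assoc, pow_mul, (zetaN_prim hNpos.ne').pow_eq_one, one_pow, one_mul]
          rw [h1, zero_div]
          exact memLocalRing_zero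
        · have h1 : aSide N (Finset.univ.filter fun χ => u₀ χ ≠ 0) u₀ ε₀ (fun j => ψ (ah j)) r x =
              (N : ℂ) * wSide (Finset.univ.filter fun χ => u₀ χ ≠ 0) u₀ ε₀ (fun j => ψ (ah j)) x 0 := by
            unfold aSide
            have h2 : ∀ j ∈ Finset.range N, zetaN N ^ (j * r) * wSide (Finset.univ.filter fun χ => u₀ χ ≠ 0) u₀ ε₀ (fun j => ψ (ah j)) x j =
                wSide (Finset.univ.filter fun χ => u₀ χ ≠ 0) u₀ ε₀ (fun j => ψ (ah j)) x 0 := by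
              intro j hj
              rw [hreg x hx j (Finset.mem_range.1 hj)]
              obtain ⟨t, rfl⟩ := hr
              rw [← mul_assoc, mul_comm j N, mul_assoc, pow_mul, (zetaN_prim hNpos.ne').pow_eq_one, one_pow, one_mul]
            rw [Finset.sum_congr rfl h2, Finset.sum_const, Finset.card_range, nsmul_eq_mul]
          rw [h1, mul_div_cancel_left₀ _ hNc]
          simp only [wSide, if_true]
          exact memLocalRing_neg (by
            unfold rTil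
            exact memLocalRing_sum _ _ fun χ _ => memLocalRing_mul (memLocalRing_intCast _) (val_loc χ x))
      · rw [C.aSide_eq F ha1 ha2, C.one_add_sum_pow hr, mul_zero, sub_zero]
        have h2 : ∑ b : AT f ξ₀, (ε * dd N xh φ 1 b.1) ^ r * WW ξ₀ b x = indFun L (Mr f ε N xh φ r) x := by
          unfold WW
          rw [sum_mul_indFun]
          congr 1
          funext l
          have h3 := C.one_add_sum_pow hr
          have h4 := C.sum_AT (fun ξ => (ε * dd N xh φ 1 ξ) ^ r * (ξ : L → ℂ) l)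
          simp only [C.U.hone, one_pow, one_mul] at h4
          unfold Mr
          rw [← h4]
          simp only [al, Pi.sub_apply, mul_sub]
          rw [Finset.sum_sub_distrib, ← Finset.sum_mul]
          linear_combination (-(ξ₀ : L → ℂ) l) * h3
        rw [h2]
        exact C.ind_Mr_loc r x
    · intro r x
      by_cases hr : N ∣ r
      · have h1 : aSide N (Finset.univ.filter fun χ => u₀ χ ≠ 0) u₀ ε₀ (fun j => ψ (ah j)) r x =
            ∑ χ : IrrCharacter G, (a1S N f ξ₀ u₀ χ : ℂ) * (χ : G → ℂ) x := by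
          rw [← hsumW]
          unfold aSide
          refine Finset.sum_congr rfl fun j _ => ?_
          obtain ⟨t, rfl⟩ := hr
          rw [← mul_assoc, mul_comm j N, mul_assoc, pow_mul, (zetaN_prim hNpos.ne').pow_eq_one, one_pow, one_mul]
        rw [h1]
        exact memLocal_of_vanish C.hM _ (fun g hg => C.a1S_vanish hε F hu0 hg) x
      · rw [C.aSide_eq F ha1 ha2, C.one_add_sum_pow hr, mul_zero, sub_zero]
        have h2 : ∑ b : AT f ξ₀, (ε * dd N xh φ 1 b.1) ^ r * WW ξ₀ b x = indFun L (Mr f ε N xh φ r) x := by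
          unfold WW
          rw [sum_mul_indFun]
          congr 1
          funext l
          have h3 := C.one_add_sum_pow hr
          have h4 := C.sum_AT (fun ξ => (ε * dd N xh φ 1 ξ) ^ r * (ξ : L → ℂ) l)
          simp only [C.U.hone, one_pow, one_mul] at h4
          unfold Mr
          rw [← h4]
          simp only [al, Pi.sub_apply, mul_sub]
          rw [Finset.sum_sub_distrib, ← Finset.sum_mul]
          linear_combination (-(ξ₀ : L → ℂ) l) * h3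
        rw [h2]
        exact C.ind_Mr_cen r x
    · intro χ hχ x
      rw [← sum_a2S]
      exact memLocal_of_vanish C.hM _ (fun g hg => C.a2S_vanish hε F hu0 ((hXS χ).1 hχ) hg) x
  · intro g hg
    have h1 := C.a1S_vanish hε F hu0 hg
    rw [sum_a1S, C.sum_WW_sing hg] at h1
    apply mul_left_cancel₀ hNc
    linear_combination -h1

end CycG

end Fm

end G

end Cfsg.Agent.Lib.FF
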