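import Cfsg.Agent.Lib.FF.CycP3
import Cfsg.Agent.Lib.BPair.Corr

/-!
# Perfect isometries for blocks with cyclic defect group: local subgroups
-/

set_option autoImplicit false
set_option linter.unusedSectionVars false
set_option linter.unusedVariables false
set_option maxSynthPendingDepth 3
set_option linter.style.haveILetI false
set_option linter.unusedSimpArgs false
set_option linter.unnecessarySimpa false

open scoped ComplexConjugate
open Module Cfsg Cfsg.Agent.Lib.Block Cfsg.Agent.Lib.Char Cfsg.Agent.Lib.CharExtra Cfsg.Agent.Lib.BPair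
open Cfsg.Agent.Lib.SmallSimple.Star

namespace Cfsg.Agent.Lib.FF

attribute [local instance] Cfsg.Agent.Lib.BPair.subFintype

section P4

variable {G : Type*} [Group G] [Fintype G] {p : ℕ} [hp : Fact p.Prime] {M : Ideal AlgInt}

/-- Pairs of a subgroup containing the centralizer induce pairs of the group. -/
theorem pair_up_of_induced (hM : IsPModular p M) {L : Subgroup G} {S : Subgroup L} (h : Cen (up S) ≤ L)
    {c : Set (IrrCharacter L)} {s : Set (IrrCharacter (Cen S))} (hs : IsBrauerPairOf p M c S s) {B : Set (IrrCharacter G)}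
    (hind : IsInducedBlock M L c B) (hpg : IsPGroup p (up S)) :
    IsBrauerPairOf p M B (up S) (mapBlock (cenIso S h) s) := by
  classical
  have := isPModular_isPrime hM
  obtain ⟨⟨-, hsb⟩, hcb, -⟩ := isBrauerPairOf_iff.1 hs
  have hB := hind.2.1
  refine isBrauerPairOf_iff.2 ⟨⟨hpg, isPBlock_mapBlock _ hsb⟩, hB, fun ξ hξ => ?_⟩
  rw [mem_mapBlock] at hξ
  obtain ⟨z, hz⟩ : ∃ z, z = resAlg L (blockElt B) := ⟨_, rfl⟩
  have hzc : IsCentralElt z := by
    rw [hz]
    exact isCentralElt_resAlg L (isCentralElt_blockElt B)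
  have hzl : LocalCoeff M z := by
    rw [hz]
    exact localCoeff_resAlg L (localCoeff_blockElt (isBlockUnion_of_isPBlock hB))
  have e1 : resAlg (Cen (up S)) (blockElt B) = resAlg (Cen (up S)) (incl L z) := by
    apply ext_coeff
    intro x
    rw [coeff_resAlg, coeff_resAlg]
    have e2 := coeff_incl_coe L z ⟨x, h x.2⟩
    simp only at e2
    rw [e2, hz, coeff_resAlg]
  rw [e1, om_up S h]
  obtain ⟨χ, hχ⟩ := IsPBlock_nonempty hcb
  obtain ⟨η, hη⟩ := IsPBlock_nonempty hB
  have h1 := om_resAlg_congr hM hs hξ hχ hzc hzl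
  have h2 : MemLocalIdeal M (om (χ : L → ℂ) z - om (η : G → ℂ) (blockElt B)) := by
    rw [hz]
    exact memLocalIdeal_om_resAlg_sub L (IsCharacter.isClassFunction (IsIrrCharacter.isCharacter η.2)) (hind.2.2 χ hχ η hη)
      (isCentralElt_blockElt B) (localCoeff_blockElt (isBlockUnion_of_isPBlock hB))
  rw [om_blockElt_of_mem hη] at h2
  have h3 := memLocalIdeal_add h1 h2
  have e3 : om (mapIrr (cenIso S h).symm ξ : Cen S → ℂ) (resAlg (Cen S) z) - om (χ : L → ℂ) z + (om (χ : L → ℂ) z - 1) =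
      om (mapIrr (cenIso S h).symm ξ : Cen S → ℂ) (resAlg (Cen S) z) - 1 := by ring
  rwa [e3] at h3

theorem cen_up_eq {L : Subgroup G} {S : Subgroup L} (h : Cen (up S) ≤ L) : Cen (up S) = up (Cen S) := by
  ext g
  constructor
  · intro hg
    exact ⟨⟨g, h hg⟩, mem_cen_of_coe hg, rfl⟩
  · rintro ⟨c, hc, rfl⟩
    exact coe_mem_cen_up hc

theorem stab_up_iff {L : Subgroup G} {S : Subgroup L} (h : Cen (up S) ≤ L) {s : Set (IrrCharacter (Cen S))} [M.IsPrime]
    (hs : IsPBlock M s) {u : L} (hu : u ∈ Subgroup.normalizer (S : Set L)) :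
    StabilizesBlock (Cen (up S)) (mapBlock (cenIso S h) s) (u : G) ↔ StabilizesBlock (Cen S) s u := by
  have hu1 := normalizer_le_normalizer_cen hu
  have hu2 := normalizer_le_normalizer_cen (coe_mem_normalizer_up hu)
  rw [stabilizes_iff hs, stabilizes_iff (isPBlock_mapBlock _ hs)]
  constructor
  · rintro ⟨hh, h1⟩
    refine ⟨hu1, ?_⟩
    rw [← mapBlock_cenIso_nConj h hu1 hh] at h1
    have h2 := congrArg (mapBlock (cenIso S h).symm) h1
    rwa [mapBlock_symm_mapBlock, mapBlock_symm_mapBlock] at h2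
  · rintro ⟨hh, h1⟩
    refine ⟨hu2, ?_⟩
    rw [← mapBlock_cenIso_nConj h hh hu2, h1]

/-- The perfect isometry with a subgroup containing the normalizer of the defect group. -/
theorem perfect_up (hM : IsPModular p M) {L : Subgroup G} {S : Subgroup L} {B : Set (IrrCharacter G)} {c : Set (IrrCharacter L)}
    (h : Cen (up S) ≤ L) (hN : Subgroup.normalizer ((up S : Subgroup G) : Set G) ≤ L)
    (hcS : IsDefectGroup p M c S) (hcyc : IsCyclic S) {n : ℕ} (hn : Nat.card S = p ^ (n + 1)) (hD : IsDefectGroup p M B (up S))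
    (hind : IsInducedBlock M L c B) :
    Nat.card c = Nat.card B ∧ blockRank p c = blockRank p B ∧
      ∃ (I : IrrCharacter L → IrrCharacter G) (ε : IrrCharacter L → ℤ), IsPerfectIsometry p M c B I ε := by
  classical
  have := isPModular_isPrime hM
  have hc := hind.1
  have hB := hind.2.1
  obtain ⟨s, hs⟩ := exists_pair_on_defect hM hcS hc
  have hpg : IsPGroup p (up S) := isPGroup_of_isDefectGroup hD
  have hb := pair_up_of_induced hM h hs hind hpg
  have hsb : IsPBlock M s := (isBrauerPairOf_iff.1 hs).1.2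
  have hbb : IsPBlock M (mapBlock (cenIso S h) s) := (isBrauerPairOf_iff.1 hb).1.2
  obtain ⟨TL, hTL⟩ := exists_pairT hsb
  obtain ⟨TG, hTG⟩ := exists_pairT hbb
  have hTmap : TG = up TL := by
    ext g
    constructor
    · intro hg
      obtain ⟨h1, h2⟩ := (hTG g).1 hg
      have hgL : g ∈ L := hN h1
      have h3 : (⟨g, hgL⟩ : L) ∈ Subgroup.normalizer (S : Set L) := mem_normalizer_of_coe h1
      exact ⟨⟨g, hgL⟩, (hTL _).2 ⟨h3, (stab_up_iff h hsb h3).1 h2⟩, rfl⟩
    · rintro ⟨u, hu, rfl⟩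
      obtain ⟨h1, h2⟩ := (hTL u).1 hu
      exact (hTG _).2 ⟨coe_mem_normalizer_up h1, (stab_up_iff h hsb h1).2 h2⟩
  have he : (Cen (up S)).relIndex TG = (Cen S).relIndex TL := by
    rw [hTmap, cen_up_eq h]
    exact Subgroup.relIndex_map_map_of_injective _ _ L.subtype_injective
  have hcycG : IsCyclic (up S) := by
    have e1 : S ≃* up S := S.equivMapOfInjective L.subtype L.subtype_injective
    exact isCyclic_of_surjective e1 e1.surjective
  have hnG : Nat.card (up S) = p ^ (n + 1) := by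
    rw [← hn]
    exact Nat.card_congr (S.equivMapOfInjective L.subtype L.subtype_injective).toEquiv.symm
  obtain ⟨L₁, xh₁, f₁, e₁, φ₁, ε₁, u₁, ξ₁, D₁, A₁, B₁, Tp₁, C₁, hact₁⟩ :=
    exists_cycG' hM hB hcycG hnG hD (isInducedBlock_of_pair hM hb) hTG he
  obtain ⟨L₂, xh₂, f₂, e₂, φ₂, ε₂, u₂, ξ₂, D₂, A₂, B₂, Tp₂, C₂, hact₂⟩ :=
    exists_cycG' hM hc hcyc hn hcS (isInducedBlock_of_pair hM hs) hTL rfl
  obtain ⟨XS₁, w₁, δ₁, ψ₁, S₁, -⟩ := C₁.exists_side rfl hact₁
  obtain ⟨XS₂, w₂, δ₂, ψ₂, S₂, -⟩ := C₂.exists_side rfl hact₂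
  obtain ⟨I, ε, hI, -⟩ := S₁.perfect S₂
  have hr₁ := C₁.main.2.2.1
  have hr₂ := C₂.main.2.2.1
  refine ⟨?_, by rw [hr₁, hr₂], I, ε, hI⟩
  exact Nat.card_congr hI.1.equiv

end P4

section Main

variable {G : Type*} [Group G] [Finite G] {p : ℕ} [hp : Fact p.Prime] {M : Ideal AlgInt}

/-- The statement on the normalizer of the subgroup of order `p`. -/
theorem perfect_normalizer (hM : IsPModular p M) {B : Set (IrrCharacter G)} (hB : IsPBlock M B) {P : Subgroup G}
    (hPD : IsDefectGroup p M B P) (hP1 : P ≠ ⊥) (hcyc : IsCyclic P) {Z : Subgroup G} (hZ : Z ≤ P) (hZcard : Nat.card Z = p)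
    {H : Subgroup G} (hH : H = Subgroup.normalizer (Z : Set G)) {c : Set (IrrCharacter H)}
    (hcD : IsDefectGroup p M c (P.subgroupOf H)) (hc : IsInducedBlock M H c B) :
    Nat.card c = Nat.card B ∧ blockRank p c = blockRank p B ∧
      ∃ (I : IrrCharacter H → IrrCharacter G) (ε : IrrCharacter H → ℤ), IsPerfectIsometry p M c B I ε := by
  classical
  cases nonempty_fintype G
  have := isPModular_isPrime hM
  have hab := comm_of_cyclic hcyc
  have hZ1 : Z ≠ ⊥ := by
    rintro rfl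
    rw [Subgroup.card_bot] at hZcard
    exact hp.out.one_lt.ne hZcard
  have hPH : P ≤ H := by
    rw [hH]
    intro x hx
    exact cen_le_normalizer Z (le_cen_of_abelian hab hZ hx)
  have hCH : Cen P ≤ H := by
    rw [hH]
    exact (cen_le_cen hZ).trans (cen_le_normalizer Z)
  have hNH : Subgroup.normalizer (P : Set G) ≤ H := by
    rw [hH]
    intro g hg
    exact normalizer_le_of_cyclic hcyc hZ hg
  have hPp := isPGroup_of_isDefectGroup hPD
  obtain ⟨k, hk⟩ := IsPGroup.iff_card.1 hPp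
  have hk0 : k ≠ 0 := by
    rintro rfl
    rw [pow_zero] at hk
    exact hP1 (Subgroup.eq_bot_of_card_eq _ hk)
  obtain ⟨n, rfl⟩ : ∃ n, k = n + 1 := ⟨k - 1, by omega⟩
  have hSc : IsCyclic (P.subgroupOf H) := by
    have e1 : P.subgroupOf H ≃* P := Subgroup.subgroupOfEquivOfLe hPH
    exact isCyclic_of_surjective e1.symm e1.symm.surjective
  have hSn : Nat.card (P.subgroupOf H) = p ^ (n + 1) := by
    rw [← hk]
    exact Nat.card_congr (Subgroup.subgroupOfEquivOfLe hPH).toEquiv
  obtain ⟨S, hS⟩ : ∃ S, S = P.subgroupOf H := ⟨_, rfl⟩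
  rw [← hS] at hcD hSc hSn
  have hup : P = up S := by
    rw [hS]
    exact (Subgroup.map_subgroupOf_eq_of_le hPH).symm
  clear hS
  subst hup
  exact perfect_up hM hCH hNH hcD hSc hSn hPD hc

end Main

end Cfsg.Agent.Lib.FF
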