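import Cfsg.Agent.Lib.FF.CycP4
import Cfsg.Agent.S4487
import Cfsg.Agent.Lib.Core.Basic

/-!
# Perfect isometries for blocks with cyclic defect group: the model group
-/

set_option autoImplicit false
set_option linter.unusedSectionVars false
set_option linter.unusedVariables false
set_option maxSynthPendingDepth 3
set_option linter.style.haveILetI false
set_option linter.unusedSimpArgs false
set_option linter.unnecessarySimpa false

open scoped ComplexConjugate
open Module Cfsg Cfsg.Agent.Lib.Block Cfsg.Agent.Lib.Char Cfsg.Agent.Lib.CharExtra Cfsg.Agent.Lib.BPair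
open Cfsg.Agent.Lib.SmallSimple.Star

namespace Cfsg.Agent.Lib.FF

attribute [local instance] Cfsg.Agent.Lib.BPair.subFintype

section Single

variable {X : Type*} [Group X] [Finite X] {p : ℕ} [hp : Fact p.Prime] {M : Ideal AlgInt}

theorem disjoint_of_coprime_of_pgroup {N Q : Subgroup X} (hN : (Nat.card N).Coprime p) (hQ : IsPGroup p Q) : Disjoint N Q := by
  rw [Subgroup.disjoint_def]
  intro x hx hx2
  obtain ⟨k, hk⟩ := hQ ⟨x, hx2⟩
  have h1 : x ^ p ^ k = 1 := congrArg Subtype.val hk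
  have h2 : x ^ Nat.card N = 1 := by
    have h3 := pow_card_eq_one' (x := (⟨x, hx⟩ : N))
    exact congrArg Subtype.val h3
  have h4 : Nat.Coprime (Nat.card N) (p ^ k) := Nat.Coprime.pow_right _ hN
  have h5 := Nat.Coprime.gcd_eq_one h4
  have h6 := orderOf_dvd_of_pow_eq_one h1
  have h7 := orderOf_dvd_of_pow_eq_one h2
  have h8 := Nat.dvd_gcd h7 h6
  rw [h5, Nat.dvd_one, orderOf_eq_one_iff] at h8
  exact h8

/-- A group with a normal self-centralizing `p`-subgroup has a single block. -/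
theorem all_same (hM : IsPModular p M) {Q : Subgroup X} (hQn : Q.Normal) (hQp : IsPGroup p Q)
    (hQC : Subgroup.centralizer (Q : Set X) ≤ Q) (χ ψ : IrrCharacter X) : SameBlock M (χ : X → ℂ) (ψ : X → ℂ) := by
  refine Cfsg.Agent.S4487.result p M hM ?_ ?_ χ ψ
  · rw [Cfsg.Agent.Lib.Core.pPrimeCore_eq_bot_iff]
    intro N hN hNp
    have hd := disjoint_of_coprime_of_pgroup hNp hQp
    have hle : N ≤ Q := by
      intro x hx
      apply hQC
      rw [Subgroup.mem_centralizer_iff]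
      intro y hy
      exact (Subgroup.commute_of_normal_of_disjoint N Q hN hQn hd x y hx hy).symm
    exact disjoint_self.1 (hd.mono_right hle)
  · have hle : Q ≤ pCore p X := Cfsg.Agent.Lib.Core.le_pCore hQn hQp
    exact (Subgroup.centralizer_le hle).trans (hQC.trans hle)

theorem eq_univ_of_all_same {b : Set (IrrCharacter X)} (hb : IsPBlock M b)
    (h : ∀ χ ψ : IrrCharacter X, SameBlock M (χ : X → ℂ) (ψ : X → ℂ)) : b = Set.univ := by
  obtain ⟨χ, rfl⟩ := hb
  exact Set.eq_univ_of_forall fun ψ => h χ ψ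

theorem normal_sylow_of_card {n e : ℕ} {Q : Subgroup X} (hQn : Nat.card Q = p ^ (n + 1)) (hF : Nat.card X = p ^ (n + 1) * e)
    (he : e ∣ p - 1) (he0 : 0 < e) : Q.Normal ∧ Subsingleton (Sylow p X) ∧ ∃ S : Sylow p X, (S : Subgroup X) = Q := by
  have hp2 := hp.out.two_le
  have hle : e ≤ p - 1 := Nat.le_of_dvd (by omega) he
  have hpe : ¬ p ∣ e := fun h => by
    have := Nat.le_of_dvd he0 h
    omega
  have hfac : (Nat.card X).factorization p = n + 1 := by
    rw [hF, Nat.factorization_mul (pow_ne_zero _ hp.out.ne_zero) he0.ne', Nat.factorization_pow]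
    simp [hp.out.factorization_self, Nat.factorization_eq_zero_of_not_dvd hpe]
  obtain ⟨S, hS⟩ : ∃ S : Sylow p X, (S : Subgroup X) = Q := ⟨Sylow.ofCard Q (by rw [hQn, hfac]), Sylow.coe_ofCard _ _⟩
  have hidx : (S : Subgroup X).index = e := by
    have h1 := Subgroup.card_mul_index (S : Subgroup X)
    rw [hS, hQn, hF] at h1
    rw [hS]
    exact Nat.eq_of_mul_eq_mul_left (pow_pos hp.out.pos _) h1
  have h1 : Nat.card (Sylow p X) ≡ 1 [MOD p] := card_sylow_modEq_one p X
  have h2 : Nat.card (Sylow p X) ∣ e := by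
    have := S.card_dvd_index
    rwa [hidx] at this
  have h3 : Nat.card (Sylow p X) ≤ e := Nat.le_of_dvd he0 h2
  have h4 : Nat.card (Sylow p X) = 1 := by
    have h5 : Nat.card (Sylow p X) % p = 1 % p := h1
    rw [Nat.mod_eq_of_lt (by omega), Nat.mod_eq_of_lt (by omega)] at h5
    exact h5
  haveI hsub : Subsingleton (Sylow p X) := (Nat.card_eq_one_iff_unique.1 h4).1
  refine ⟨?_, hsub, S, hS⟩
  have h5 := S.normal_of_subsingleton
  rwa [hS] at h5

end Single

section Deg

variable {F : Type*} [Group F] [Fintype F]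

/-- The count of the degrees of the constituents of an induced character. -/
theorem sum_mu_deg {Q : Subgroup F} (hQab : ∀ a b : Q, a * b = b * a) (lam : IrrCharacter Q) :
    ∑ κ : IrrCharacter F, mu Q κ lam * charDegree (κ : F → ℂ) = Q.index := by
  have h1 := congrFun (classFunction_eq_sum (indFun Q (lam : Q → ℂ)) (indFun_isClassFunction Q _)) 1
  rw [Finset.sum_apply] at h1
  have hl1 : (lam : Q → ℂ) 1 = 1 := charDegree_eq_one_of_comm hQab lam.2
  rw [indFun_one, hl1, mul_one] at h1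
  have h2 : ∀ κ : IrrCharacter F, (classInner (indFun Q (lam : Q → ℂ)) (κ : F → ℂ) • (κ : F → ℂ)) 1 =
      ((mu Q κ lam * charDegree (κ : F → ℂ) : ℕ) : ℂ) := by
    intro κ
    have e : classInner (lam : Q → ℂ) (fun h : Q => (κ : F → ℂ) h) = (mu Q κ lam : ℂ) := by
      rw [← conj_classInner, mu_spec]
      simp
    rw [Pi.smul_apply, smul_eq_mul, frobenius_reciprocity Q _ _ (IsCharacter.isClassFunction (IsIrrCharacter.isCharacter κ.2)), e,
      map_one_eq_charDegree (IsIrrCharacter.isCharacter κ.2)]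
    push_cast
    rfl
  simp only [h2] at h1
  exact_mod_cast h1.symm

/-- A character with a value of the shape `∓1` on the nonidentity elements of a large abelian subgroup is the only one nontrivial
on this subgroup. -/
theorem eq_of_nontriv {Q : Subgroup F} (hQab : ∀ a b : Q, a * b = b * a) {N e : ℕ} (hN : Nat.card Q = N)
    (he : Q.index = e) (hlt : e < N) {χ η : IrrCharacter F} {δ : ℂ} (hδ : δ = 1 ∨ δ = -1)
    (hχ : ∀ g ∈ Q, g ≠ 1 → δ * (χ : F → ℂ) g = -1)
    (hχ1 : ∃ x ∈ Q, (χ : F → ℂ) x ≠ (χ : F → ℂ) 1) (hη1 : ∃ x ∈ Q, (η : F → ℂ) x ≠ (η : F → ℂ) 1) : η = χ := by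
  classical
  have hN0 : N ≠ 0 := by
    rw [← hN]
    exact Nat.card_pos.ne'
  have hNc : (N : ℂ) ≠ 0 := by exact_mod_cast hN0
  have hδ2 : δ * δ = 1 := by
    rcases hδ with rfl | rfl <;> norm_num
  have hA : ∀ κ : IrrCharacter F, (∃ x ∈ Q, (κ : F → ℂ) x ≠ (κ : F → ℂ) 1) →
      ∃ lam : IrrCharacter Q, (lam : Q → ℂ) ≠ (fun _ => 1) ∧ mu Q κ lam ≠ 0 := by
    rintro κ ⟨x, hx, hne⟩
    by_contra hcon
    push Not at hcon
    have hcf : IsClassFunction Q (fun l : Q => (κ : F → ℂ) l) :=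
      IsCharacter.isClassFunction (IsCharacter.restrict Q (IsIrrCharacter.isCharacter κ.2))
    have h2 : ∀ l : Q, (κ : F → ℂ) l = ∑ lam : IrrCharacter Q, (mu Q κ lam : ℂ) * (lam : Q → ℂ) l := by
      intro l
      have h1 := congrFun (classFunction_eq_sum _ hcf) l
      rw [Finset.sum_apply] at h1
      simp only [Pi.smul_apply, smul_eq_mul, mu_spec] at h1
      exact h1
    have h3 : ∀ l : Q, (κ : F → ℂ) l = (κ : F → ℂ) ((1 : Q) : F) := by
      intro l
      rw [h2 l, h2 1]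
      refine Finset.sum_congr rfl fun lam _ => ?_
      by_cases h : (lam : Q → ℂ) = fun _ => 1
      · rw [h]
      · rw [hcon lam h]
        simp
    exact hne (h3 ⟨x, hx⟩)
  have hχ' : ∀ g ∈ Q, g ≠ 1 → (χ : F → ℂ) g = -δ := by
    intro g hg hg1
    have h1 := hχ g hg hg1
    calc (χ : F → ℂ) g = δ * (δ * (χ : F → ℂ) g) := by rw [← mul_assoc, hδ2, one_mul]
      _ = -δ := by rw [h1]; ring
  have hB : ∀ lam : IrrCharacter Q, (lam : Q → ℂ) ≠ (fun _ => 1) → (N : ℂ) * (mu Q χ lam : ℂ) = (χ : F → ℂ) 1 + δ := by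
    intro lam hlam
    have h1 := mu_spec Q χ lam
    rw [classInner_def, hN] at h1
    have hl1 : (lam : Q → ℂ) 1 = 1 := charDegree_eq_one_of_comm hQab lam.2
    have h0 : ∑ g : Q, conj ((lam : Q → ℂ) g) = 0 := by
      have h3 := classInner_irr_of_ne (isIrrCharacter_one (G := Q)) lam.2 (Ne.symm hlam)
      rw [classInner_def, hN] at h3
      have h4 := (mul_eq_zero.1 h3).resolve_left (inv_ne_zero hNc)
      simpa using h4
    have h2 : ∀ g : Q, (χ : F → ℂ) g * conj ((lam : Q → ℂ) g) = (-δ) * conj ((lam : Q → ℂ) g) + if g = 1 then (χ : F → ℂ) 1 + δ else 0 := by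
      intro g
      by_cases hg : g = 1
      · subst hg
        rw [if_pos rfl, hl1, map_one]
        push_cast
        ring
      · rw [if_neg hg, add_zero, hχ' g g.2 (fun h => hg (Subtype.ext h))]
    rw [Finset.sum_congr rfl (fun g _ => h2 g), Finset.sum_add_distrib, ← Finset.mul_sum, h0, mul_zero, zero_add,
      Finset.sum_ite_eq' Finset.univ (1 : Q), if_pos (Finset.mem_univ _)] at h1
    rw [← h1]
    field_simp
  by_contra hne
  obtain ⟨lam₀, h1, h2⟩ := hA χ hχ1
  obtain ⟨lam₁, h3, h4⟩ := hA η hη1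
  have h5 : mu Q χ lam₁ = mu Q χ lam₀ := by
    have h6 := (hB lam₁ h3).trans (hB lam₀ h1).symm
    have h7 := mul_left_cancel₀ hNc h6
    exact_mod_cast h7
  have hd : (χ : F → ℂ) 1 = (charDegree (χ : F → ℂ) : ℂ) := map_one_eq_charDegree (IsIrrCharacter.isCharacter χ.2)
  have h6 : N ≤ charDegree (χ : F → ℂ) + 1 := by
    have h7 := hB lam₀ h1
    rw [hd] at h7
    have hm : 1 ≤ mu Q χ lam₀ := Nat.pos_of_ne_zero h2
    have h8 : N ≤ N * mu Q χ lam₀ := Nat.le_mul_of_pos_right _ hm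
    rcases hδ with rfl | rfl
    · have h9 : N * mu Q χ lam₀ = charDegree (χ : F → ℂ) + 1 := by exact_mod_cast h7
      omega
    · have h9 : N * mu Q χ lam₀ + 1 = charDegree (χ : F → ℂ) := by
        have : (N : ℂ) * (mu Q χ lam₀ : ℂ) + 1 = (charDegree (χ : F → ℂ) : ℂ) := by
          rw [h7]
          ring
        exact_mod_cast this
      omega
  have h7 := sum_mu_deg hQab lam₁
  have h8 : mu Q χ lam₁ * charDegree (χ : F → ℂ) + mu Q η lam₁ * charDegree (η : F → ℂ) ≤
      ∑ κ : IrrCharacter F, mu Q κ lam₁ * charDegree (κ : F → ℂ) := by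
    rw [← Finset.sum_pair (f := fun κ : IrrCharacter F => mu Q κ lam₁ * charDegree (κ : F → ℂ)) (fun h => hne h.symm)]
    exact Finset.sum_le_sum_of_subset (Finset.subset_univ _)
  have h9 : charDegree (χ : F → ℂ) ≤ mu Q χ lam₁ * charDegree (χ : F → ℂ) :=
    Nat.le_mul_of_pos_left _ (by rw [h5]; exact Nat.pos_of_ne_zero h2)
  have h10 : 1 ≤ mu Q η lam₁ * charDegree (η : F → ℂ) :=
    Nat.mul_pos (Nat.pos_of_ne_zero h4) (charDegree_pos_of_irr η.2)
  rw [h7, he] at h8
  omega

end Deg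

section Model

variable {F : Type*} [Group F] [Fintype F] {p : ℕ} [hp : Fact p.Prime] {M : Ideal AlgInt}
  {L : Subgroup F} {xh : L} {f : Set (IrrCharacter L)}
  {e' : Set (IrrCharacter (Subgroup.centralizer ({xh} : Set L)))} {φ : Subgroup.centralizer ({xh} : Set L) → ℂ}
  {n : ℕ} {ε : ℂ} {u : MonoidAlgebra ℂ L} {ξ₀ : IrrCharacter L} {D A B' : ℕ} {Tp : Subgroup F} {e : ℕ} {B : Set (IrrCharacter F)}

namespace CycG

/-- When the section element generates `L`, the distinguished character is trivial. -/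
theorem xi0_eq_one (C : CycG p M B L xh f e' φ (p ^ (n + 1)) n ε u ξ₀ D A B' Tp e) (hgen : ∀ l : L, ∃ k : ℕ, l = xh ^ k) (l : L) :
    (ξ₀ : L → ℂ) l = 1 := by
  classical
  have hab : ∀ a b : L, a * b = b * a := by
    intro a b
    obtain ⟨i, rfl⟩ := hgen a
    obtain ⟨j, rfl⟩ := hgen b
    exact (Commute.refl xh).pow_pow i j
  have hox := C.orderOf_xh
  have hord : ∀ c : L, c ≠ 1 → p ∣ orderOf c := by
    intro c hc
    obtain ⟨k, rfl⟩ := hgen c
    have h1 : orderOf (xh ^ k) ∣ p ^ (n + 1) := by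
      apply orderOf_dvd_of_pow_eq_one
      rw [← pow_mul, mul_comm, pow_mul, ← hox, pow_orderOf_eq_one, one_pow]
    obtain ⟨j, -, hj⟩ := (Nat.dvd_prime_pow hp.out).1 h1
    rw [hj]
    rcases j with _ | j
    · exfalso
      apply hc
      rw [pow_zero] at hj
      exact orderOf_eq_one_iff.1 hj
    · exact dvd_pow_self _ (by omega)
  have hLcard : Nat.card L = p ^ (n + 1) := by
    rw [← hox, ← Nat.card_zpowers]
    have h1 : Subgroup.zpowers xh = ⊤ := by
      rw [eq_top_iff]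
      intro l _
      obtain ⟨k, rfl⟩ := hgen l
      exact Subgroup.pow_mem _ (Subgroup.mem_zpowers xh) k
    rw [h1, Subgroup.card_top]
  have hCtop : Subgroup.centralizer ({xh} : Set L) = ⊤ := by
    rw [eq_top_iff]
    intro c _
    rw [Subgroup.mem_centralizer_singleton_iff]
    exact hab c xh
  have hCcard : Nat.card (Subgroup.centralizer ({xh} : Set L)) = p ^ (n + 1) := by
    rw [hCtop, Subgroup.card_top, hLcard]
  have hNc : ((p ^ (n + 1) : ℕ) : ℂ) ≠ 0 := C.S.hNc
  have hord2 : ∀ c : Subgroup.centralizer ({xh} : Set L), c ≠ 1 → p ∣ orderOf c := by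
    intro c hc
    rw [← Subgroup.orderOf_coe]
    exact hord c fun h => hc (Subtype.ext h)
  have hφ0 : ∀ c : Subgroup.centralizer ({xh} : Set L), c ≠ 1 → φ c = 0 := fun c hc => C.S.hφ0 c (hord2 c hc)
  obtain ⟨θ, hθ, hθφ⟩ := C.S.exists_theta
  have hφ1 : φ 1 = 1 := by
    have h1 := C.S.hφφ
    rw [classInner_def, hCcard, Finset.sum_eq_single (1 : Subgroup.centralizer ({xh} : Set L)), ← mul_assoc,
      mul_inv_cancel₀ hNc, one_mul] at h1
    · have h2 : φ 1 = (θ : Subgroup.centralizer ({xh} : Set L) → ℂ) 1 := by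
        rw [← hθφ, pRegularPart_eq_of_regular]
        rw [orderOf_one]
        exact fun h => hp.out.one_lt.ne' (Nat.dvd_one.1 h)
      rw [h2, map_one_eq_charDegree (IsIrrCharacter.isCharacter θ.2), Complex.conj_natCast] at h1
      rw [h2, map_one_eq_charDegree (IsIrrCharacter.isCharacter θ.2)]
      have h3 : charDegree (θ : Subgroup.centralizer ({xh} : Set L) → ℂ) * charDegree (θ : Subgroup.centralizer ({xh} : Set L) → ℂ) = 1 := by exact_mod_cast h1
      have h4 : charDegree (θ : Subgroup.centralizer ({xh} : Set L) → ℂ) = 1 := Nat.eq_one_of_mul_eq_one_right h3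
      rw [h4]
      simp
    · intro c _ hc
      rw [hφ0 c hc, zero_mul]
    · intro h
      exact absurd (Finset.mem_univ _) h
  have hdd : ∀ ξ : IrrCharacter L, dd (p ^ (n + 1)) xh φ 1 ξ = (ξ : L → ℂ) xh := by
    intro ξ
    unfold dd
    rw [classInner_def, hCcard, Finset.sum_eq_single (1 : Subgroup.centralizer ({xh} : Set L)), ← mul_assoc,
      mul_inv_cancel₀ hNc, one_mul, hφ1]
    · simp
    · intro c _ hc
      rw [hφ0 c hc, map_zero, mul_zero]
    · intro h
      exact absurd (Finset.mem_univ _) h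
  have hone := C.U.hone
  rw [hdd] at hone
  have h10 : (ξ₀ : L → ℂ) 1 = 1 := charDegree_eq_one_of_comm hab ξ₀.2
  have hmul : ∀ k : ℕ, (ξ₀ : L → ℂ) (xh ^ k) = (ξ₀ : L → ℂ) xh ^ k := by
    intro k
    induction k with
    | zero => simpa using h10
    | succ k ih =>
      have hz : xh ∈ Subgroup.center L := by
        rw [Subgroup.mem_center_iff]
        intro c
        exact hab c xh
      rw [pow_succ, irr_mul_central ξ₀ hz, ih, h10, div_one, pow_succ]
  have hε1 : ε = 1 := by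
    rcases C.U.hε with h | h
    · exact h
    · exfalso
      have hp2 : p ≠ 2 := by
        intro h2
        rw [C.U.hε2 h2] at h
        norm_num at h
      have hodd : Odd (p ^ (n + 1)) := (hp.out.odd_of_ne_two hp2).pow
      have h2 : (ξ₀ : L → ℂ) xh = -1 := by
        rw [h] at hone
        linear_combination -hone
      have h3 := hmul (p ^ (n + 1))
      rw [← hox, pow_orderOf_eq_one, h10, hox, h2, hodd.neg_one_pow] at h3
      norm_num at h3
  rw [hε1, one_mul] at hone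
  obtain ⟨k, rfl⟩ := hgen l
  rw [hmul, hone, one_pow]

end CycG

open Classical in
/-- The data of the model group. -/
theorem model_data (hM : IsPModular p M) {Q : Subgroup F} (hn : Nat.card Q = p ^ (n + 1)) (hcyc : IsCyclic Q)
    (hF : Nat.card F = p ^ (n + 1) * e) (he : e ∣ p - 1) (he0 : 0 < e) (hQC : Subgroup.centralizer (Q : Set F) = Q) :
    ∃ (XS : Finset (IrrCharacter F)) (u₀ : IrrCharacter F → ℤ) (ε₀ : ℤ) (ψh : ℕ → IrrCharacter F),
      Side p M Set.univ (p ^ (n + 1)) e XS u₀ ε₀ ψh ∧ ∀ χ ∈ XS, ∀ g ∈ Q, g ≠ 1 → (u₀ χ : ℂ) * (χ : F → ℂ) g = -1 := by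
  have := isPModular_isPrime hM
  obtain ⟨hQnorm, hsub, S, hS⟩ := normal_sylow_of_card hn hF he he0
  have hQp : IsPGroup p Q := hS ▸ S.isPGroup'
  have hsame := all_same (M := M) hM hQnorm hQp hQC.le
  have hprin : principalBlock M F = Set.univ := eq_univ_of_all_same isPBlock_principalBlock hsame
  have hUB : IsPBlock M (Set.univ : Set (IrrCharacter F)) := hprin ▸ isPBlock_principalBlock
  have hUD : IsDefectGroup p M (Set.univ : Set (IrrCharacter F)) Q := hprin ▸ (isDefectGroup_principalBlock_iff hM Q).2 ⟨S, hS⟩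
  obtain ⟨f₁, hf₁⟩ := exists_pair_on_defect hM hUD hUB
  have hf₁b : IsPBlock M f₁ := (isBrauerPairOf_iff.1 hf₁).1.2
  have hCp : IsPGroup p (Cen Q) := by
    show IsPGroup p (Subgroup.centralizer (Q : Set F))
    rw [hQC]
    exact hQp
  have hf₁u : f₁ = Set.univ := by
    apply eq_univ_of_all_same hf₁b
    intro χ ψ
    refine all_same (Q := ⊤) hM inferInstance ?_ le_top χ ψ
    intro x
    obtain ⟨k, hk⟩ := hCp (x : Cen Q)
    exact ⟨k, Subtype.ext hk⟩
  subst hf₁u
  have hNall : ∀ g : F, g ∈ Subgroup.normalizer (Q : Set F) := by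
    intro g
    rw [Subgroup.mem_normalizer_iff]
    intro h
    refine ⟨fun h' => hQnorm.conj_mem h h' g, fun h' => ?_⟩
    have := hQnorm.conj_mem _ h' g⁻¹
    simpa [mul_assoc] using this
  have hstab : ∀ g : F, StabilizesBlock (Cen Q) (Set.univ : Set (IrrCharacter (Cen Q))) g := by
    intro g
    refine (stabilizes_iff hf₁b).2 ⟨normalizer_le_normalizer_cen (hNall g), ?_⟩
    ext ξ
    simp [mem_mapBlock]
  have hT : ∀ g, g ∈ (⊤ : Subgroup F) ↔ g ∈ Subgroup.normalizer (Q : Set F) ∧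
      StabilizesBlock (Cen Q) (Set.univ : Set (IrrCharacter (Cen Q))) g := fun g => ⟨fun _ => ⟨hNall g, hstab g⟩, fun _ => Subgroup.mem_top _⟩
  have hind : (Cen Q).relIndex ⊤ = e := by
    rw [Subgroup.relIndex_top_right]
    show (Subgroup.centralizer (Q : Set F)).index = e
    rw [hQC]
    have h1 := Subgroup.card_mul_index Q
    rw [hn, hF] at h1
    exact Nat.eq_of_mul_eq_mul_left (pow_pos hp.out.pos _) h1
  obtain ⟨L, xh, f, e', φ, ε, u, ξ₀, D, A, B', Tp, C, hact⟩ :=
    exists_cycG' hM hUB hcyc hn hUD (isInducedBlock_of_pair hM hf₁) hT hind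
  obtain ⟨XS, u₀, ε₀, ψh, S₁, hsing⟩ := C.exists_side rfl hact
  refine ⟨XS, u₀, ε₀, ψh, S₁, ?_⟩
  -- the element `xh`
  have hxo := C.orderOf_xhG
  have hxQ : (xh : F) ∈ Q := by
    have h1 : IsPGroup p (Subgroup.zpowers (xh : F)) := isPGroup_of_isDefectGroup C.hdefB
    obtain ⟨S', hS'⟩ := h1.exists_le_sylow
    have h2 : S' = S := Subsingleton.elim _ _
    rw [h2, hS] at hS'
    exact hS' (Subgroup.mem_zpowers _)
  have hQx : Q = Subgroup.zpowers (xh : F) := by
    symm
    apply Subgroup.eq_of_le_of_card_ge (Subgroup.zpowers_le.2 hxQ)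
    rw [hn, Nat.card_zpowers, hxo]
  have hab := comm_of_cyclic hcyc
  have hzQ : (xh : F) ^ p ^ n ∈ Q := Subgroup.pow_mem _ hxQ _
  have hz1 : (xh : F) ^ p ^ n ≠ 1 := by
    have := C.orderOf_zG
    intro h
    rw [h, orderOf_one] at this
    exact hp.out.one_lt.ne this
  have hmax := isMaximal_of_defect hM hUD hf₁
  have hLQ : ∀ g, g ∈ L ↔ g ∈ Q := by
    intro g
    rw [C.hL]
    constructor
    · intro h
      have h1 := free_of_cyclic hM hmax hcyc (hNall g) (hstab g) hzQ hz1 (by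
        have h2 : g * (xh : F) ^ p ^ n = (xh : F) ^ p ^ n * g := h
        rw [h2]
        group)
      have h2 : g ∈ Subgroup.centralizer (Q : Set F) := h1
      rwa [hQC] at h2
    · intro h
      exact hab g h _ hzQ
  have hLQ' : L = Q := Subgroup.ext hLQ
  have hgen : ∀ l : L, ∃ k : ℕ, l = xh ^ k := by
    intro l
    have h1 : (l : F) ∈ Subgroup.zpowers (xh : F) := by
      rw [← hQx]
      exact (hLQ _).1 l.2
    obtain ⟨k, hk⟩ := mem_powers_iff_mem_zpowers.2 h1
    refine ⟨k, Subtype.ext ?_⟩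
    exact hk.symm
  have hξ₀ := C.xi0_eq_one hgen
  have hE : (e : ℂ) ≠ 0 := by exact_mod_cast he0.ne'
  have hind2 : ∀ g ∈ Q, indFun L (ξ₀ : L → ℂ) g = (e : ℂ) := by
    intro g hg
    rw [indFun_apply]
    have h1 : ∀ x : F, extendByZero L (ξ₀ : L → ℂ) (x⁻¹ * g * x) = 1 := by
      intro x
      have h2 : x⁻¹ * g * x ∈ L := by
        rw [hLQ]
        have := hQnorm.conj_mem g hg x⁻¹
        simpa using this
      rw [extendByZero_of_mem L _ h2]
      exact hξ₀ _
    simp only [h1]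
    rw [Finset.sum_const, Finset.card_univ, nsmul_eq_mul, mul_one, ← Nat.card_eq_fintype_card, hF]
    have hLc : Nat.card L = p ^ (n + 1) := by
      rw [hLQ', hn]
    rw [hLc]
    push_cast
    have hpc : ((p : ℂ) ^ (n + 1)) ≠ 0 := by
      have : p ^ (n + 1) ≠ 0 := (pow_pos hp.out.pos _).ne'
      exact_mod_cast this
    field_simp
  intro χ hχ g hg hg1
  have hgs : p ∣ orderOf g := by
    obtain ⟨k, hk⟩ := IsPGroup.iff_orderOf.1 hQp ⟨g, hg⟩
    rw [Subgroup.orderOf_mk] at hk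
    rw [hk]
    rcases k with _ | k
    · exfalso
      apply hg1
      rw [pow_zero] at hk
      exact orderOf_eq_one_iff.1 hk
    · exact dvd_pow_self _ (by omega)
  have h1 := S₁.hP1 χ hχ g hgs
  rw [hsing g hgs, hind2 g hg] at h1
  apply mul_left_cancel₀ hE
  rw [h1]
  ring

end Model

section Final

variable {G : Type*} [Group G] [Finite G] {F : Type*} [Group F] [Finite F] {p : ℕ} [hp : Fact p.Prime] {M : Ideal AlgInt}

open Classical in
/-- **The perfect isometry with the model group.** -/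
theorem perfect_model (hM : IsPModular p M) {B : Set (IrrCharacter G)} (hB : IsPBlock M B) {P : Subgroup G}
    (hPD : IsDefectGroup p M B P) (hP1 : P ≠ ⊥) (hcyc : IsCyclic P) {c : Set (IrrCharacter (Subgroup.centralizer (P : Set G)))}
    (hc : IsInducedBlock M (Subgroup.centralizer (P : Set G)) c B) {T : Subgroup G}
    (hT : ∀ g : G, g ∈ T ↔ (g ∈ Subgroup.normalizer (P : Set G) ∧ StabilizesBlock (Subgroup.centralizer (P : Set G)) c g)) {e : ℕ}
    (he : (Subgroup.centralizer (P : Set G)).relIndex T = e) (hF : Nat.card F = Nat.card P * e) {Q : Subgroup F} (hQ : IsCyclic Q)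
    (hQcard : Nat.card Q = Nat.card P) (hQC : Subgroup.centralizer (Q : Set F) = Q) :
    ∃ (I : IrrCharacter F → IrrCharacter G) (ε : IrrCharacter F → ℤ), IsPerfectIsometry p M (Set.univ : Set (IrrCharacter F)) B I ε ∧
      ∀ η η' : IrrCharacter F, (∃ x ∈ Q, (η : F → ℂ) x ≠ (η : F → ℂ) 1) → (∃ x ∈ Q, (η' : F → ℂ) x ≠ (η' : F → ℂ) 1) → ε η = ε η' := by
  cases nonempty_fintype G
  cases nonempty_fintype F
  have hPp := isPGroup_of_isDefectGroup hPD
  obtain ⟨k, hk⟩ := IsPGroup.iff_card.1 hPp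
  have hk0 : k ≠ 0 := by
    rintro rfl
    rw [pow_zero] at hk
    exact hP1 (Subgroup.eq_bot_of_card_eq _ hk)
  obtain ⟨n, rfl⟩ : ∃ n, k = n + 1 := ⟨k - 1, by omega⟩
  obtain ⟨L₁, xh₁, f₁, e₁, φ₁, ε₁, u₁, ξ₁, D₁, A₁, B₁, Tp₁, C₁, hact₁⟩ := exists_cycG' hM hB hcyc hk hPD hc hT he
  obtain ⟨XS₁, w₁, δ₁, ψ₁, S₁, -⟩ := C₁.exists_side rfl hact₁
  have he0 := C₁.e_pos
  have hedvd := C₁.main.1
  have hFc : Nat.card F = p ^ (n + 1) * e := by rw [hF, hk]
  have hQn : Nat.card Q = p ^ (n + 1) := by rw [hQcard, hk]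
  obtain ⟨XS₂, w₂, δ₂, ψ₂, S₂, hval⟩ := model_data hM hQn hQ hFc hedvd he0 hQC
  obtain ⟨I, ε, hI, hsign⟩ := S₁.perfect S₂
  refine ⟨I, ε, hI, fun η η' hη hη' => ?_⟩
  by_cases hne : η = η'
  · rw [hne]
  have hab := comm_of_cyclic hQ
  have hQab : ∀ a b : Q, a * b = b * a := fun a b => Subtype.ext (hab _ a.2 _ b.2)
  have hidx : Q.index = e := by
    have h1 := Subgroup.card_mul_index Q
    rw [hQn, hFc] at h1
    exact Nat.eq_of_mul_eq_mul_left (pow_pos hp.out.pos _) h1
  have hlt : e < p ^ (n + 1) := by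
    have hp2 := hp.out.two_le
    have h1 : e ≤ p - 1 := Nat.le_of_dvd (by omega) hedvd
    have h2 : p ≤ p ^ (n + 1) := by
      calc p = p ^ 1 := (pow_one p).symm
        _ ≤ p ^ (n + 1) := Nat.pow_le_pow_right hp.out.pos (by omega)
    omega
  have key : ∀ κ κ' : IrrCharacter F, κ ≠ κ' → (∃ x ∈ Q, (κ : F → ℂ) x ≠ (κ : F → ℂ) 1) →
      (∃ x ∈ Q, (κ' : F → ℂ) x ≠ (κ' : F → ℂ) 1) → ε κ = δ₁ * δ₂ := by
    intro κ κ' hκκ hκ hκ'
    have h1 : κ ∉ XS₂ := by
      intro hX
      have hδ : (w₂ κ : ℂ) = 1 ∨ (w₂ κ : ℂ) = -1 := by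
        rcases S₂.hu κ hX with h | h <;> rw [h]
        · left
          norm_num
        · right
          norm_num
      exact hκκ (eq_of_nontriv hQab rfl hidx (by rwa [hQn]) hδ (hval κ hX) hκ hκ').symm
    rcases (S₂.hB κ).1 (Set.mem_univ _) with h2 | ⟨j, h3, h4, rfl⟩
    · exact absurd h2 h1
    · exact hsign j h3 h4
  rw [key η η' hne hη hη', key η' η (Ne.symm hne) hη' hη]

end Final

end Cfsg.Agent.Lib.FF
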