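import Mathlib
import Cfsg.Agent.Lib.Block.Klein
import Cfsg.Agent.Lib.FF.SectionSum

/-!
# The lattice lemma behind the principal 2-block of a group with dihedral Sylow 2-subgroups
-/

set_option autoImplicit false
set_option linter.unusedSectionVars false
set_option linter.unusedSimpArgs false
set_option linter.unusedVariables false

namespace Cfsg.Agent.Lib.FF

section Lattice

variable {ι : Type*} [DecidableEq ι]

theorem sum_delta_mul (S : Finset ι) {p : ι} (hp : p ∈ S) (z : ι → ℤ) :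
    ∑ y ∈ S, (if y = p then (1 : ℤ) else 0) * z y = z p := by
  simp [ite_mul, Finset.sum_ite_eq', hp]

/-- A vector of norm two and degree one is a difference of two basis vectors. -/
theorem norm_two_form (S : Finset ι) (x v : ι → ℤ) (hx : ∀ i ∈ S, 0 < x i) (hn : ∑ y ∈ S, v y ^ 2 = 2)
    (hd : ∑ y ∈ S, x y * v y = 1) :
    ∃ p ∈ S, ∃ q ∈ S, p ≠ q ∧ ∀ y ∈ S, v y = (if y = p then 1 else 0) - (if y = q then 1 else 0) := by
  set T := S.filter (fun y => v y ≠ 0) with hT
  have hTS : T ⊆ S := Finset.filter_subset _ _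
  have hzero : ∀ y ∈ S, y ∉ T → v y = 0 := by
    intro y hy hy'
    by_contra h
    exact hy' (Finset.mem_filter.2 ⟨hy, h⟩)
  have h1 : ∑ y ∈ T, v y ^ 2 = 2 := by
    rw [← hn]
    refine Finset.sum_subset hTS fun y hy hy' => ?_
    rw [hzero y hy hy']
    simp
  have h2 : ∑ y ∈ T, x y * v y = 1 := by
    rw [← hd]
    refine Finset.sum_subset hTS fun y hy hy' => ?_
    rw [hzero y hy hy']
    simp
  obtain ⟨hc, hs⟩ := two_signs T v (fun y hy => (Finset.mem_filter.1 hy).2) h1
  obtain ⟨r, s, hrs, hTe⟩ := Finset.card_eq_two.1 hc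
  have hrT : r ∈ T := by rw [hTe]; simp
  have hsT : s ∈ T := by rw [hTe]; simp
  rw [hTe, Finset.sum_pair hrs] at h2
  have hxr := hx r (hTS hrT)
  have hxs := hx s (hTS hsT)
  have key : ∀ y ∈ S, y ≠ r → y ≠ s → v y = 0 := by
    intro y hy h3 h4
    apply hzero y hy
    rw [hTe]
    simp [h3, h4]
  rcases hs r hrT with h3 | h3 <;> rcases hs s hsT with h4 | h4 <;> rw [h3, h4] at h2
  · exfalso; linarith
  · refine ⟨r, hTS hrT, s, hTS hsT, hrs, fun y hy => ?_⟩
    by_cases h5 : y = r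
    · subst h5; simp [hrs, h3]
    · by_cases h6 : y = s
      · subst h6; simp [hrs.symm, h4]
      · simp [h5, h6, key y hy h5 h6]
  · refine ⟨s, hTS hsT, r, hTS hrT, hrs.symm, fun y hy => ?_⟩
    by_cases h5 : y = r
    · subst h5; simp [hrs, h3]
    · by_cases h6 : y = s
      · subst h6; simp [hrs.symm, h4]
      · simp [h5, h6, key y hy h5 h6]
  · exfalso; linarith

/-- The sunflower lemma for the `u`-vectors. -/
theorem star_form (S : Finset ι) {m : ℕ} (hm : 0 < m) (p q : Fin m → ι) (hp : ∀ i, p i ∈ S) (hq : ∀ i, q i ∈ S)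
    (hpq : ∀ i, p i ≠ q i)
    (hrel : ∀ i i', i ≠ i' → ((if p i = p i' then (1 : ℤ) else 0) - (if p i = q i' then 1 else 0)) -
      ((if q i = p i' then 1 else 0) - (if q i = q i' then 1 else 0)) = 1) :
    ∃ (a : ι) (α : ℤ) (b : Fin m → ι), (α = 1 ∨ α = -1) ∧ a ∈ S ∧ (∀ i, b i ∈ S ∧ b i ≠ a) ∧ Function.Injective b ∧
      ∀ i (y : ι), (if y = p i then (1 : ℤ) else 0) - (if y = q i then 1 else 0) =
        α * ((if y = a then 1 else 0) - (if y = b i then 1 else 0)) := by
  -- the exact shape of pairs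
  have hshape : ∀ i i', i ≠ i' → ((p i = p i' ∧ q i ≠ q i') ∨ (q i = q i' ∧ p i ≠ p i')) ∧ p i ≠ q i' ∧ q i ≠ p i' := by
    intro i i' hii
    have h := hrel i i' hii
    have h1 := hpq i
    have h2 := hpq i'
    by_cases e1 : p i = p i' <;> by_cases e2 : p i = q i' <;> by_cases e3 : q i = p i' <;> by_cases e4 : q i = q i' <;>
      (first | rw [if_pos e1] at h | rw [if_neg e1] at h) <;> (first | rw [if_pos e2] at h | rw [if_neg e2] at h) <;>
      (first | rw [if_pos e3] at h | rw [if_neg e3] at h) <;> (first | rw [if_pos e4] at h | rw [if_neg e4] at h) <;>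
      first
        | (exfalso; omega)
        | (exfalso; exact h1 (e1.trans e3.symm))
        | (exfalso; exact h1 (e2.trans e4.symm))
        | (exfalso; exact h2 (e1.symm.trans e2))
        | (exfalso; exact h2 (e3.symm.trans e4))
        | (refine ⟨?_, e2, e3⟩; first | exact Or.inl ⟨e1, e4⟩ | exact Or.inr ⟨e4, e1⟩)
  let i₀ : Fin m := ⟨0, hm⟩
  by_cases hall : ∀ i, p i = p i₀
  · -- common positive part
    refine ⟨p i₀, 1, q, Or.inl rfl, hp i₀, fun i => ⟨hq i, fun h => ?_⟩, ?_, ?_⟩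
    · exact hpq i ((hall i).trans h.symm)
    · intro i i' hqq
      by_contra hne
      obtain ⟨h1, _⟩ := hshape i i' hne
      rcases h1 with ⟨_, h1⟩ | ⟨_, h1⟩
      · exact h1 hqq
      · exact h1 ((hall i).trans (hall i').symm)
    · intro i y
      rw [hall i, one_mul]
  · -- common negative part
    push Not at hall
    obtain ⟨i₁, hi₁⟩ := hall
    have hi₁0 : i₁ ≠ i₀ := fun h => hi₁ (h ▸ rfl)
    have hq1 : q i₁ = q i₀ := by
      rcases (hshape i₁ i₀ hi₁0).1 with ⟨h1, _⟩ | ⟨h1, _⟩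
      · exact absurd h1 hi₁
      · exact h1
    have hall' : ∀ i, q i = q i₀ := by
      intro i
      by_contra hne
      have hi0 : i ≠ i₀ := fun h => hne (h ▸ rfl)
      have hp0 : p i = p i₀ := by
        rcases (hshape i i₀ hi0).1 with ⟨h1, _⟩ | ⟨h1, _⟩
        · exact h1
        · exact absurd h1 hne
      have hi1 : i ≠ i₁ := by
        rintro rfl
        exact hi₁ hp0
      rcases (hshape i i₁ hi1).1 with ⟨h1, _⟩ | ⟨h1, _⟩
      · exact hi₁ (h1.symm.trans hp0)
      · exact hne (h1.trans hq1)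
    refine ⟨q i₀, -1, p, Or.inr rfl, hq i₀, fun i => ⟨hp i, fun h => ?_⟩, ?_, ?_⟩
    · exact hpq i (h.trans (hall' i).symm)
    · intro i i' hpp
      by_contra hne
      obtain ⟨h1, _⟩ := hshape i i' hne
      rcases h1 with ⟨_, h1⟩ | ⟨_, h1⟩
      · exact h1 ((hall' i).trans (hall' i').symm)
      · exact h1 hpp
    · intro i y
      rw [hall' i]
      ring

/-- **The lattice lemma.** -/
theorem lattice_sunflower (S : Finset ι) (x : ι → ℤ) (hx : ∀ i ∈ S, 0 < x i) {m : ℕ} (hm0 : 0 < m) (hm2 : m ≠ 2)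
    (u : Fin m → ι → ℤ) (w : ι → ℤ)
    (huu : ∀ i, ∑ y ∈ S, u i y ^ 2 = 2) (huv : ∀ i i', i ≠ i' → ∑ y ∈ S, u i y * u i' y = 1)
    (hww : ∑ y ∈ S, w y ^ 2 = 3) (huw : ∀ i, ∑ y ∈ S, u i y * w y = 1)
    (hxu : ∀ i, ∑ y ∈ S, x y * u i y = 1) (hxw : ∑ y ∈ S, x y * w y = 1) :
    ∃ (a : ι) (b : Fin m → ι) (c₂ c₃ : ι) (α γ₂ γ₃ : ℤ), (α = 1 ∨ α = -1) ∧ (γ₂ = 1 ∨ γ₂ = -1) ∧ (γ₃ = 1 ∨ γ₃ = -1) ∧
      a ∈ S ∧ (∀ i, b i ∈ S) ∧ c₂ ∈ S ∧ c₃ ∈ S ∧ Function.Injective b ∧
      (∀ i, b i ≠ a ∧ b i ≠ c₂ ∧ b i ≠ c₃) ∧ a ≠ c₂ ∧ a ≠ c₃ ∧ c₂ ≠ c₃ ∧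
      (∀ i, ∀ y ∈ S, u i y = α * ((if y = a then 1 else 0) - (if y = b i then 1 else 0))) ∧
      (∀ y ∈ S, w y = α * (if y = a then 1 else 0) + γ₂ * (if y = c₂ then 1 else 0) + γ₃ * (if y = c₃ then 1 else 0)) := by
  -- the shape of the `u i`
  have hform := fun i => norm_two_form S x (u i) hx (huu i) (hxu i)
  choose p hp q hq hpq hu using hform
  have hprod : ∀ (i : Fin m) (z : ι → ℤ), ∑ y ∈ S, u i y * z y = z (p i) - z (q i) := by
    intro i z
    have h1 : ∀ y ∈ S, u i y * z y = (if y = p i then (1 : ℤ) else 0) * z y - (if y = q i then (1 : ℤ) else 0) * z y := by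
      intro y hy
      rw [hu i y hy]
      ring
    rw [Finset.sum_congr rfl h1, Finset.sum_sub_distrib, sum_delta_mul S (hp i), sum_delta_mul S (hq i)]
  have hrel : ∀ i i', i ≠ i' → ((if p i = p i' then (1 : ℤ) else 0) - (if p i = q i' then 1 else 0)) -
      ((if q i = p i' then 1 else 0) - (if q i = q i' then 1 else 0)) = 1 := by
    intro i i' hii
    have h1 := huv i i' hii
    rw [hprod i (u i'), hu i' _ (hp i), hu i' _ (hq i)] at h1
    exact h1
  obtain ⟨a₀, α₀, b₀, hα₀, ha₀, hb₀, hinj₀, hstar₀⟩ := star_form S hm0 p q hp hq hpq hrel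
  have hustar₀ : ∀ i, ∀ y ∈ S, u i y = α₀ * ((if y = a₀ then 1 else 0) - (if y = b₀ i then 1 else 0)) := by
    intro i y hy
    rw [hu i y hy, hstar₀]
  -- the shape of `w`
  set T := S.filter (fun y => w y ≠ 0) with hT
  have hTS : T ⊆ S := Finset.filter_subset _ _
  have hzero : ∀ y ∈ S, y ∉ T → w y = 0 := by
    intro y hy hy'
    by_contra h
    exact hy' (Finset.mem_filter.2 ⟨hy, h⟩)
  have h1 : ∑ y ∈ T, w y ^ 2 = 3 := by
    rw [← hww]
    refine Finset.sum_subset hTS fun y hy hy' => ?_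
    rw [hzero y hy hy']
    simp
  have h2 : ∑ y ∈ T, x y * w y = 1 := by
    rw [← hxw]
    refine Finset.sum_subset hTS fun y hy hy' => ?_
    rw [hzero y hy hy']
    simp
  obtain ⟨hTc, hTs⟩ := Cfsg.Agent.Lib.Block.three_signs T w (fun y hy => (Finset.mem_filter.1 hy).2) h1
  have hval : ∀ y ∈ S, w y = 0 ∨ w y = 1 ∨ w y = -1 := by
    intro y hy
    by_cases h : y ∈ T
    · right
      exact hTs y h
    · left
      exact hzero y hy h
  have hwrel₀ : ∀ i, α₀ * (w a₀ - w (b₀ i)) = 1 := by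
    intro i
    have h3 := huw i
    have h4 : ∀ y ∈ S, u i y * w y = α₀ * ((if y = a₀ then (1 : ℤ) else 0) * w y - (if y = b₀ i then (1 : ℤ) else 0) * w y) := by
      intro y hy
      rw [hustar₀ i y hy]
      ring
    rw [Finset.sum_congr rfl h4, ← Finset.mul_sum, Finset.sum_sub_distrib, sum_delta_mul S ha₀,
      sum_delta_mul S (hb₀ i).1] at h3
    exact h3
  -- we may assume `w a = α`
  have hnorm : ∃ (a : ι) (α : ℤ) (b : Fin m → ι), (α = 1 ∨ α = -1) ∧ a ∈ S ∧ (∀ i, b i ∈ S ∧ b i ≠ a) ∧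
      Function.Injective b ∧ (∀ i, ∀ y ∈ S, u i y = α * ((if y = a then 1 else 0) - (if y = b i then 1 else 0))) ∧
      w a = α ∧ ∀ i, w (b i) = 0 := by
    have hiα : α₀ * α₀ = 1 := by rcases hα₀ with rfl | rfl <;> norm_num
    have hdiff : ∀ i, w a₀ - w (b₀ i) = α₀ := by
      intro i
      have h3 := hwrel₀ i
      calc w a₀ - w (b₀ i) = (α₀ * α₀) * (w a₀ - w (b₀ i)) := by rw [hiα, one_mul]
        _ = α₀ * (α₀ * (w a₀ - w (b₀ i))) := by ring
        _ = α₀ := by rw [h3, mul_one]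
    let i₀ : Fin m := ⟨0, hm0⟩
    rcases hval a₀ ha₀ with h3 | h3 | h3
    · -- `w a₀ = 0`, every `b i` carries `-α₀`
      have hbval : ∀ i, w (b₀ i) = -α₀ := by
        intro i
        have := hdiff i
        rw [h3] at this
        omega
      have hbT : ∀ i, b₀ i ∈ T := by
        intro i
        apply Finset.mem_filter.2
        refine ⟨(hb₀ i).1, ?_⟩
        rw [hbval i]
        rcases hα₀ with rfl | rfl <;> norm_num
      have hle : m ≤ 3 := by
        have h4 : (Finset.univ.image b₀).card ≤ T.card := Finset.card_le_card (by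
          intro y hy
          obtain ⟨i, _, rfl⟩ := Finset.mem_image.1 hy
          exact hbT i)
        rw [Finset.card_image_of_injective _ hinj₀, Finset.card_univ, Fintype.card_fin, hTc] at h4
        exact h4
      have hm13 : m = 1 ∨ m = 3 := by omega
      rcases hm13 with rfl | rfl
      · -- swap the roles
        refine ⟨b₀ i₀, -α₀, fun _ => a₀, by rcases hα₀ with rfl | rfl <;> simp, (hb₀ i₀).1, fun i => ⟨ha₀, (hb₀ i₀).2.symm⟩,
          ?_, ?_, hbval i₀, fun _ => h3⟩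
        · intro i i' _
          exact Subsingleton.elim _ _
        · intro i y hy
          have hi : i = i₀ := Subsingleton.elim _ _
          rw [hi, hustar₀ i₀ y hy]
          ring
      · -- impossible on degree
        exfalso
        have hT3 : T = Finset.univ.image b₀ := by
          symm
          apply Finset.eq_of_subset_of_card_le
          · intro y hy
            obtain ⟨i, _, rfl⟩ := Finset.mem_image.1 hy
            exact hbT i
          · rw [Finset.card_image_of_injective _ hinj₀, Finset.card_univ, Fintype.card_fin, hTc]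
        rw [hT3, Finset.sum_image (fun i _ j _ h => hinj₀ h)] at h2
        have h5 : ∑ i : Fin 3, x (b₀ i) * w (b₀ i) = -α₀ * ∑ i : Fin 3, x (b₀ i) := by
          rw [Finset.mul_sum]
          refine Finset.sum_congr rfl fun i _ => ?_
          rw [hbval i]
          ring
        rw [h5, Fin.sum_univ_three] at h2
        have p0 := hx _ (hb₀ 0).1
        have p1 := hx _ (hb₀ 1).1
        have p2 := hx _ (hb₀ 2).1
        rcases hα₀ with rfl | rfl
        · nlinarith
        · nlinarith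
    · -- `w a₀ = 1`
      rcases hα₀ with rfl | rfl
      · refine ⟨a₀, 1, b₀, Or.inl rfl, ha₀, hb₀, hinj₀, hustar₀, h3, fun i => ?_⟩
        have := hdiff i
        omega
      · exfalso
        have h4 := hdiff i₀
        rw [h3] at h4
        have h5 := hval _ (hb₀ i₀).1
        omega
    · rcases hα₀ with rfl | rfl
      · exfalso
        have h4 := hdiff i₀
        rw [h3] at h4
        have h5 := hval _ (hb₀ i₀).1
        omega
      · refine ⟨a₀, -1, b₀, Or.inr rfl, ha₀, hb₀, hinj₀, hustar₀, h3, fun i => ?_⟩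
        have := hdiff i
        omega
  obtain ⟨a, α, b, hα, ha, hb, hinj, hustar, hwa, hwb⟩ := hnorm
  have haT : a ∈ T := by
    apply Finset.mem_filter.2
    refine ⟨ha, ?_⟩
    rw [hwa]
    rcases hα with rfl | rfl <;> norm_num
  have hcard2 : (T.erase a).card = 2 := by
    rw [Finset.card_erase_of_mem haT, hTc]
  obtain ⟨c₂, c₃, hc23, hTe⟩ := Finset.card_eq_two.1 hcard2
  have hc₂T : c₂ ∈ T.erase a := by rw [hTe]; simp
  have hc₃T : c₃ ∈ T.erase a := by rw [hTe]; simp
  have hc₂a : c₂ ≠ a := (Finset.mem_erase.1 hc₂T).1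
  have hc₃a : c₃ ≠ a := (Finset.mem_erase.1 hc₃T).1
  have hc₂T' : c₂ ∈ T := (Finset.mem_erase.1 hc₂T).2
  have hc₃T' : c₃ ∈ T := (Finset.mem_erase.1 hc₃T).2
  have hbne : ∀ i, ∀ y ∈ T, b i ≠ y := by
    intro i y hy h
    have := (Finset.mem_filter.1 hy).2
    rw [← h, hwb i] at this
    exact this rfl
  refine ⟨a, b, c₂, c₃, α, w c₂, w c₃, hα, hTs c₂ hc₂T', hTs c₃ hc₃T', ha, fun i => (hb i).1, hTS hc₂T', hTS hc₃T', hinj,
    fun i => ⟨(hb i).2, hbne i c₂ hc₂T', hbne i c₃ hc₃T'⟩, hc₂a.symm, hc₃a.symm, hc23, hustar, ?_⟩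
  intro y hy
  by_cases e1 : y = a
  · subst e1
    simp [hc₂a.symm, hc₃a.symm, hwa]
  · by_cases e2 : y = c₂
    · subst e2
      simp [e1, hc23]
    · by_cases e3 : y = c₃
      · subst e3
        simp [e1, hc23.symm]
      · simp only [e1, e2, e3, if_false, mul_zero, add_zero]
        apply hzero y hy
        intro hyT
        have : y ∈ T.erase a := Finset.mem_erase.2 ⟨e1, hyT⟩
        rw [hTe] at this
        simp [e2, e3] at this

end Lattice

end Cfsg.Agent.Lib.FF
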