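import Mathlib
import Cfsg.Agent.Lib.FF.DihLattice

/-!
# Fourier analysis on the cyclic subgroup: the pattern of the principal 2-block in the dihedral case
-/

set_option autoImplicit false
set_option linter.unusedSectionVars false
set_option linter.unusedSimpArgs false
set_option linter.unusedVariables false

namespace Cfsg.Agent.Lib.FF

section Fourier

variable {N : ℕ} {ω : ℂ}

theorem E_eq (hω : IsPrimitiveRoot ω N) (a : ℕ) :
    ∑ l ∈ Finset.range N, ω ^ (a * l) = if N ∣ a then (N : ℂ) else 0 := by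
  split_ifs with h
  · have h1 : ∀ l ∈ Finset.range N, ω ^ (a * l) = 1 := by
      obtain ⟨c, rfl⟩ := h
      intro l _
      rw [mul_assoc, pow_mul, hω.pow_eq_one, one_pow]
    rw [Finset.sum_congr rfl h1]
    simp
  · have hx : ω ^ a ≠ 1 := fun h' => h ((hω.pow_eq_one_iff_dvd a).1 h')
    have hxN : (ω ^ a) ^ N = 1 := by rw [← pow_mul, mul_comm, pow_mul, hω.pow_eq_one, one_pow]
    simp_rw [pow_mul]
    rw [geom_sum_eq hx, hxN]
    simp

theorem dvd_iff_eq_of_lt {v : ℕ} (h0 : 0 < v) (h1 : v < 2 * N) : N ∣ v ↔ v = N := by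
  constructor
  · rintro ⟨c, rfl⟩
    have hc0 : c ≠ 0 := by
      rintro rfl
      simp at h0
    have hN0 : 0 < N := Nat.pos_of_ne_zero (by rintro rfl; simp at h0)
    have hc2 : c < 2 := by
      by_contra h
      have h2 : N * 2 ≤ N * c := Nat.mul_le_mul_left N (not_lt.1 h)
      omega
    have : c = 1 := by omega
    rw [this, mul_one]
  · rintro rfl
    exact dvd_rfl

/-- Fourier inversion. -/
theorem fourier_inv (hω : IsPrimitiveRoot ω N) (m : ℕ → ℕ) (f : ℕ → ℂ)
    (hf : ∀ l, f l = ∑ j ∈ Finset.range N, (m j : ℂ) * ω ^ (j * l)) {k' : ℕ} (hk' : k' < N) :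
    ∑ l ∈ Finset.range N, f l * ω ^ ((N - k') * l) = N * m k' := by
  have h1 : ∀ l ∈ Finset.range N, f l * ω ^ ((N - k') * l) =
      ∑ j ∈ Finset.range N, (m j : ℂ) * ω ^ ((j + (N - k')) * l) := by
    intro l _
    rw [hf l, Finset.sum_mul]
    refine Finset.sum_congr rfl fun j _ => ?_
    rw [add_mul, pow_add]
    ring
  rw [Finset.sum_congr rfl h1, Finset.sum_comm]
  have h2 : ∀ j ∈ Finset.range N, ∑ l ∈ Finset.range N, (m j : ℂ) * ω ^ ((j + (N - k')) * l) =
      (m j : ℂ) * (if N ∣ j + (N - k') then (N : ℂ) else 0) := by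
    intro j _
    rw [← Finset.mul_sum, E_eq hω]
  rw [Finset.sum_congr rfl h2, Finset.sum_eq_single k']
  · rw [if_pos (by rw [Nat.add_sub_cancel' hk'.le])]
    ring
  · intro j hj hne
    have hj' := Finset.mem_range.1 hj
    rw [if_neg, mul_zero]
    rw [dvd_iff_eq_of_lt (by omega) (by omega)]
    omega
  · intro h
    exact absurd (Finset.mem_range.2 hk') h

end Fourier

section Pattern

variable {ι : Type*} [DecidableEq ι] {N : ℕ} {ω : ℂ}

/-- The integer coefficients. -/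
def cc (m : ι → ℕ → ℕ) (j : ℕ) (χ : ι) : ℤ := (m χ j : ℤ) - (m χ 0 : ℤ)

variable {f : ι → ℕ → ℂ} {m : ι → ℕ → ℕ}

theorem N_mul_cc (hω : IsPrimitiveRoot ω N) (hN : 0 < N)
    (hm : ∀ χ l, f χ l = ∑ j ∈ Finset.range N, (m χ j : ℂ) * ω ^ (j * l)) (χ : ι) {j : ℕ} (hj : j < N) :
    (N : ℂ) * (cc m j χ : ℂ) = ∑ l ∈ Finset.range N, f χ l * (ω ^ ((N - j) * l) - 1) := by
  have h1 := fourier_inv hω (m χ) (f χ) (hm χ) hj
  have h2 := fourier_inv hω (m χ) (f χ) (hm χ) hN
  have h3 : ∀ l ∈ Finset.range N, f χ l * ω ^ ((N - 0) * l) = f χ l := by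
    intro l _
    rw [Nat.sub_zero, pow_mul, hω.pow_eq_one, one_pow, mul_one]
  rw [Finset.sum_congr rfl h3] at h2
  simp only [mul_sub, mul_one, Finset.sum_sub_distrib]
  rw [h1, h2]
  unfold cc
  push_cast
  ring

theorem f_eq_sum_cc (hω : IsPrimitiveRoot ω N)
    (hm : ∀ χ l, f χ l = ∑ j ∈ Finset.range N, (m χ j : ℂ) * ω ^ (j * l)) (χ : ι) {l : ℕ} (hl : 0 < l) (hl' : l < N) :
    f χ l = ∑ j ∈ Finset.range N, (cc m j χ : ℂ) * ω ^ (j * l) := by
  have h1 : ∑ j ∈ Finset.range N, ω ^ (j * l) = 0 := by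
    have h2 := E_eq hω l
    rw [if_neg (fun h => absurd (Nat.le_of_dvd hl h) (by omega))] at h2
    rw [← h2]
    refine Finset.sum_congr rfl fun j _ => ?_
    rw [mul_comm]
  have h3 : ∀ j ∈ Finset.range N, (cc m j χ : ℂ) * ω ^ (j * l) =
      (m χ j : ℂ) * ω ^ (j * l) - (m χ 0 : ℂ) * ω ^ (j * l) := by
    intro j _
    unfold cc
    push_cast
    ring
  rw [Finset.sum_congr rfl h3, Finset.sum_sub_distrib, ← Finset.mul_sum, h1, mul_zero, sub_zero, hm χ l]

/-- Restriction of the sum to the nonzero `l`. -/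
theorem sum_range_eq_erase (g : ℕ → ℂ) (h0 : g 0 = 0) (hN : 0 < N) :
    ∑ l ∈ Finset.range N, g l = ∑ l ∈ (Finset.range N).erase 0, g l := by
  rw [← Finset.add_sum_erase _ _ (Finset.mem_range.2 hN), h0, zero_add]

/-- The linear relation on the coefficients. -/
theorem lin_cc (S : Finset ι) (hω : IsPrimitiveRoot ω N) (hN : 0 < N)
    (hm : ∀ χ l, f χ l = ∑ j ∈ Finset.range N, (m χ j : ℂ) * ω ^ (j * l)) (g : ι → ℂ)
    (hg : ∀ l, 0 < l → l < N → ∑ χ ∈ S, g χ * f χ l = 0) {j : ℕ} (hj : j < N) :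
    ∑ χ ∈ S, g χ * (cc m j χ : ℂ) = 0 := by
  have hN' : (N : ℂ) ≠ 0 := by exact_mod_cast hN.ne'
  apply mul_left_cancel₀ hN'
  rw [mul_zero, Finset.mul_sum]
  have h1 : ∀ χ ∈ S, (N : ℂ) * (g χ * (cc m j χ : ℂ)) =
      ∑ l ∈ (Finset.range N).erase 0, (g χ * f χ l) * (ω ^ ((N - j) * l) - 1) := by
    intro χ _
    rw [mul_left_comm, N_mul_cc hω hN hm χ hj, sum_range_eq_erase _ (by simp) hN, Finset.mul_sum]
    refine Finset.sum_congr rfl fun l _ => ?_
    ring
  rw [Finset.sum_congr rfl h1, Finset.sum_comm]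
  refine Finset.sum_eq_zero fun l hl => ?_
  have hl1 := Finset.mem_erase.1 hl
  have hl2 := Finset.mem_range.1 hl1.2
  rw [← Finset.sum_mul, hg l (Nat.pos_of_ne_zero hl1.1) hl2, zero_mul]

/-- The Gram matrix of the coefficient vectors. -/
theorem gram_cc (S : Finset ι) (hω : IsPrimitiveRoot ω N) (hN : 0 < N)
    (hm : ∀ χ l, f χ l = ∑ j ∈ Finset.range N, (m χ j : ℂ) * ω ^ (j * l))
    (hZ : ∀ a b, 0 < a → a < N → 0 < b → b < N → ∑ χ ∈ S, f χ a * f χ b =
      (N : ℂ) * ((if a = b then 1 else 0) + (if a + b = N then 1 else 0)))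
    {j j' : ℕ} (hj0 : 0 < j) (hj : j < N) (hj0' : 0 < j') (hj' : j' < N) :
    ∑ χ ∈ S, (cc m j χ : ℂ) * (cc m j' χ : ℂ) = 2 + (if j = j' then 1 else 0) + (if j + j' = N then 1 else 0) := by
  have hN' : (N : ℂ) ≠ 0 := by exact_mod_cast hN.ne'
  apply mul_left_cancel₀ (mul_ne_zero hN' hN')
  set R := (Finset.range N).erase 0 with hR
  set v : ℕ → ℕ → ℂ := fun j l => ω ^ ((N - j) * l) - 1 with hv
  have h1 : ∀ χ ∈ S, (N : ℂ) * N * ((cc m j χ : ℂ) * (cc m j' χ : ℂ)) =
      ∑ l ∈ R, ∑ l' ∈ R, (v j l * v j' l') * (f χ l * f χ l') := by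
    intro χ _
    have e1 : (N : ℂ) * N * ((cc m j χ : ℂ) * (cc m j' χ : ℂ)) =
        ((N : ℂ) * (cc m j χ : ℂ)) * ((N : ℂ) * (cc m j' χ : ℂ)) := by ring
    rw [e1, N_mul_cc hω hN hm χ hj, N_mul_cc hω hN hm χ hj', sum_range_eq_erase _ (by simp) hN,
      sum_range_eq_erase _ (by simp) hN, Finset.sum_mul_sum]
    refine Finset.sum_congr rfl fun l _ => Finset.sum_congr rfl fun l' _ => ?_
    simp only [hv]
    ring
  rw [Finset.mul_sum, Finset.sum_congr rfl h1, Finset.sum_comm]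
  have h2 : ∀ l ∈ R, ∑ χ ∈ S, ∑ l' ∈ R, (v j l * v j' l') * (f χ l * f χ l') =
      (N : ℂ) * (v j l * (v j' l + v j' (N - l))) := by
    intro l hl
    have hl1 := Finset.mem_erase.1 hl
    have hl2 := Finset.mem_range.1 hl1.2
    have hl0 : 0 < l := Nat.pos_of_ne_zero hl1.1
    rw [Finset.sum_comm]
    have h3 : ∀ l' ∈ R, ∑ χ ∈ S, (v j l * v j' l') * (f χ l * f χ l') =
        (v j l * v j' l') * ((N : ℂ) * ((if l = l' then 1 else 0) + (if l + l' = N then 1 else 0))) := by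
      intro l' hl'
      have hl1' := Finset.mem_erase.1 hl'
      have hl2' := Finset.mem_range.1 hl1'.2
      rw [← Finset.mul_sum, hZ l l' hl0 hl2 (Nat.pos_of_ne_zero hl1'.1) hl2']
    rw [Finset.sum_congr rfl h3]
    have h4 : ∀ l' ∈ R, (v j l * v j' l') * ((N : ℂ) * ((if l = l' then 1 else 0) + (if l + l' = N then 1 else 0))) =
        (if l' = l then (N : ℂ) * (v j l * v j' l') else 0) + (if l' = N - l then (N : ℂ) * (v j l * v j' l') else 0) := by
      intro l' hl'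
      have hl2' := Finset.mem_range.1 (Finset.mem_erase.1 hl').2
      by_cases h5 : l = l'
      · by_cases h6 : l + l' = N
        · rw [if_pos h5, if_pos h6, if_pos h5.symm, if_pos (by omega : l' = N - l)]
          ring
        · rw [if_pos h5, if_neg h6, if_pos h5.symm, if_neg (by omega : ¬ l' = N - l)]
          ring
      · have h5' : ¬ l' = l := fun h => h5 h.symm
        by_cases h6 : l + l' = N
        · rw [if_neg h5, if_pos h6, if_neg h5', if_pos (by omega : l' = N - l)]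
          ring
        · rw [if_neg h5, if_neg h6, if_neg h5', if_neg (by omega : ¬ l' = N - l)]
          ring
    rw [Finset.sum_congr rfl h4, Finset.sum_add_distrib, Finset.sum_ite_eq', Finset.sum_ite_eq', if_pos hl]
    have h7 : N - l ∈ R := by
      apply Finset.mem_erase.2
      refine ⟨by omega, Finset.mem_range.2 (by omega)⟩
    rw [if_pos h7]
    ring
  rw [Finset.sum_congr rfl h2, ← Finset.mul_sum]
  -- the explicit sum
  have h5 : ∀ l ∈ R, v j l * (v j' l + v j' (N - l)) =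
      (ω ^ ((N - j + (N - j')) * l) + ω ^ ((N - j + j') * l) - 2 * ω ^ ((N - j) * l) - ω ^ ((N - j') * l) - ω ^ (j' * l) + 2) := by
    intro l hl
    have hl1 := Finset.mem_erase.1 hl
    have hl2 := Finset.mem_range.1 hl1.2
    have e1 : ω ^ ((N - j') * (N - l)) = ω ^ (j' * l) := by
      have e2 : (N - j') * (N - l) + (N * l + N * j') = N * N + j' * l := by
        obtain ⟨a, ha⟩ := Nat.exists_eq_add_of_le hj'.le
        obtain ⟨b, hb⟩ := Nat.exists_eq_add_of_le hl2.le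
        have e3 : N - j' = a := by omega
        have e4 : N - l = b := by omega
        rw [e3, e4]
        nlinarith
      have e5 : ω ^ ((N - j') * (N - l)) * ω ^ (N * l + N * j') = ω ^ (N * N) * ω ^ (j' * l) := by
        rw [← pow_add, ← pow_add, e2]
      simp only [pow_add, pow_mul, hω.pow_eq_one, one_pow, mul_one, one_mul] at e5
      simpa [pow_mul, hω.pow_eq_one] using e5
    simp only [hv]
    rw [e1, add_mul, add_mul, pow_add, pow_add]
    ring
  rw [Finset.sum_congr rfl h5, ← sum_range_eq_erase _ (by simp; ring) hN]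
  simp only [Finset.sum_add_distrib, Finset.sum_sub_distrib, ← Finset.mul_sum, E_eq hω, Finset.sum_const, Finset.card_range,
    nsmul_eq_mul]
  rw [if_neg (fun h => by
    have := Nat.le_of_dvd (by omega) h
    omega : ¬ N ∣ N - j), if_neg (fun h => by
    have := Nat.le_of_dvd (by omega) h
    omega : ¬ N ∣ N - j'), if_neg (fun h => by
    have := Nat.le_of_dvd hj0' h
    omega : ¬ N ∣ j')]
  have e1 : N ∣ N - j + (N - j') ↔ j + j' = N := by
    rw [dvd_iff_eq_of_lt (by omega) (by omega)]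
    omega
  have e2 : N ∣ N - j + j' ↔ j = j' := by
    rw [dvd_iff_eq_of_lt (by omega) (by omega)]
    omega
  simp only [e1, e2]
  split_ifs <;> ring

/-- Splitting a sum over the residues according to the symmetry `j ↔ N - j`. -/
theorem sum_split {h : ℕ} (hh : 2 ≤ h) (hω : IsPrimitiveRoot ω (2 * h)) (c : ℕ → ℂ)
    (hc : ∀ j, 0 < j → j < 2 * h → c (2 * h - j) = c j) (l : ℕ) :
    ∑ j ∈ Finset.range (2 * h), c j * ω ^ (j * l) =
      c 0 + c h * (ω ^ h) ^ l + ∑ i : Fin (h - 1), c ((i : ℕ) + 1) * (ω ^ (((i : ℕ) + 1) * l) + (ω ^ (((i : ℕ) + 1) * l))⁻¹) := by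
  have hω0 : ω ≠ 0 := hω.ne_zero (by omega)
  have e0 : 2 * h = (h + 1) + (h - 1) := by omega
  rw [e0, Finset.sum_range_add, Finset.sum_range_succ]
  have e1 : h = (h - 1) + 1 := by omega
  have e2 : ∑ x ∈ Finset.range h, c x * ω ^ (x * l) =
      c 0 + ∑ x ∈ Finset.range (h - 1), c (x + 1) * ω ^ ((x + 1) * l) := by
    conv_lhs => rw [e1]
    rw [Finset.sum_range_succ']
    simp [add_comm]
  have e3 : ∑ x ∈ Finset.range (h - 1), c (h + 1 + x) * ω ^ ((h + 1 + x) * l) =
      ∑ x ∈ Finset.range (h - 1), c (x + 1) * (ω ^ ((x + 1) * l))⁻¹ := by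
    rw [← Finset.sum_range_reflect]
    refine Finset.sum_congr rfl fun x hx => ?_
    have hx' := Finset.mem_range.1 hx
    have e4 : h + 1 + (h - 1 - 1 - x) = 2 * h - (x + 1) := by omega
    rw [e4, hc _ (by omega) (by omega)]
    congr 1
    apply eq_inv_of_mul_eq_one_left
    rw [← pow_add, ← add_mul]
    have e5 : 2 * h - (x + 1) + (x + 1) = 2 * h := by omega
    rw [e5, pow_mul, hω.pow_eq_one, one_pow]
  rw [e2, e3, Fin.sum_univ_eq_sum_range (fun i => c (i + 1) * (ω ^ ((i + 1) * l) + (ω ^ ((i + 1) * l))⁻¹)) (h - 1)]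
  simp only [mul_add, Finset.sum_add_distrib, pow_mul]
  ring

end Pattern

end Cfsg.Agent.Lib.FF
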