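import Mathlib
import Cfsg.Agent.Lib.FF.DihFourier

/-!
# The pattern of the principal 2-block in the dihedral case, abstractly
-/

set_option autoImplicit false
set_option linter.unusedSectionVars false
set_option linter.unusedSimpArgs false
set_option linter.unusedVariables false

namespace Cfsg.Agent.Lib.FF

section Pattern

variable {ι : Type*} [DecidableEq ι] {ω : ℂ}

variable {f : ι → ℕ → ℂ} {m : ι → ℕ → ℕ}

theorem sum_delta_mul_complex (S : Finset ι) {p : ι} (hp : p ∈ S) (z : ι → ℂ) :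
    ∑ y ∈ S, z y * (if y = p then (1 : ℂ) else 0) = z p := by
  simp [mul_ite, Finset.sum_ite_eq', hp]

/-- **The pattern theorem.** -/
theorem dih_pattern (S : Finset ι) {o : ι} (ho : o ∈ S) {h : ℕ} (hh : 2 ≤ h) (hh3 : h ≠ 3)
    (hω : IsPrimitiveRoot ω (2 * h))
    (hm : ∀ χ l, f χ l = ∑ j ∈ Finset.range (2 * h), (m χ j : ℂ) * ω ^ (j * l))
    (hZ : ∀ a b, 0 < a → a < 2 * h → 0 < b → b < 2 * h → ∑ χ ∈ S, f χ a * f χ b =
      ((2 * h : ℕ) : ℂ) * ((if a = b then 1 else 0) + (if a + b = 2 * h then 1 else 0)))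
    (hfo : ∀ l, f o l = 1) (deg : ι → ℤ) (hdeg : ∀ χ ∈ S, 0 < deg χ) (hdego : deg o = 1)
    (hlin : ∀ l, 0 < l → l < 2 * h → ∑ χ ∈ S, (deg χ : ℂ) * f χ l = 0) :
    ∃ (a : ι) (b : Fin (h - 1) → ι) (c₂ c₃ : ι) (α γ₂ γ₃ : ℤ), (α = 1 ∨ α = -1) ∧ (γ₂ = 1 ∨ γ₂ = -1) ∧ (γ₃ = 1 ∨ γ₃ = -1) ∧
      a ∈ S.erase o ∧ (∀ i, b i ∈ S.erase o) ∧ c₂ ∈ S.erase o ∧ c₃ ∈ S.erase o ∧ Function.Injective b ∧
      (∀ i, b i ≠ a ∧ b i ≠ c₂ ∧ b i ≠ c₃) ∧ a ≠ c₂ ∧ a ≠ c₃ ∧ c₂ ≠ c₃ ∧
      (∀ l, 0 < l → l < 2 * h → f a l = -(α : ℂ) ∧ f c₂ l = (γ₂ : ℂ) * (-1) ^ l ∧ f c₃ l = (γ₃ : ℂ) * (-1) ^ l ∧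
        ∀ i, f (b i) l = -(α : ℂ) * (ω ^ (((i : ℕ) + 1) * l) + (ω ^ (((i : ℕ) + 1) * l))⁻¹)) ∧
      (∀ χ ∈ S.erase o, χ ≠ a → χ ≠ c₂ → χ ≠ c₃ → (∀ i, χ ≠ b i) → ∀ l, 0 < l → l < 2 * h → f χ l = 0) ∧
      (∀ g : ι → ℂ, (∀ l, 0 < l → l < 2 * h → ∑ χ ∈ S, g χ * f χ l = 0) →
        (∀ i, (α : ℂ) * (g a - g (b i)) = g o) ∧ (α : ℂ) * g a + (γ₂ : ℂ) * g c₂ + (γ₃ : ℂ) * g c₃ = g o) := by
  have hN : 0 < 2 * h := by omega
  have hN' : ((2 * h : ℕ) : ℂ) ≠ 0 := by exact_mod_cast hN.ne'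
  -- the trivial element
  have hoc0 : m o 0 = 1 := by
    have h1 := fourier_inv hω (m o) (f o) (hm o) hN
    have h2 : ∀ l ∈ Finset.range (2 * h), f o l * ω ^ ((2 * h - 0) * l) = ω ^ ((2 * h - 0) * l) := by
      intro l _
      rw [hfo, one_mul]
    rw [Finset.sum_congr rfl h2, E_eq hω, if_pos (by simp)] at h1
    have h3 : ((2 * h : ℕ) : ℂ) * 1 = ((2 * h : ℕ) : ℂ) * (m o 0 : ℂ) := by
      rw [mul_one]
      simpa using h1
    have h4 := mul_left_cancel₀ hN' h3
    exact_mod_cast h4.symm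
  have hoc : ∀ j, 0 < j → j < 2 * h → cc m j o = -1 := by
    intro j hj0 hj
    have h1 := fourier_inv hω (m o) (f o) (hm o) hj
    have h2 : ∀ l ∈ Finset.range (2 * h), f o l * ω ^ ((2 * h - j) * l) = ω ^ ((2 * h - j) * l) := by
      intro l _
      rw [hfo, one_mul]
    rw [Finset.sum_congr rfl h2, E_eq hω, if_neg (fun h' => by
      have := Nat.le_of_dvd (by omega) h'
      omega)] at h1
    have h3 : (m o j : ℂ) = 0 := by
      have := h1.symm
      exact (mul_eq_zero.1 this).resolve_left hN'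
    have h4 : m o j = 0 := by exact_mod_cast h3
    unfold cc
    rw [h4, hoc0]
    norm_num
  -- integer Gram matrix
  have hG : ∀ j j', 0 < j → j < 2 * h → 0 < j' → j' < 2 * h → ∑ χ ∈ S, cc m j χ * cc m j' χ =
      2 + (if j = j' then 1 else 0) + (if j + j' = 2 * h then 1 else 0) := by
    intro j j' h1 h2 h3 h4
    have h5 := gram_cc S hω hN hm hZ h1 h2 h3 h4
    apply Int.cast_injective (α := ℂ)
    push_cast
    exact h5
  have hsplit : ∀ F : ι → ℤ, ∑ χ ∈ S, F χ = F o + ∑ χ ∈ S.erase o, F χ := fun F =>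
    (Finset.add_sum_erase S F ho).symm
  have hS'o : ∀ j j', 0 < j → j < 2 * h → 0 < j' → j' < 2 * h → ∑ χ ∈ S.erase o, cc m j χ * cc m j' χ =
      1 + (if j = j' then 1 else 0) + (if j + j' = 2 * h then 1 else 0) := by
    intro j j' h1 h2 h3 h4
    have h5 := hG j j' h1 h2 h3 h4
    rw [hsplit, hoc j h1 h2, hoc j' h3 h4] at h5
    linarith
  have hlinZ : ∀ j, 0 < j → j < 2 * h → ∑ χ ∈ S.erase o, deg χ * cc m j χ = 1 := by
    intro j h1 h2
    have h3 := lin_cc S hω hN hm (fun χ => (deg χ : ℂ)) hlin h2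
    have h4 : ∑ χ ∈ S, deg χ * cc m j χ = 0 := by
      apply Int.cast_injective (α := ℂ)
      push_cast
      exact h3
    rw [hsplit, hoc j h1 h2, hdego] at h4
    linarith
  have hdeg' : ∀ χ ∈ S.erase o, 0 < deg χ := fun χ hχ => hdeg χ (Finset.mem_of_mem_erase hχ)
  obtain ⟨a, b, c₂, c₃, α, γ₂, γ₃, hα, hγ₂, hγ₃, ha, hb, hc₂, hc₃, hinj, hbne, hac₂, hac₃, hc₂₃, hu, hw⟩ :=
    lattice_sunflower (S.erase o) deg hdeg' (m := h - 1) (by omega) (by omega)
      (fun i => cc m ((i : ℕ) + 1)) (cc m h)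
      (by
        intro i
        have hi := i.2
        have h1 := hS'o ((i : ℕ) + 1) ((i : ℕ) + 1) (by omega) (by omega) (by omega) (by omega)
        rw [if_pos rfl, if_neg (by omega)] at h1
        simp only [pow_two]
        rw [h1]
        norm_num)
      (by
        intro i i' hii
        have hi := i.2
        have hi' := i'.2
        have hne : (i : ℕ) ≠ i' := fun h' => hii (Fin.ext h')
        have h1 := hS'o ((i : ℕ) + 1) ((i' : ℕ) + 1) (by omega) (by omega) (by omega) (by omega)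
        rw [if_neg (by omega), if_neg (by omega)] at h1
        rw [h1]
        norm_num)
      (by
        have h1 := hS'o h h (by omega) (by omega) (by omega) (by omega)
        rw [if_pos rfl, if_pos (by omega)] at h1
        simp only [pow_two]
        rw [h1]
        norm_num)
      (by
        intro i
        have hi := i.2
        have h1 := hS'o ((i : ℕ) + 1) h (by omega) (by omega) (by omega) (by omega)
        rw [if_neg (by omega), if_neg (by omega)] at h1
        rw [h1]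
        norm_num)
      (by
        intro i
        have hi := i.2
        exact hlinZ _ (by omega) (by omega))
      (hlinZ _ (by omega) (by omega))
  -- symmetry
  have hsymm : ∀ χ ∈ S, ∀ j, 0 < j → j < 2 * h → cc m (2 * h - j) χ = cc m j χ := by
    intro χ hχ j h0 h1
    by_cases hjh : j = h
    · subst hjh
      congr 1
      omega
    have e1 := hG j j h0 h1 h0 h1
    have e2 := hG (2 * h - j) (2 * h - j) (by omega) (by omega) (by omega) (by omega)
    have e3 := hG j (2 * h - j) h0 h1 (by omega) (by omega)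
    rw [if_pos rfl, if_neg (by omega)] at e1 e2
    rw [if_neg (by omega), if_pos (by omega)] at e3
    have e4 : ∑ y ∈ S, (cc m j y - cc m (2 * h - j) y) ^ 2 = 0 := by
      have e5 : ∀ y ∈ S, (cc m j y - cc m (2 * h - j) y) ^ 2 = cc m j y * cc m j y - 2 * (cc m j y * cc m (2 * h - j) y) +
          cc m (2 * h - j) y * cc m (2 * h - j) y := by
        intro y _
        ring
      rw [Finset.sum_congr rfl e5, Finset.sum_add_distrib, Finset.sum_sub_distrib, ← Finset.mul_sum, e1, e2, e3]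
      norm_num
    have e5 := (Finset.sum_eq_zero_iff_of_nonneg (fun y _ => sq_nonneg _)).1 e4 χ hχ
    have e6 := (pow_eq_zero_iff two_ne_zero).1 e5
    linarith
  have hωh : ω ^ h = -1 := by
    have h1 : (ω ^ h) ^ 2 = 1 := by rw [← pow_mul, mul_comm h 2, hω.pow_eq_one]
    have h2 : ω ^ h ≠ 1 := fun h' => by
      have h3 := (hω.pow_eq_one_iff_dvd h).1 h'
      have := Nat.le_of_dvd (by omega) h3
      omega
    have h3 : (ω ^ h - 1) * (ω ^ h + 1) = 0 := by linear_combination h1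
    rcases mul_eq_zero.1 h3 with h4 | h4
    · exact absurd (sub_eq_zero.1 h4) h2
    · exact eq_neg_of_add_eq_zero_left h4
  have hval : ∀ χ ∈ S, ∀ l, 0 < l → l < 2 * h → f χ l = (cc m h χ : ℂ) * (-1) ^ l +
      ∑ i : Fin (h - 1), (cc m ((i : ℕ) + 1) χ : ℂ) * (ω ^ (((i : ℕ) + 1) * l) + (ω ^ (((i : ℕ) + 1) * l))⁻¹) := by
    intro χ hχ l h0 h1
    rw [f_eq_sum_cc hω hm χ h0 h1, sum_split hh hω (fun j => (cc m j χ : ℂ)) (fun j a b => by
      exact_mod_cast hsymm χ hχ j a b) l, hωh]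
    have e : cc m 0 χ = 0 := by
      unfold cc
      simp
    simp [e]
  have hone : ∀ l, 0 < l → l < 2 * h → 1 + (-1 : ℂ) ^ l +
      ∑ i : Fin (h - 1), (ω ^ (((i : ℕ) + 1) * l) + (ω ^ (((i : ℕ) + 1) * l))⁻¹) = 0 := by
    intro l h0 h1
    have e1 := sum_split hh hω (fun _ => (1 : ℂ)) (fun _ _ _ => rfl) l
    simp only [one_mul] at e1
    rw [hωh] at e1
    have e2 := E_eq hω l
    rw [if_neg (fun h' => by
      have := Nat.le_of_dvd h0 h'
      omega)] at e2
    have e3 : ∑ j ∈ Finset.range (2 * h), ω ^ (j * l) = 0 := by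
      rw [← e2]
      refine Finset.sum_congr rfl fun j _ => ?_
      rw [mul_comm]
    rw [e3] at e1
    exact e1.symm
  have hS : ∀ {y}, y ∈ S.erase o → y ∈ S := fun hy => Finset.mem_of_mem_erase hy
  refine ⟨a, b, c₂, c₃, α, γ₂, γ₃, hα, hγ₂, hγ₃, ha, hb, hc₂, hc₃, hinj, hbne, hac₂, hac₃, hc₂₃, ?_, ?_, ?_⟩
  · intro l h0 h1
    refine ⟨?_, ?_, ?_, ?_⟩
    · have hua : ∀ i : Fin (h - 1), cc m ((i : ℕ) + 1) a = α := by
        intro i
        rw [hu i a ha]
        simp [(hbne i).1.symm]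
      have hwa : cc m h a = α := by
        rw [hw a ha]
        simp [hac₂, hac₃]
      rw [hval a (hS ha) l h0 h1]
      simp only [hua, hwa]
      rw [← Finset.mul_sum]
      linear_combination (α : ℂ) * hone l h0 h1
    · have huc : ∀ i : Fin (h - 1), cc m ((i : ℕ) + 1) c₂ = 0 := by
        intro i
        rw [hu i c₂ hc₂]
        simp [hac₂.symm, (hbne i).2.1.symm]
      have hwc : cc m h c₂ = γ₂ := by
        rw [hw c₂ hc₂]
        simp [hac₂.symm, hc₂₃]
      rw [hval c₂ (hS hc₂) l h0 h1]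
      simp [huc, hwc]
    · have huc : ∀ i : Fin (h - 1), cc m ((i : ℕ) + 1) c₃ = 0 := by
        intro i
        rw [hu i c₃ hc₃]
        simp [hac₃.symm, (hbne i).2.2.symm]
      have hwc : cc m h c₃ = γ₃ := by
        rw [hw c₃ hc₃]
        simp [hac₃.symm, hc₂₃.symm]
      rw [hval c₃ (hS hc₃) l h0 h1]
      simp [huc, hwc]
    · intro i
      have hub : ∀ i' : Fin (h - 1), cc m ((i' : ℕ) + 1) (b i) = if i' = i then -α else 0 := by
        intro i'
        rw [hu i' (b i) (hb i), if_neg (hbne i).1]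
        by_cases e : i' = i
        · subst e
          simp
        · have e' : b i ≠ b i' := fun h' => e (hinj h').symm
          simp [e, e']
      have hwb : cc m h (b i) = 0 := by
        rw [hw (b i) (hb i), if_neg (hbne i).1, if_neg (hbne i).2.1, if_neg (hbne i).2.2]
        simp
      rw [hval (b i) (hS (hb i)) l h0 h1, hwb, Finset.sum_eq_single i]
      · rw [hub i, if_pos rfl]
        push_cast
        ring
      · intro i' _ hne
        rw [hub i', if_neg hne]
        simp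
      · intro h'
        exact absurd (Finset.mem_univ i) h'
  · intro χ hχ h1 h2 h3 h4 l h5 h6
    have huc : ∀ i : Fin (h - 1), cc m ((i : ℕ) + 1) χ = 0 := by
      intro i
      rw [hu i χ hχ]
      simp [h1, h4 i]
    have hwc : cc m h χ = 0 := by
      rw [hw χ hχ]
      simp [h1, h2, h3]
    rw [hval χ (hS hχ) l h5 h6]
    simp [huc, hwc]
  · intro g hg
    have hL : ∀ j, 0 < j → j < 2 * h → ∑ χ ∈ S.erase o, g χ * (cc m j χ : ℂ) = g o := by
      intro j h0 h1
      have h3 := lin_cc S hω hN hm g hg h1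
      rw [← Finset.add_sum_erase S _ ho, hoc j h0 h1] at h3
      push_cast at h3
      linear_combination h3
    constructor
    · intro i
      have hi := i.2
      have h3 := hL ((i : ℕ) + 1) (by omega) (by omega)
      have e : ∀ y ∈ S.erase o, g y * (cc m ((i : ℕ) + 1) y : ℂ) = (α : ℂ) * (g y * (if y = a then 1 else 0)) -
          (α : ℂ) * (g y * (if y = b i then 1 else 0)) := by
        intro y hy
        rw [hu i y hy]
        push_cast
        ring
      rw [Finset.sum_congr rfl e, Finset.sum_sub_distrib, ← Finset.mul_sum, ← Finset.mul_sum,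
        sum_delta_mul_complex _ ha, sum_delta_mul_complex _ (hb i)] at h3
      linear_combination h3
    · have h3 := hL h (by omega) (by omega)
      have e : ∀ y ∈ S.erase o, g y * (cc m h y : ℂ) = (α : ℂ) * (g y * (if y = a then 1 else 0)) +
          (γ₂ : ℂ) * (g y * (if y = c₂ then 1 else 0)) + (γ₃ : ℂ) * (g y * (if y = c₃ then 1 else 0)) := by
        intro y hy
        rw [hw y hy]
        push_cast
        ring
      rw [Finset.sum_congr rfl e, Finset.sum_add_distrib, Finset.sum_add_distrib, ← Finset.mul_sum, ← Finset.mul_sum,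
        ← Finset.mul_sum, sum_delta_mul_complex _ ha, sum_delta_mul_complex _ hc₂, sum_delta_mul_complex _ hc₃] at h3
      exact h3

end Pattern

end Cfsg.Agent.Lib.FF
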