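import Mathlib
import Cfsg.Agent.Lib.FF.DihLocal
import Cfsg.Agent.Lib.FF.DihPattern

/-!
# The principal 2-block of a group with dihedral Sylow 2-subgroups
-/

set_option autoImplicit false
set_option linter.unusedSectionVars false
set_option linter.unusedSimpArgs false
set_option linter.unusedVariables false

open scoped ComplexConjugate
open Cfsg MonoidAlgebra Cfsg.Agent.Lib.Char Cfsg.Agent.Lib.Block

namespace Cfsg.Agent.Lib.FF

section Misc

variable {G : Type*} [Group G] [Fintype G]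

/-- Parity of a character value at an element of square one. -/
theorem char_parity (χ : IrrCharacter G) {x : G} (hx : x * x = 1) :
    ∃ n : ℤ, (χ : G → ℂ) x = n ∧ Even ((charDegree (χ : G → ℂ) : ℤ) - n) := by
  classical
  have hdeg := map_one_eq_charDegree (IsIrrCharacter.isCharacter χ.2)
  obtain ⟨f, d, ρ, hρ, rfl⟩ := χ
  simp only at hdeg ⊢
  obtain ⟨z, hz, h⟩ := character_eq_sum_roots ρ x (isOfFinOrder_of_finite x)
  have hz2 : ∀ i, z i = 1 ∨ z i = -1 := by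
    intro i
    have h3 := hz i
    have h1 : z i ^ 2 = 1 := by
      have h4 : orderOf x ∣ 2 := orderOf_dvd_of_pow_eq_one (by rw [pow_two, hx])
      obtain ⟨c, hc⟩ := h4
      rw [hc, pow_mul, h3, one_pow]
    have h4 : (z i - 1) * (z i + 1) = 0 := by linear_combination h1
    rcases mul_eq_zero.1 h4 with h5 | h5
    · exact Or.inl (sub_eq_zero.1 h5)
    · exact Or.inr (eq_neg_of_add_eq_zero_left h5)
  have hc : ∀ i, ∃ c : ℤ, z i = c ∧ Even (1 - c) := by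
    intro i
    rcases hz2 i with h1 | h1
    · exact ⟨1, by simp [h1], by norm_num⟩
    · exact ⟨-1, by simp [h1], by decide⟩
  choose c hc1 hc2 using hc
  refine ⟨∑ i, c i, ?_, ?_⟩
  · have h1 := h 1
    rw [zpow_one] at h1
    rw [h1]
    push_cast
    refine Finset.sum_congr rfl fun i _ => ?_
    rw [zpow_one, hc1]
  · have h1 := h 0
    rw [zpow_zero] at h1
    have h2 : ((charDegree (ρ.character) : ℤ) : ℂ) = ∑ i : Fin (Module.finrank ℂ (Fin d → ℂ)), ((1 : ℤ) : ℂ) := by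
      push_cast
      rw [← hdeg, h1]
      simp
    have h3 : (charDegree (ρ.character) : ℤ) = ∑ i : Fin (Module.finrank ℂ (Fin d → ℂ)), (1 : ℤ) := by
      apply Int.cast_injective (α := ℂ)
      rw [h2]
      push_cast
      rfl
    rw [h3, ← Finset.sum_sub_distrib]
    exact Finset.even_sum _ fun i _ => hc2 i

theorem exists_mult (χ : IrrCharacter G) {N : ℕ} [NeZero N] {ω : ℂ} (hω : IsPrimitiveRoot ω N) {σ : G} (hN : orderOf σ = N) :
    ∃ m : ℕ → ℕ, ∀ l : ℕ, (χ : G → ℂ) (σ ^ l) = ∑ j ∈ Finset.range N, (m j : ℂ) * ω ^ (j * l) := by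
  classical
  obtain ⟨f, d, ρ, hρ, rfl⟩ := χ
  obtain ⟨z, hz, h⟩ := character_eq_sum_roots ρ σ (isOfFinOrder_of_finite σ)
  have h1 : ∀ i, ∃ j < N, ω ^ j = z i := fun i => hω.eq_pow_of_pow_eq_one (by rw [← hN]; exact hz i)
  choose e he he' using h1
  refine ⟨fun j => (Finset.univ.filter (fun i => e i = j)).card, fun l => ?_⟩
  simp only
  have h2 := h (l : ℤ)
  rw [zpow_natCast] at h2
  rw [h2]
  have h3 : ∀ i, z i ^ (l : ℤ) = ω ^ (e i * l) := by
    intro i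
    rw [zpow_natCast, ← he', pow_mul]
  simp only [h3]
  rw [← Finset.sum_fiberwise_of_maps_to (s := Finset.univ) (t := Finset.range N) (g := e)
    (fun i _ => Finset.mem_range.2 (he i))]
  refine Finset.sum_congr rfl fun j _ => ?_
  rw [Finset.sum_congr rfl (g := fun _ => ω ^ (j * l)) (fun i hi => by rw [(Finset.mem_filter.1 hi).2])]
  simp

end Misc

section Data

variable {G : Type*} [Group G] [Fintype G] {M : Ideal AlgInt} {P : Sylow 2 G} {σ τ : G} {k : ℕ}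

namespace DihData

variable (D : DihData P σ τ k)
include D

theorem conj_σ {h : G} (hh : h * σ * h⁻¹ ∈ Subgroup.zpowers σ) : h * σ * h⁻¹ = σ ∨ h * σ * h⁻¹ = σ⁻¹ := by
  obtain ⟨u, v, huv, hc, hu2, hv, hu_z, hv_z⟩ := exists_jordan (p := 2) h
  have hn := mem_normalizer_zpowers hh
  obtain ⟨i, hi⟩ := Subgroup.mem_zpowers_iff.1 hu_z
  obtain ⟨l, hl⟩ := Subgroup.mem_zpowers_iff.1 hv_z
  have huN : u ∈ Subgroup.normalizer ((Subgroup.zpowers σ : Subgroup G) : Set G) := by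
    rw [← hi]
    exact Subgroup.zpow_mem _ hn i
  have hvN : v ∈ Subgroup.normalizer ((Subgroup.zpowers σ : Subgroup G) : Set G) := by
    rw [← hl]
    exact Subgroup.zpow_mem _ hn l
  have hv1 : v * σ * v⁻¹ ∈ Subgroup.zpowers σ := (Subgroup.mem_normalizer_iff.1 hvN σ).1 (Subgroup.mem_zpowers σ)
  have hvc : v * σ = σ * v := odd_centralize_cyclic ⟨k, D.oσ⟩ hv hv1
  have hT : IsPGroup 2 ((Subgroup.zpowers u ⊔ Subgroup.zpowers σ : Subgroup G)) :=
    (isPGroup_zpowers_of_orderOf hu2).to_sup_of_normal_right' D.isPGroup_A (Subgroup.zpowers_le.2 huN)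
  obtain ⟨c, hc'⟩ := exists_conj_into_sylow P hT
  have hσP := hc' σ (Subgroup.mem_sup_right (Subgroup.mem_zpowers σ))
  have huP := hc' u (Subgroup.mem_sup_left (Subgroup.mem_zpowers u))
  have hsq : (c * σ * c⁻¹) * (c * σ * c⁻¹) ≠ 1 := by
    intro h1
    apply D.σ_sq_ne
    have e : (c * σ * c⁻¹) * (c * σ * c⁻¹) = c * (σ * σ) * c⁻¹ := by group
    rw [e] at h1
    have e2 : σ * σ = c⁻¹ * (c * (σ * σ) * c⁻¹) * c := by group
    rw [e2, h1]
    group
  obtain ⟨s, hs⟩ := D.mem_of_sq_ne hσP hsq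
  have e : h * σ * h⁻¹ = u * σ * u⁻¹ := by
    rw [← huv]
    calc (u * v) * σ * (u * v)⁻¹ = u * (v * σ) * v⁻¹ * u⁻¹ := by group
      _ = u * (σ * v) * v⁻¹ * u⁻¹ := by rw [hvc]
      _ = u * σ * u⁻¹ := by group
  rw [e]
  rcases D.mem _ huP with ⟨m, hm⟩ | ⟨m, hm⟩
  · left
    have h1 : (c * u * c⁻¹) * (c * σ * c⁻¹) = (c * σ * c⁻¹) * (c * u * c⁻¹) := by
      rw [hm, hs]
      exact ((Commute.refl σ).pow_pow m s).eq
    have h2 : u * σ = σ * u := by
      have e1 : (c * u * c⁻¹) * (c * σ * c⁻¹) = c * (u * σ) * c⁻¹ := by group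
      have e2 : (c * σ * c⁻¹) * (c * u * c⁻¹) = c * (σ * u) * c⁻¹ := by group
      rw [e1, e2] at h1
      simpa using h1
    rw [h2]
    group
  · right
    have h1 := D.refl_conj m s
    rw [← hm, ← hs] at h1
    have e1 : (c * u * c⁻¹) * (c * σ * c⁻¹) * (c * u * c⁻¹)⁻¹ = c * (u * σ * u⁻¹) * c⁻¹ := by group
    have e2 : (c * σ * c⁻¹)⁻¹ = c * σ⁻¹ * c⁻¹ := by group
    rw [e1, e2] at h1
    simpa using h1

/-- Conjugate powers of `σ` of order `> 2` are equal or inverse. -/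
theorem conj_pow_eq {i j : ℕ} (hx : σ ^ i * σ ^ i ≠ 1) {g : G} (hg : g * σ ^ i * g⁻¹ = σ ^ j) :
    σ ^ j = σ ^ i ∨ σ ^ j = (σ ^ i)⁻¹ := by
  have hx' : σ ^ j * σ ^ j ≠ 1 := by
    rw [← hg]
    intro h
    apply hx
    have e : (g * σ ^ i * g⁻¹) * (g * σ ^ i * g⁻¹) = g * (σ ^ i * σ ^ i) * g⁻¹ := by group
    rw [e] at h
    have e2 : σ ^ i * σ ^ i = g⁻¹ * (g * (σ ^ i * σ ^ i) * g⁻¹) * g := by group
    rw [e2, h]
    group
  set X := Subgroup.centralizer ({σ ^ j} : Set G) with hX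
  obtain ⟨S₁, hS₁⟩ := D.exists_sylow_A hx'
  have haX : g * σ * g⁻¹ ∈ X := by
    rw [hX, mem_centralizer_singleton, ← hg]
    have e : Commute σ (σ ^ i) := (Commute.refl σ).pow_right i
    calc g * σ * g⁻¹ * (g * σ ^ i * g⁻¹) = g * (σ * σ ^ i) * g⁻¹ := by group
      _ = g * (σ ^ i * σ) * g⁻¹ := by rw [e.eq]
      _ = g * σ ^ i * g⁻¹ * (g * σ * g⁻¹) := by group
  let a : X := ⟨g * σ * g⁻¹, haX⟩
  have hao : ∃ r, orderOf a = 2 ^ r := by
    refine ⟨k, ?_⟩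
    rw [Subgroup.orderOf_mk, orderOf_conj, D.oσ]
  obtain ⟨S₂, hS₂⟩ := (isPGroup_zpowers_of_orderOf hao).exists_le_sylow
  obtain ⟨c, hc⟩ := MulAction.exists_smul_eq X S₂ S₁
  have h1 : c * a * c⁻¹ ∈ (S₁ : Subgroup X) := by
    rw [← hc]
    refine ⟨a, hS₂ (Subgroup.mem_zpowers a), ?_⟩
    simp [MulAut.smul_def]
  rw [hS₁, Subgroup.mem_subgroupOf] at h1
  have h2 : ((c : G) * g) * σ * ((c : G) * g)⁻¹ ∈ Subgroup.zpowers σ := by
    have e : ((c : G) * g) * σ * ((c : G) * g)⁻¹ = ((c * a * c⁻¹ : X) : G) := by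
      simp only [Subgroup.coe_mul, Subgroup.coe_inv, a]
      group
    rw [e]
    exact h1
  have h3 : ((c : G) * g) * σ ^ i * ((c : G) * g)⁻¹ = σ ^ j := by
    have e : ((c : G) * g) * σ ^ i * ((c : G) * g)⁻¹ = (c : G) * (g * σ ^ i * g⁻¹) * (c : G)⁻¹ := by group
    have hcc : (c : G) * σ ^ j = σ ^ j * (c : G) := mem_centralizer_singleton.1 c.2
    rw [e, hg, hcc]
    group
  rw [← h3, ← conj_pow]
  rcases D.conj_σ h2 with h4 | h4
  · left
    rw [h4]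
  · right
    rw [h4, inv_pow]

theorem val_inv (χ : IrrCharacter G) (j : ℕ) : (χ : G → ℂ) ((σ ^ j)⁻¹) = (χ : G → ℂ) (σ ^ j) := by
  rw [← D.conj_pow_τ j]
  exact IsCharacter.isClassFunction (IsIrrCharacter.isCharacter χ.2) _ _

theorem val_conj (χ : IrrCharacter G) (j : ℕ) : conj ((χ : G → ℂ) (σ ^ j)) = (χ : G → ℂ) (σ ^ j) := by
  rw [← IsCharacter.map_inv' (IsIrrCharacter.isCharacter χ.2), D.val_inv]

theorem isPPart_self (i : ℕ) : IsPPart 2 (σ ^ i) (σ ^ i) :=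
  ⟨1, mul_one _, Commute.one_right _, D.pow_order i, by simp⟩

open Classical in
theorem sum_self_pow (hM : IsPModular 2 M) {a : ℕ} (hx : σ ^ a * σ ^ a ≠ 1) :
    ∑ ζ : IrrCharacter G, (if ζ ∈ principalBlock M G then (ζ : G → ℂ) (σ ^ a) * (ζ : G → ℂ) (σ ^ a) else 0) = 2 ^ k := by
  obtain ⟨h2, K, hKn, hK, hidx⟩ := D.exists_complement_pow hx
  have h3 := col_of_complement hM (D.pow_order a) K hKn hK hidx
  rw [h2] at h3
  simp only [D.val_conj] at h3
  rw [h3]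
  push_cast
  rfl

open Classical in
theorem sum_self_J (hM : IsPModular 2 M) :
    ∑ ζ : IrrCharacter G, (if ζ ∈ principalBlock M G then (ζ : G → ℂ) (σ ^ (2 ^ (k - 1))) * (ζ : G → ℂ) (σ ^ (2 ^ (k - 1))) else 0) =
      2 ^ (k + 1) := by
  obtain ⟨h2, K, hKn, hK, hidx⟩ := D.exists_complement_J
  have h3 := col_of_complement hM (D.pow_order _) K hKn hK hidx
  rw [h2] at h3
  simp only [D.val_conj] at h3
  rw [h3]
  push_cast
  rfl

theorem two_pow_eq : 2 ^ k = 2 * 2 ^ (k - 1) := by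
  rw [← pow_succ']
  congr 1
  have := D.two_le
  omega

theorem eq_half_of_sq {a : ℕ} (ha0 : 0 < a) (ha : a < 2 ^ k) (hx : σ ^ a * σ ^ a = 1) : a = 2 ^ (k - 1) := by
  obtain ⟨c, rfl⟩ := (D.sq_eq_one_iff a).1 hx
  have e := D.two_pow_eq
  have hp : 0 < 2 ^ (k - 1) := by positivity
  have hc0 : c ≠ 0 := by
    rintro rfl
    simp at ha0
  have hc2 : c < 2 := by
    by_contra h
    have h2 : 2 ^ (k - 1) * 2 ≤ 2 ^ (k - 1) * c := Nat.mul_le_mul_left _ (not_lt.1 h)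
    omega
  have : c = 1 := by omega
  rw [this, mul_one]

theorem not_conj_pow {a b : ℕ} (ha0 : 0 < a) (ha : a < 2 ^ k) (hb0 : 0 < b) (hb : b < 2 ^ k) (hab : a ≠ b)
    (hab2 : a + b ≠ 2 ^ k) : ¬ IsConj (σ ^ a) (σ ^ b) := by
  intro hc
  obtain ⟨g, hg⟩ := isConj_iff.1 hc
  by_cases hx : σ ^ a * σ ^ a = 1
  · have hx' : σ ^ b * σ ^ b = 1 := by
      rw [← hg]
      have e : (g * σ ^ a * g⁻¹) * (g * σ ^ a * g⁻¹) = g * (σ ^ a * σ ^ a) * g⁻¹ := by group
      rw [e, hx]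
      group
    exact hab ((D.eq_half_of_sq ha0 ha hx).trans (D.eq_half_of_sq hb0 hb hx').symm)
  · rcases D.conj_pow_eq hx hg with h1 | h1
    · apply hab
      have h2 := pow_injOn_Iio_orderOf (x := σ)
      rw [D.oσ] at h2
      exact (h2 (Set.mem_Iio.2 hb) (Set.mem_Iio.2 ha) h1).symm
    · apply hab2
      have h2 : σ ^ (a + b) = 1 := by
        rw [pow_add, h1]
        group
      have h3 := orderOf_dvd_of_pow_eq_one h2
      rw [D.oσ] at h3
      exact (dvd_iff_eq_of_lt (N := 2 ^ k) (by omega) (by omega)).1 h3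

open Classical in
/-- **The two-variable column formula.** -/
theorem Z_formula (hM : IsPModular 2 M) {a b : ℕ} (ha0 : 0 < a) (ha : a < 2 ^ k) (hb0 : 0 < b) (hb : b < 2 ^ k) :
    ∑ ζ : IrrCharacter G, (if ζ ∈ principalBlock M G then (ζ : G → ℂ) (σ ^ a) * (ζ : G → ℂ) (σ ^ b) else 0) =
      ((2 ^ k : ℕ) : ℂ) * ((if a = b then 1 else 0) + (if a + b = 2 ^ k then 1 else 0)) := by
  have := isPModular_isPrime hM
  have hB : IsBlockUnion M (principalBlock M G) := isBlockUnion_of_isPBlock (isPBlock_blockOf (oneIrr G))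
  by_cases hab : a = b
  · subst hab
    rw [if_pos rfl]
    by_cases hx : σ ^ a * σ ^ a = 1
    · have h1 := D.eq_half_of_sq ha0 ha hx
      have e := D.two_pow_eq
      rw [if_pos (by omega)]
      rw [h1, D.sum_self_J hM]
      push_cast
      ring
    · rw [D.sum_self_pow hM hx, if_neg]
      · push_cast
        ring
      · intro h1
        apply hx
        rw [← pow_add, h1, ← D.oσ, pow_orderOf_eq_one]
  · by_cases hab2 : a + b = 2 ^ k
    · have e : σ ^ b = (σ ^ a)⁻¹ := by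
        apply eq_inv_of_mul_eq_one_right
        rw [← pow_add, hab2, ← D.oσ, pow_orderOf_eq_one]
      have hx : σ ^ a * σ ^ a ≠ 1 := by
        intro hx
        have h1 := D.eq_half_of_sq ha0 ha hx
        have e2 := D.two_pow_eq
        omega
      simp only [e, D.val_inv]
      rw [D.sum_self_pow hM hx, if_neg hab, if_pos hab2]
      push_cast
      ring
    · rw [if_neg hab, if_neg hab2]
      have h := block_orthogonality hM (D.isPPart_self a) (D.isPPart_self b) (D.not_conj_pow ha0 ha hb0 hb hab hab2) hB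
      rw [finsum_mem_irr] at h
      simp only [D.val_inv] at h
      rw [h]
      simp

open Classical in
theorem orth_odd (hM : IsPModular 2 M) {ρ : G} (hρ : ¬ 2 ∣ orderOf ρ) {a : ℕ} (ha0 : 0 < a) (ha : a < 2 ^ k) :
    ∑ ζ : IrrCharacter G, (if ζ ∈ principalBlock M G then (ζ : G → ℂ) ρ * (ζ : G → ℂ) (σ ^ a) else 0) = 0 := by
  have := isPModular_isPrime hM
  have hB : IsBlockUnion M (principalBlock M G) := isBlockUnion_of_isPBlock (isPBlock_blockOf (oneIrr G))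
  have hne : σ ^ a ≠ 1 := pow_ne_one_of_lt_orderOf ha0.ne' (by rw [D.oσ]; exact ha)
  have h := block_orthogonality hM (g := ρ) (x := 1) ⟨ρ, one_mul _, Commute.one_left _, ⟨0, by simp⟩, hρ⟩
    (D.isPPart_self a) (fun hc => hne (isConj_one_right.1 hc)) hB
  rw [finsum_mem_irr] at h
  simp only [D.val_inv] at h
  exact h

theorem refl_order (m : ℕ) : orderOf (σ ^ m * τ) = 2 := by
  apply orderOf_eq_prime
  · rw [pow_two]
    exact D.refl_sq m
  · intro h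
    apply D.refl_notMem m
    rw [h]
    exact one_mem _

theorem refl_ne (m : ℕ) : σ ^ m * τ ≠ 1 := fun h => D.refl_notMem m (h ▸ one_mem _)

theorem complement_refl {m : ℕ} (hconj : ¬ IsConj (σ ^ m * τ) (σ ^ (2 ^ (k - 1)))) :
    2 ^ (Nat.card (Subgroup.centralizer ({σ ^ m * τ} : Set G))).factorization 2 = 4 ∧
    ∃ K : Subgroup (Subgroup.centralizer ({σ ^ m * τ} : Set G)), K.Normal ∧ ¬ 2 ∣ Nat.card K ∧ ∃ l, K.index = 2 ^ l := by
  obtain ⟨S, hS4, hSq, htS⟩ := D.exists_sylow_V hconj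
  have htX : σ ^ m * τ ∈ Subgroup.centralizer ({σ ^ m * τ} : Set G) := mem_centralizer_singleton.2 rfl
  have ht1 : (⟨σ ^ m * τ, htX⟩ : Subgroup.centralizer ({σ ^ m * τ} : Set G)) ≠ 1 := by
    intro h
    exact D.refl_ne m (congrArg Subtype.val h)
  have hN := normalizer_le_centralizer_central_klein S (fun x hx => Subtype.ext (hSq x hx)) hS4 (htS htX) ht1
    (fun x => Subtype.ext (mem_centralizer_singleton.1 x.2))
  exact ⟨by rw [← Sylow.card_eq_multiplicity S, hS4], exists_complement_of_burnside S hN⟩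

theorem section_const_pow (hM : IsPModular 2 M) {i : ℕ} (hi : σ ^ i ≠ 1) {y : G} (hyc : y * σ ^ i = σ ^ i * y)
    (hy : ¬ 2 ∣ orderOf y) (ζ : IrrCharacter G) (hζ : ζ ∈ principalBlock M G) :
    (ζ : G → ℂ) (σ ^ i * y) = (ζ : G → ℂ) (σ ^ i) := by
  by_cases hx : σ ^ i * σ ^ i = 1
  · rcases D.eq_one_or_J hx with h | h
    · exact absurd h hi
    · rw [h] at hyc ⊢
      obtain ⟨_, K, hKn, hK, hidx⟩ := D.exists_complement_J
      exact section_const_of_complement hM (D.pow_order _) K hKn hK hidx ⟨y, mem_centralizer_singleton.2 hyc⟩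
        (by rwa [Subgroup.orderOf_mk]) ζ hζ
  · obtain ⟨_, K, hKn, hK, hidx⟩ := D.exists_complement_pow hx
    exact section_const_of_complement hM (D.pow_order _) K hKn hK hidx ⟨y, mem_centralizer_singleton.2 hyc⟩
      (by rwa [Subgroup.orderOf_mk]) ζ hζ

theorem section_const_refl (hM : IsPModular 2 M) {m : ℕ} (hconj : ¬ IsConj (σ ^ m * τ) (σ ^ (2 ^ (k - 1)))) {y : G}
    (hyc : y * (σ ^ m * τ) = (σ ^ m * τ) * y) (hy : ¬ 2 ∣ orderOf y) (ζ : IrrCharacter G) (hζ : ζ ∈ principalBlock M G) :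
    (ζ : G → ℂ) ((σ ^ m * τ) * y) = (ζ : G → ℂ) (σ ^ m * τ) := by
  obtain ⟨_, K, hKn, hK, hidx⟩ := D.complement_refl hconj
  exact section_const_of_complement hM ⟨1, by simpa using D.refl_order m⟩ K hKn hK hidx ⟨y, mem_centralizer_singleton.2 hyc⟩
    (by rwa [Subgroup.orderOf_mk]) ζ hζ

open Classical in
theorem sum_self_refl (hM : IsPModular 2 M) {m : ℕ} (hconj : ¬ IsConj (σ ^ m * τ) (σ ^ (2 ^ (k - 1)))) :
    ∑ ζ : IrrCharacter G, (if ζ ∈ principalBlock M G then conj ((ζ : G → ℂ) (σ ^ m * τ)) * (ζ : G → ℂ) (σ ^ m * τ) else 0) = 4 := by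
  obtain ⟨h2, K, hKn, hK, hidx⟩ := D.complement_refl hconj
  have h3 := col_of_complement hM ⟨1, by simpa using D.refl_order m⟩ K hKn hK hidx
  rw [h2] at h3
  rw [h3]
  norm_num

/-- Reduction of a `2`-singular element to its `2`-part. -/
theorem section_reduce (hM : IsPModular 2 M) {g : G} (hg : 2 ∣ orderOf g) :
    (∃ l, 0 < l ∧ l < 2 ^ k ∧ ∀ ζ ∈ principalBlock M G, (ζ : G → ℂ) g = (ζ : G → ℂ) (σ ^ l)) ∨
    (∃ m, ¬ IsConj (σ ^ m * τ) (σ ^ (2 ^ (k - 1))) ∧ ∀ ζ ∈ principalBlock M G, (ζ : G → ℂ) g = (ζ : G → ℂ) (σ ^ m * τ)) := by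
  obtain ⟨u, y, huy, hc, hu, hy, _, _⟩ := exists_jordan (p := 2) g
  have hu1 : u ≠ 1 := by
    rintro rfl
    rw [one_mul] at huy
    rw [huy] at hy
    exact hy hg
  obtain ⟨c, hcP⟩ := exists_conj_elt_into_sylow P hu
  set u' := c * u * c⁻¹ with hu'
  set y' := c * y * c⁻¹ with hy'
  have he : ∀ ζ : IrrCharacter G, (ζ : G → ℂ) g = (ζ : G → ℂ) (u' * y') := by
    intro ζ
    have e : u' * y' = c * g * c⁻¹ := by
      rw [hu', hy', ← huy]
      group
    rw [e]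
    exact (IsCharacter.isClassFunction (IsIrrCharacter.isCharacter ζ.2) _ _).symm
  have hy'o : ¬ 2 ∣ orderOf y' := by
    rw [hy', orderOf_conj]
    exact hy
  have hcomm : y' * u' = u' * y' := by
    rw [hu', hy']
    calc c * y * c⁻¹ * (c * u * c⁻¹) = c * (y * u) * c⁻¹ := by group
      _ = c * (u * y) * c⁻¹ := by rw [hc.eq]
      _ = c * u * c⁻¹ * (c * y * c⁻¹) := by group
  have hu'1 : u' ≠ 1 := by
    rw [hu']
    intro h
    apply hu1
    have e : u = c⁻¹ * (c * u * c⁻¹) * c := by group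
    rw [e, h]
    group
  have hJ_const : ∀ w : G, w * σ ^ (2 ^ (k - 1)) = σ ^ (2 ^ (k - 1)) * w → ¬ 2 ∣ orderOf w →
      ∀ ζ ∈ principalBlock M G, (ζ : G → ℂ) (σ ^ (2 ^ (k - 1)) * w) = (ζ : G → ℂ) (σ ^ (2 ^ (k - 1))) :=
    fun w h1 h2 ζ hζ => D.section_const_pow hM D.J_ne h1 h2 ζ hζ
  rcases D.mem u' hcP with ⟨i, hi⟩ | ⟨m, hm⟩
  · left
    have hN : 0 < 2 ^ k := by positivity
    have e1 : σ ^ i = σ ^ (i % 2 ^ k) := by
      rw [← D.oσ]
      exact (pow_mod_orderOf σ i).symm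
    have hl0 : 0 < i % 2 ^ k := by
      apply Nat.pos_of_ne_zero
      intro h0
      rw [h0, pow_zero] at e1
      exact hu'1 (hi.trans e1)
    refine ⟨i % 2 ^ k, hl0, Nat.mod_lt _ hN, fun ζ hζ => ?_⟩
    rw [← e1, he ζ, hi]
    rw [hi] at hcomm hu'1
    exact D.section_const_pow hM hu'1 hcomm hy'o ζ hζ
  · by_cases hconj : IsConj (σ ^ m * τ) (σ ^ (2 ^ (k - 1)))
    · left
      have e := D.two_pow_eq
      have hp : 0 < 2 ^ (k - 1) := by positivity
      refine ⟨2 ^ (k - 1), hp, by omega, fun ζ hζ => ?_⟩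
      obtain ⟨d, hd⟩ := isConj_iff.1 hconj
      rw [he ζ, hm]
      rw [hm] at hcomm
      have e2 : (σ ^ m * τ) * y' = d⁻¹ * (σ ^ (2 ^ (k - 1)) * (d * y' * d⁻¹)) * d := by
        rw [← hd]
        group
      have hcl := IsCharacter.isClassFunction (IsIrrCharacter.isCharacter ζ.2) (σ ^ (2 ^ (k - 1)) * (d * y' * d⁻¹)) d⁻¹
      rw [inv_inv] at hcl
      rw [e2, hcl]
      apply hJ_const _ _ _ ζ hζ
      · rw [← hd]
        calc d * y' * d⁻¹ * (d * (σ ^ m * τ) * d⁻¹) = d * (y' * (σ ^ m * τ)) * d⁻¹ := by group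
          _ = d * ((σ ^ m * τ) * y') * d⁻¹ := by rw [hcomm]
          _ = d * (σ ^ m * τ) * d⁻¹ * (d * y' * d⁻¹) := by group
      · rw [orderOf_conj]
        exact hy'o
    · right
      refine ⟨m, hconj, fun ζ hζ => ?_⟩
      rw [he ζ, hm]
      rw [hm] at hcomm
      exact D.section_const_refl hM hconj hcomm hy'o ζ hζ

open Classical in
/-- The pattern for the principal block. -/
theorem principal_pattern (hM : IsPModular 2 M) {ω : ℂ} (hω : IsPrimitiveRoot ω (2 ^ k)) :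
    ∃ (a : IrrCharacter G) (b : Fin (2 ^ (k - 1) - 1) → IrrCharacter G) (c₂ c₃ : IrrCharacter G) (α γ₂ γ₃ : ℤ),
      (α = 1 ∨ α = -1) ∧ (γ₂ = 1 ∨ γ₂ = -1) ∧ (γ₃ = 1 ∨ γ₃ = -1) ∧
      a ∈ (Finset.univ.filter (· ∈ principalBlock M G)).erase (oneIrr G) ∧
      (∀ i, b i ∈ (Finset.univ.filter (· ∈ principalBlock M G)).erase (oneIrr G)) ∧
      c₂ ∈ (Finset.univ.filter (· ∈ principalBlock M G)).erase (oneIrr G) ∧
      c₃ ∈ (Finset.univ.filter (· ∈ principalBlock M G)).erase (oneIrr G) ∧ Function.Injective b ∧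
      (∀ i, b i ≠ a ∧ b i ≠ c₂ ∧ b i ≠ c₃) ∧ a ≠ c₂ ∧ a ≠ c₃ ∧ c₂ ≠ c₃ ∧
      (∀ l, 0 < l → l < 2 ^ k → (a : G → ℂ) (σ ^ l) = -(α : ℂ) ∧ (c₂ : G → ℂ) (σ ^ l) = (γ₂ : ℂ) * (-1) ^ l ∧
        (c₃ : G → ℂ) (σ ^ l) = (γ₃ : ℂ) * (-1) ^ l ∧
        ∀ i, (b i : G → ℂ) (σ ^ l) = -(α : ℂ) * (ω ^ (((i : ℕ) + 1) * l) + (ω ^ (((i : ℕ) + 1) * l))⁻¹)) ∧
      (∀ χ ∈ (Finset.univ.filter (· ∈ principalBlock M G)).erase (oneIrr G), χ ≠ a → χ ≠ c₂ → χ ≠ c₃ → (∀ i, χ ≠ b i) →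
        ∀ l, 0 < l → l < 2 ^ k → (χ : G → ℂ) (σ ^ l) = 0) ∧
      (∀ g : IrrCharacter G → ℂ, (∀ l, 0 < l → l < 2 ^ k →
          ∑ χ ∈ Finset.univ.filter (· ∈ principalBlock M G), g χ * (χ : G → ℂ) (σ ^ l) = 0) →
        (∀ i, (α : ℂ) * (g a - g (b i)) = g (oneIrr G)) ∧
          (α : ℂ) * g a + (γ₂ : ℂ) * g c₂ + (γ₃ : ℂ) * g c₃ = g (oneIrr G)) := by
  have := isPModular_isPrime hM
  have hpos : 2 ^ k ≠ 0 := by positivity
  haveI : NeZero (2 ^ k) := ⟨hpos⟩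
  have hm0 := fun χ : IrrCharacter G => exists_mult χ hω D.oσ
  choose m hm using hm0
  have e := D.two_pow_eq
  have hω' : IsPrimitiveRoot ω (2 * 2 ^ (k - 1)) := by
    rw [← e]
    exact hω
  have hm' : ∀ (χ : IrrCharacter G) (l : ℕ), (χ : G → ℂ) (σ ^ l) =
      ∑ j ∈ Finset.range (2 * 2 ^ (k - 1)), (m χ j : ℂ) * ω ^ (j * l) := by
    rw [← e]
    exact hm
  have hh : 2 ≤ 2 ^ (k - 1) := by
    have := D.two_le
    calc 2 = 2 ^ 1 := by norm_num
      _ ≤ 2 ^ (k - 1) := Nat.pow_le_pow_right (by norm_num) (by omega)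
  have hh3 : 2 ^ (k - 1) ≠ 3 := by
    intro h3
    have h4 : 2 ∣ 2 ^ (k - 1) := dvd_pow_self 2 (by have := D.two_le; omega)
    rw [h3] at h4
    omega
  have ho : oneIrr G ∈ Finset.univ.filter (· ∈ principalBlock M G) :=
    Finset.mem_filter.2 ⟨Finset.mem_univ _, mem_blockOf_self (oneIrr G)⟩
  have hZ : ∀ a b : ℕ, 0 < a → a < 2 * 2 ^ (k - 1) → 0 < b → b < 2 * 2 ^ (k - 1) →
      ∑ χ ∈ Finset.univ.filter (· ∈ principalBlock M G), (χ : G → ℂ) (σ ^ a) * (χ : G → ℂ) (σ ^ b) =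
        ((2 * 2 ^ (k - 1) : ℕ) : ℂ) * ((if a = b then 1 else 0) + (if a + b = 2 * 2 ^ (k - 1) then 1 else 0)) := by
    rw [← e]
    intro a b h1 h2 h3 h4
    rw [Finset.sum_filter]
    exact D.Z_formula hM h1 h2 h3 h4
  have hlin : ∀ l, 0 < l → l < 2 * 2 ^ (k - 1) →
      ∑ χ ∈ Finset.univ.filter (· ∈ principalBlock M G),
        (((charDegree ((χ : IrrCharacter G) : G → ℂ) : ℕ) : ℤ) : ℂ) * (χ : G → ℂ) (σ ^ l) = 0 := by
    rw [← e]
    intro l h1 h2
    rw [Finset.sum_filter]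
    have h3 := D.orth_odd hM (ρ := 1) (by simp) h1 h2
    refine (Finset.sum_congr rfl fun χ _ => ?_).trans h3
    rw [map_one_eq_charDegree (IsIrrCharacter.isCharacter χ.2)]
    push_cast
    rfl
  have hP := dih_pattern (f := fun (χ : IrrCharacter G) l => (χ : G → ℂ) (σ ^ l)) (m := m)
    (Finset.univ.filter (· ∈ principalBlock M G)) ho hh hh3 hω' hm' hZ (fun l => rfl)
    (fun χ => ((charDegree ((χ : IrrCharacter G) : G → ℂ) : ℕ) : ℤ))
    (fun χ _ => by exact_mod_cast charDegree_pos_of_irr χ.2)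
    (by
      have h1 := map_one_eq_charDegree (IsIrrCharacter.isCharacter (oneIrr G).2)
      rw [oneIrr_coe] at h1
      have h2 : ((charDegree (fun _ : G => (1 : ℂ)) : ℕ) : ℂ) = 1 := h1.symm
      have h3 : charDegree (fun _ : G => (1 : ℂ)) = 1 := by exact_mod_cast h2
      rw [oneIrr_coe, h3]
      rfl) hlin
  rw [e]
  exact hP

end DihData

end Data

end Cfsg.Agent.Lib.FF
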