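import Mathlib
import Cfsg.Agent.Lib.FF.DihBlock

/-!
# The principal 2-block of a group with dihedral Sylow 2-subgroups: main statement
-/

set_option autoImplicit false
set_option linter.unusedSectionVars false
set_option linter.unusedSimpArgs false
set_option linter.unusedVariables false

open scoped ComplexConjugate
open Cfsg MonoidAlgebra Cfsg.Agent.Lib.Char Cfsg.Agent.Lib.Block

namespace Cfsg.Agent.Lib.FF

theorem four_squares_rest {ι : Type*} [DecidableEq ι] (S : Finset ι) (n : ι → ℤ) (hsum : ∑ y ∈ S, n y ^ 2 = 4)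
    {o a c d x : ι} (ho : o ∈ S) (ha : a ∈ S) (hc : c ∈ S) (hd : d ∈ S) (hx : x ∈ S)
    (h1 : o ≠ a) (h2 : o ≠ c) (h3 : o ≠ d) (h4 : o ≠ x) (h5 : a ≠ c) (h6 : a ≠ d) (h7 : a ≠ x) (h8 : c ≠ d) (h9 : c ≠ x)
    (h10 : d ≠ x) (no : n o ≠ 0) (na : n a ≠ 0) (nc : n c ≠ 0) (nd : n d ≠ 0) : n x = 0 := by
  have hT : ({o, a, c, d, x} : Finset ι) ⊆ S := by
    intro y hy
    simp only [Finset.mem_insert, Finset.mem_singleton] at hy
    rcases hy with rfl | rfl | rfl | rfl | rfl <;> assumption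
  have h := Finset.sum_le_sum_of_subset_of_nonneg (f := fun y => n y ^ 2) hT (fun _ _ _ => sq_nonneg _)
  rw [hsum, Finset.sum_insert (by simp [h1, h2, h3, h4]), Finset.sum_insert (by simp [h5, h6, h7]),
    Finset.sum_insert (by simp [h8, h9]), Finset.sum_insert (by simp [h10]), Finset.sum_singleton] at h
  have p1 : 1 ≤ n o ^ 2 := by
    have := sq_pos_iff.2 no
    omega
  have p2 : 1 ≤ n a ^ 2 := by
    have := sq_pos_iff.2 na
    omega
  have p3 : 1 ≤ n c ^ 2 := by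
    have := sq_pos_iff.2 nc
    omega
  have p4 : 1 ≤ n d ^ 2 := by
    have := sq_pos_iff.2 nd
    omega
  have p5 : n x ^ 2 ≤ 0 := by linarith
  have p6 : n x ^ 2 = 0 := le_antisymm p5 (sq_nonneg _)
  exact (pow_eq_zero_iff two_ne_zero).1 p6

section Data

variable {G : Type*} [Group G] [Fintype G] {M : Ideal AlgInt} {P : Sylow 2 G} {σ τ : G} {k : ℕ}

namespace DihData

variable (D : DihData P σ τ k)
include D

open Classical in
/-- **The principal block.** -/
theorem principal_main (hM : IsPModular 2 M) {ω : ℂ} (hω : IsPrimitiveRoot ω (2 ^ k)) :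
    ∃ (a : IrrCharacter G) (b : Fin (2 ^ (k - 1) - 1) → IrrCharacter G) (c₂ c₃ : IrrCharacter G) (α γ₂ γ₃ : ℤ),
      (α = 1 ∨ α = -1) ∧ (γ₂ = 1 ∨ γ₂ = -1) ∧ (γ₃ = 1 ∨ γ₃ = -1) ∧
      (a ∈ principalBlock M G ∧ a ≠ oneIrr G) ∧ (∀ i, b i ∈ principalBlock M G ∧ b i ≠ oneIrr G) ∧
      (c₂ ∈ principalBlock M G ∧ c₂ ≠ oneIrr G) ∧ (c₃ ∈ principalBlock M G ∧ c₃ ≠ oneIrr G) ∧ Function.Injective b ∧
      (∀ i, b i ≠ a ∧ b i ≠ c₂ ∧ b i ≠ c₃) ∧ a ≠ c₂ ∧ a ≠ c₃ ∧ c₂ ≠ c₃ ∧
      (∀ χ ∈ principalBlock M G, χ = oneIrr G ∨ χ = a ∨ χ = c₂ ∨ χ = c₃ ∨ ∃ i, χ = b i) ∧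
      (∀ l, 0 < l → l < 2 ^ k → (a : G → ℂ) (σ ^ l) = -(α : ℂ) ∧ (c₂ : G → ℂ) (σ ^ l) = (γ₂ : ℂ) * (-1) ^ l ∧
        (c₃ : G → ℂ) (σ ^ l) = (γ₃ : ℂ) * (-1) ^ l ∧
        ∀ i, (b i : G → ℂ) (σ ^ l) = -(α : ℂ) * (ω ^ (((i : ℕ) + 1) * l) + (ω ^ (((i : ℕ) + 1) * l))⁻¹)) ∧
      (∀ ρ : G, ¬ 2 ∣ orderOf ρ → (∀ i, (α : ℂ) * ((a : G → ℂ) ρ - (b i : G → ℂ) ρ) = 1) ∧
          (α : ℂ) * (a : G → ℂ) ρ + (γ₂ : ℂ) * (c₂ : G → ℂ) ρ + (γ₃ : ℂ) * (c₃ : G → ℂ) ρ = 1) := by
  have := isPModular_isPrime hM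
  obtain ⟨a, b, c₂, c₃, α, γ₂, γ₃, hα, hγ₂, hγ₃, ha, hb, hc₂, hc₃, hinj, hbne, hac₂, hac₃, hc₂₃, hval, hrest, hrel⟩ :=
    D.principal_pattern hM hω
  have hmem : ∀ {y : IrrCharacter G}, y ∈ (Finset.univ.filter (· ∈ principalBlock M G)).erase (oneIrr G) →
      y ∈ principalBlock M G ∧ y ≠ oneIrr G := by
    intro y hy
    have h1 := Finset.mem_erase.1 hy
    exact ⟨(Finset.mem_filter.1 h1.2).2, h1.1⟩
  refine ⟨a, b, c₂, c₃, α, γ₂, γ₃, hα, hγ₂, hγ₃, hmem ha, fun i => hmem (hb i), hmem hc₂, hmem hc₃, hinj, hbne, hac₂, hac₃,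
    hc₂₃, ?_, hval, ?_⟩
  · intro χ hχ
    by_contra hcon
    push Not at hcon
    obtain ⟨h1, h2, h3, h4, h5⟩ := hcon
    have hχS : χ ∈ (Finset.univ.filter (· ∈ principalBlock M G)).erase (oneIrr G) :=
      Finset.mem_erase.2 ⟨h1, Finset.mem_filter.2 ⟨Finset.mem_univ _, hχ⟩⟩
    have hv0 := hrest χ hχS h2 h3 h4 h5
    have hJl : 0 < 2 ^ (k - 1) ∧ 2 ^ (k - 1) < 2 ^ k := by
      have e := D.two_pow_eq
      have hp : 0 < 2 ^ (k - 1) := by positivity
      constructor <;> omega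
    have hJeven : Even (2 ^ (k - 1)) := by
      have h2 : 2 ∣ 2 ^ (k - 1) := dvd_pow_self 2 (by have := D.two_le; omega)
      exact even_iff_two_dvd.2 h2
    have hrefl : ∀ m, ¬ IsConj (σ ^ m * τ) (σ ^ (2 ^ (k - 1))) → (χ : G → ℂ) (σ ^ m * τ) = 0 := by
      intro m hconj
      have ht2 := D.refl_sq m
      choose n hn hpar using (fun ζ : IrrCharacter G => char_parity ζ ht2)
      have hsum : ∑ y ∈ Finset.univ.filter (· ∈ principalBlock M G), n y ^ 2 = 4 := by
        have h6 := D.sum_self_refl hM hconj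
        rw [← Finset.sum_filter] at h6
        apply Int.cast_injective (α := ℂ)
        push_cast
        rw [← h6]
        refine Finset.sum_congr rfl fun y _ => ?_
        rw [hn y]
        simp
        ring
      have hodd : ∀ ζ : IrrCharacter G, (∃ s : ℤ, (s = 1 ∨ s = -1) ∧ (ζ : G → ℂ) (σ ^ (2 ^ (k - 1))) = s) → n ζ ≠ 0 := by
        rintro ζ ⟨s, hs, hJ⟩ h0
        obtain ⟨n', hn', hpar'⟩ := char_parity ζ D.J_sq
        have h6 : n' = s := by exact_mod_cast hn'.symm.trans hJ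
        have h7 := hpar ζ
        rw [h0] at h7
        rw [h6] at hpar'
        obtain ⟨r, hr⟩ := h7
        obtain ⟨r', hr'⟩ := hpar'
        rcases hs with rfl | rfl <;> omega
      have hS : ∀ {y : IrrCharacter G}, y ∈ (Finset.univ.filter (· ∈ principalBlock M G)).erase (oneIrr G) →
          y ∈ Finset.univ.filter (· ∈ principalBlock M G) := fun hy => Finset.mem_of_mem_erase hy
      have ho : oneIrr G ∈ Finset.univ.filter (· ∈ principalBlock M G) :=
        Finset.mem_filter.2 ⟨Finset.mem_univ _, mem_blockOf_self (oneIrr G)⟩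
      obtain ⟨v1, v2, v3, _⟩ := hval _ hJl.1 hJl.2
      have hnχ := four_squares_rest _ n hsum ho (hS ha) (hS hc₂) (hS hc₃) (hS hχS) (hmem ha).2.symm (hmem hc₂).2.symm
        (hmem hc₃).2.symm h1.symm hac₂ hac₃ h2.symm hc₂₃ h3.symm h4.symm
        (hodd _ ⟨1, Or.inl rfl, by simp [oneIrr_coe]⟩)
        (hodd _ ⟨-α, by rcases hα with rfl | rfl <;> simp, by rw [v1]; push_cast; rfl⟩)
        (hodd _ ⟨γ₂, hγ₂, by rw [v2, hJeven.neg_one_pow, mul_one]⟩)
        (hodd _ ⟨γ₃, hγ₃, by rw [v3, hJeven.neg_one_pow, mul_one]⟩)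
      rw [hn χ, hnχ]
      simp
    have hall : ∀ g : G, 2 ∣ orderOf g → (χ : G → ℂ) g = 0 := by
      intro g hg
      rcases D.section_reduce hM hg with ⟨l, h0, hl, he⟩ | ⟨m, hconj, he⟩
      · rw [he χ hχ, hv0 l h0 hl]
      · rw [he χ hχ, hrefl m hconj]
    have hdeg := pow_dvd_degree_of_vanish (p := 2) (IsIrrCharacter.isCharacter χ.2) hall
    have h6 := (not_dvd_card_div_iff Nat.prime_two (charDegree_dvd_card χ.2)).2 hdeg
    have h7 := blockOf_eq_singleton_of_not_dvd hM χ h6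
    have h8 : oneIrr G ∈ blockOf M (χ : G → ℂ) := sameBlock_symm hχ
    rw [h7] at h8
    exact h1 (Set.mem_singleton_iff.1 h8).symm
  · intro ρ hρ
    have h1 := hrel (fun χ => (χ : G → ℂ) ρ) (fun l h0 hl => by
      rw [Finset.sum_filter]
      exact D.orth_odd hM hρ h0 hl)
    simpa [oneIrr_coe] using h1

open Classical in
/-- The number of characters in the principal block. -/
theorem card_principal (hM : IsPModular 2 M) {ω : ℂ} (hω : IsPrimitiveRoot ω (2 ^ k)) :
    Nat.card (principalBlock M G) = 3 + 2 ^ (k - 1) := by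
  have := isPModular_isPrime hM
  obtain ⟨a, b, c₂, c₃, α, γ₂, γ₃, hα, hγ₂, hγ₃, ha, hb, hc₂, hc₃, hinj, hbne, hac₂, hac₃, hc₂₃, hall, hval, hrel⟩ :=
    D.principal_main hM hω
  have hS : Finset.univ.filter (· ∈ principalBlock M G) =
      insert (oneIrr G) (insert a (insert c₂ (insert c₃ (Finset.univ.image b)))) := by
    ext χ
    simp only [Finset.mem_filter, Finset.mem_univ, true_and, Finset.mem_insert, Finset.mem_image]
    constructor
    · intro h
      rcases hall χ h with h1 | h1 | h1 | h1 | ⟨i, h1⟩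
      · exact Or.inl h1
      · exact Or.inr (Or.inl h1)
      · exact Or.inr (Or.inr (Or.inl h1))
      · exact Or.inr (Or.inr (Or.inr (Or.inl h1)))
      · exact Or.inr (Or.inr (Or.inr (Or.inr ⟨i, h1.symm⟩)))
    · rintro (rfl | rfl | rfl | rfl | ⟨i, rfl⟩)
      · exact mem_blockOf_self (oneIrr G)
      · exact ha.1
      · exact hc₂.1
      · exact hc₃.1
      · exact (hb i).1
  have hc : Nat.card (principalBlock M G) = (Finset.univ.filter (· ∈ principalBlock M G)).card := by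
    have e : principalBlock M G = ((Finset.univ.filter (· ∈ principalBlock M G) : Finset (IrrCharacter G)) : Set (IrrCharacter G)) := by
      ext χ
      simp
    rw [Nat.card_coe_set_eq]
    conv_lhs => rw [e]
    rw [Set.ncard_coe_finset]
  rw [hc, hS, Finset.card_insert_of_notMem, Finset.card_insert_of_notMem, Finset.card_insert_of_notMem,
    Finset.card_insert_of_notMem, Finset.card_image_of_injective _ hinj, Finset.card_univ, Fintype.card_fin]
  · have hp : 0 < 2 ^ (k - 1) := by positivity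
    omega
  · simp only [Finset.mem_image, not_exists, Finset.mem_univ, true_and]
    exact fun i => (hbne i).2.2
  · simp only [Finset.mem_insert, Finset.mem_image, not_or, not_exists, Finset.mem_univ, true_and]
    exact ⟨hc₂₃, fun i => (hbne i).2.1⟩
  · simp only [Finset.mem_insert, Finset.mem_image, not_or, not_exists, Finset.mem_univ, true_and]
    exact ⟨hac₂, hac₃, fun i => (hbne i).1⟩
  · simp only [Finset.mem_insert, Finset.mem_image, not_or, not_exists, Finset.mem_univ, true_and]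
    exact ⟨ha.2.symm, hc₂.2.symm, hc₃.2.symm, fun i => (hb i).2⟩

end DihData

/-- Dihedral data from an isomorphism with the dihedral group. -/
theorem dihData_of_iso {n : ℕ} (hn : 3 ≤ n) (P : Sylow 2 G) (hP : Nonempty ((P : Subgroup G) ≃* DihedralGroup (2 ^ (n - 1))))
    {σ : G} (hσ : σ ∈ (P : Subgroup G)) (hσo : orderOf σ = 2 ^ (n - 1)) : ∃ τ : G, DihData P σ τ (n - 1) := by
  classical
  obtain ⟨φ⟩ := hP
  set N := 2 ^ (n - 1) with hN
  have hN4 : 4 ≤ N := by
    calc 4 = 2 ^ 2 := by norm_num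
      _ ≤ 2 ^ (n - 1) := Nat.pow_le_pow_right (by norm_num) (by omega)
  haveI : NeZero N := ⟨by omega⟩
  let s : (P : Subgroup G) := ⟨σ, hσ⟩
  have hso : orderOf (φ s) = N := by
    rw [MulEquiv.orderOf_eq, Subgroup.orderOf_mk, hσo]
  -- `φ s` is a rotation
  obtain ⟨i, hi⟩ : ∃ i : ZMod N, φ s = DihedralGroup.r i := by
    cases h : φ s with
    | r i => exact ⟨i, rfl⟩
    | sr i =>
      rw [h, DihedralGroup.orderOf_sr] at hso
      omega
  have hgcd : Nat.Coprime i.val N := by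
    have h1 := hso
    rw [hi, DihedralGroup.orderOf_r] at h1
    have h2 := (Nat.div_eq_self.1 h1).resolve_left (by omega)
    exact Nat.coprime_comm.1 h2
  have hunit : i * i⁻¹ = 1 := by
    have h1 := ZMod.coe_mul_inv_eq_one (n := N) i.val hgcd
    rwa [ZMod.natCast_zmod_val] at h1
  have hpow : ∀ e : ℕ, φ s ^ e = DihedralGroup.r ((e : ZMod N) * i) := by
    intro e
    rw [hi, DihedralGroup.r_pow]
    congr 1
    ring
  let t : (P : Subgroup G) := φ.symm (DihedralGroup.sr 0)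
  have hφt : φ t = DihedralGroup.sr 0 := φ.apply_symm_apply _
  have hφinj : Function.Injective φ := φ.injective
  have ht2 : t * t = 1 := by
    apply hφinj
    rw [map_mul, hφt, map_one, DihedralGroup.sr_mul_sr, sub_self]
    rfl
  refine ⟨(t : G), ?_⟩
  have htinv : t⁻¹ = t := inv_eq_of_mul_eq_one_left ht2
  refine ⟨by omega, hσ, t.2, hσo, congrArg Subtype.val ht2, ?_, ?_, ?_⟩
  · have h1 : t * s * t⁻¹ = s⁻¹ := by
      apply hφinj
      rw [htinv, map_mul, map_mul, map_inv, hφt, hi, DihedralGroup.sr_mul_r, DihedralGroup.sr_mul_sr]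
      rw [DihedralGroup.inv_r]
      congr 1
      ring
    exact congrArg Subtype.val h1
  · have h1 := Nat.card_congr φ.toEquiv
    rw [DihedralGroup.nat_card] at h1
    rw [h1, hN, pow_succ]
    ring
  · intro u hu
    let u' : (P : Subgroup G) := ⟨u, hu⟩
    have key : ∀ j : ZMod N, ∃ e : ℕ, φ s ^ e = DihedralGroup.r j := by
      intro j
      refine ⟨(j * i⁻¹).val, ?_⟩
      rw [hpow, ZMod.natCast_zmod_val, mul_assoc, mul_comm i⁻¹ i, hunit, mul_one]
    cases h : φ u' with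
    | r j =>
      left
      obtain ⟨e, he⟩ := key j
      refine ⟨e, ?_⟩
      have h1 : u' = s ^ e := by
        apply hφinj
        rw [map_pow, h, he]
      exact congrArg Subtype.val h1
    | sr j =>
      right
      obtain ⟨e, he⟩ := key (-j)
      refine ⟨e, ?_⟩
      have h1 : u' = s ^ e * t := by
        apply hφinj
        rw [map_mul, map_pow, h, he, hφt, DihedralGroup.r_mul_sr]
        congr 1
        ring
      exact congrArg Subtype.val h1

end Data

end Cfsg.Agent.Lib.FF
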