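import Mathlib
import Cfsg.Agent.Lib.FF.DihMain
import Cfsg.Agent.Lib.FF.KleinCount

/-!
# Counting products of involutions in a group with dihedral Sylow 2-subgroups
-/

set_option autoImplicit false
set_option linter.unusedSectionVars false
set_option linter.unusedSimpArgs false
set_option linter.unusedVariables false

open scoped ComplexConjugate
open Cfsg MonoidAlgebra Cfsg.Agent.Lib.Char Cfsg.Agent.Lib.Block

namespace Cfsg.Agent.Lib.FF

section Retraction

variable {X : Type*} [Group X] [Finite X]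

/-- The retraction onto a Sylow subgroup with odd normal kernel. -/
theorem exists_retraction_of_odd_normal (S : Sylow 2 X) (K : Subgroup X) (hKn : K.Normal) (hK : ¬ 2 ∣ Nat.card K)
    (hidx : ∃ l, K.index = 2 ^ l) :
    ∃ π : X →* (S : Subgroup X), (∀ s : (S : Subgroup X), π s = s) ∧ ∀ x, π x = 1 ↔ x ∈ K := by
  haveI := hKn
  obtain ⟨l, hl⟩ := hidx
  let φ : (S : Subgroup X) →* X ⧸ K := (QuotientGroup.mk' K).comp (S : Subgroup X).subtype
  have hinj : Function.Injective φ := by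
    rw [injective_iff_map_eq_one]
    intro s hs
    have h1 : (s : X) ∈ K := (QuotientGroup.eq_one_iff _).1 hs
    have h2 : orderOf (⟨s, h1⟩ : K) ∣ Nat.card K := orderOf_dvd_natCard _
    rw [Subgroup.orderOf_mk] at h2
    obtain ⟨r, hr⟩ := (IsPGroup.iff_orderOf.1 S.isPGroup') s
    rw [Subgroup.orderOf_coe] at h2
    rcases Nat.eq_zero_or_pos r with rfl | h0
    · rw [pow_zero] at hr
      exact orderOf_eq_one_iff.1 hr
    · exfalso
      apply hK
      rw [hr] at h2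
      exact (dvd_pow_self 2 h0.ne').trans h2
  have hcard : Nat.card (S : Subgroup X) = Nat.card (X ⧸ K) := by
    have h1 : Nat.card (X ⧸ K) = 2 ^ l := hl
    have h2 : Nat.card X = Nat.card K * 2 ^ l := by
      rw [← hl]
      exact (Subgroup.card_mul_index K).symm
    have hK0 : Nat.card K ≠ 0 := Nat.card_pos.ne'
    rw [Sylow.card_eq_multiplicity S, h1, h2, Nat.factorization_mul hK0 (by positivity), Finsupp.add_apply,
      Nat.factorization_eq_zero_of_not_dvd hK, Nat.factorization_pow, Finsupp.smul_apply, Nat.prime_two.factorization]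
    simp
  have hbij := (Nat.bijective_iff_injective_and_card φ).2 ⟨hinj, hcard⟩
  let e := MulEquiv.ofBijective φ hbij
  refine ⟨e.symm.toMonoidHom.comp (QuotientGroup.mk' K), fun s => ?_, fun x => ?_⟩
  · exact e.symm_apply_apply s
  · change e.symm (x : X ⧸ K) = 1 ↔ _
    rw [map_eq_one_iff _ e.symm.injective]
    exact QuotientGroup.eq_one_iff _

end Retraction

section Cyc

variable {G : Type*} [Group G] [Fintype G]

theorem eq_of_sq_mem_zpowers {g z z' : G} (hz : z ∈ Subgroup.zpowers g) (hz' : z' ∈ Subgroup.zpowers g)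
    (h1 : z * z = 1) (h2 : z' * z' = 1) (h3 : z ≠ 1) (h4 : z' ≠ 1) : z = z' := by
  have key : ∀ w : G, w ∈ Subgroup.zpowers g → w * w = 1 → w ≠ 1 → ∃ a, 2 * a = orderOf g ∧ w = g ^ a := by
    intro w hw hw1 hw2
    obtain ⟨a, ha⟩ := (mem_powers_iff_mem_zpowers).2 hw
    have hpos := orderOf_pos g
    refine ⟨a % orderOf g, ?_, ?_⟩
    · have h5 : g ^ (a % orderOf g) = w := by rw [pow_mod_orderOf]; exact ha
      have h6 : a % orderOf g ≠ 0 := by
        intro h0
        rw [h0, pow_zero] at h5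
        exact hw2 h5.symm
      have h7 : a % orderOf g < orderOf g := Nat.mod_lt _ hpos
      have h8 : orderOf g ∣ 2 * (a % orderOf g) := by
        apply orderOf_dvd_of_pow_eq_one
        rw [two_mul, pow_add, h5, hw1]
      exact (dvd_iff_eq_of_lt (by omega) (by omega)).1 h8
    · rw [pow_mod_orderOf]
      exact ha.symm
  obtain ⟨a, ha, rfl⟩ := key z hz h1 h3
  obtain ⟨b, hb, rfl⟩ := key z' hz' h2 h4
  have : a = b := by omega
  rw [this]

theorem exists_invol_of_two_dvd {g : G} (hg : 2 ∣ orderOf g) : ∃ z ∈ Subgroup.zpowers g, z * z = 1 ∧ z ≠ 1 := by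
  obtain ⟨h, hh⟩ := hg
  have hpos := orderOf_pos g
  refine ⟨g ^ h, Subgroup.npow_mem_zpowers g h, ?_, ?_⟩
  · rw [← pow_add, show h + h = orderOf g by omega, pow_orderOf_eq_one]
  · exact pow_ne_one_of_lt_orderOf (by omega) (by omega)

theorem two_dvd_of_invol_mem {g z : G} (hz : z ∈ Subgroup.zpowers g) (h1 : z * z = 1) (h2 : z ≠ 1) : 2 ∣ orderOf g := by
  have h3 : orderOf z = 2 := orderOf_eq_prime (by rw [pow_two, h1]) h2
  rw [← h3]
  exact orderOf_dvd_of_mem_zpowers hz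

theorem mem_zpowers_conj_iff (a g c : G) : c * a * c⁻¹ ∈ Subgroup.zpowers (c * g * c⁻¹) ↔ a ∈ Subgroup.zpowers g := by
  simp only [Subgroup.mem_zpowers_iff, conj_zpow]
  constructor
  · rintro ⟨m, hm⟩
    exact ⟨m, by simpa using hm⟩
  · rintro ⟨m, hm⟩
    exact ⟨m, by rw [hm]⟩

theorem eq_one_of_sq_of_odd {x : G} (h1 : x * x = 1) (h2 : ¬ 2 ∣ orderOf x) : x = 1 := by
  by_contra h
  exact h2 (two_dvd_of_invol_mem (Subgroup.mem_zpowers x) h1 h)

end Cyc

section Data

variable {G : Type*} [Group G] [Fintype G] {P : Sylow 2 G} {σ τ : G} {k : ℕ}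

/-- A retraction of the centralizer of `J` onto the Sylow subgroup, as a function on `G`. -/
structure IsPr (P : Sylow 2 G) (J : G) (pr : G → G) : Prop where
  mul : ∀ g ∈ Subgroup.centralizer ({J} : Set G), ∀ h ∈ Subgroup.centralizer ({J} : Set G), pr (g * h) = pr g * pr h
  mem : ∀ g ∈ Subgroup.centralizer ({J} : Set G), pr g ∈ (P : Subgroup G)
  fix : ∀ s ∈ (P : Subgroup G), pr s = s
  ker : ∀ g ∈ Subgroup.centralizer ({J} : Set G), pr g = 1 ↔ ¬ 2 ∣ orderOf g

namespace DihData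

variable (D : DihData P σ τ k)
include D

theorem exists_pr : ∃ pr : G → G, IsPr P (σ ^ (2 ^ (k - 1))) pr := by
  classical
  set J := σ ^ (2 ^ (k - 1)) with hJdef
  set X := Subgroup.centralizer ({J} : Set G) with hX
  have hPH : (P : Subgroup G) ≤ X := by
    intro u hu
    rw [hX, mem_centralizer_singleton]
    exact D.J_comm hu
  obtain ⟨_, K, hKn, hK, hidx⟩ := D.exists_complement_J
  obtain ⟨π, hπ, hπk⟩ := exists_retraction_of_odd_normal (P.subtype hPH) K hKn hK hidx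
  refine ⟨fun g => if h : g ∈ X then ((π ⟨g, h⟩ : (P.subtype hPH : Subgroup X)) : X) else 1, ?_, ?_, ?_, ?_⟩
  · intro g hg h hh
    have hg : g ∈ X := hg
    have hh : h ∈ X := hh
    rw [dif_pos hg, dif_pos hh, dif_pos (mul_mem hg hh)]
    have e : (⟨g * h, mul_mem hg hh⟩ : X) = ⟨g, hg⟩ * ⟨h, hh⟩ := rfl
    rw [e, map_mul]
    rfl
  · intro g hg
    have hg : g ∈ X := hg
    rw [dif_pos hg]
    exact (π ⟨g, hg⟩).2
  · intro s hs
    rw [dif_pos (hPH hs)]
    have h1 : (⟨s, hPH hs⟩ : X) ∈ (P.subtype hPH : Subgroup X) := by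
      rw [Sylow.coe_subtype, Subgroup.mem_subgroupOf]
      exact hs
    have h2 := hπ ⟨⟨s, hPH hs⟩, h1⟩
    have h3 := congrArg (fun w : (P.subtype hPH : Subgroup X) => ((w : X) : G)) h2
    exact h3
  · intro g hg
    have hg : g ∈ X := hg
    rw [dif_pos hg]
    haveI : Fintype X := Fintype.ofFinite _
    haveI : Fintype K := Fintype.ofFinite _
    constructor
    · intro h
      have h1 : π ⟨g, hg⟩ = 1 := by
        apply Subtype.ext
        apply Subtype.ext
        exact h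
      have h2 := (hπk _).1 h1
      intro hd
      have h3 : orderOf (⟨⟨g, hg⟩, h2⟩ : K) ∣ Nat.card K := orderOf_dvd_natCard _
      rw [Subgroup.orderOf_mk, Subgroup.orderOf_mk] at h3
      exact hK (hd.trans h3)
    · intro h
      have h1 : (⟨g, hg⟩ : X) ∈ K := mem_of_regular_of_index K hidx (by rwa [Subgroup.orderOf_mk])
      rw [(hπk _).2 h1]
      rfl

end DihData

namespace DihData

variable (D : DihData P σ τ k) {pr : G → G} (hpr : IsPr P (σ ^ (2 ^ (k - 1))) pr)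
include D hpr

theorem J_mem_C : σ ^ (2 ^ (k - 1)) ∈ Subgroup.centralizer ({σ ^ (2 ^ (k - 1))} : Set G) :=
  mem_centralizer_singleton.2 rfl

theorem P_le_C : (P : Subgroup G) ≤ Subgroup.centralizer ({σ ^ (2 ^ (k - 1))} : Set G) := by
  intro u hu
  rw [mem_centralizer_singleton]
  exact D.J_comm hu

theorem pr_one : pr 1 = 1 := hpr.fix 1 (one_mem _)

theorem pr_inv {g : G} (hg : g ∈ Subgroup.centralizer ({σ ^ (2 ^ (k - 1))} : Set G)) : pr g⁻¹ = (pr g)⁻¹ := by
  apply eq_inv_of_mul_eq_one_left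
  rw [← hpr.mul _ (inv_mem hg) _ hg, inv_mul_cancel, D.pr_one hpr]

theorem pr_pow {g : G} (hg : g ∈ Subgroup.centralizer ({σ ^ (2 ^ (k - 1))} : Set G)) (n : ℕ) : pr (g ^ n) = (pr g) ^ n := by
  induction n with
  | zero => simpa using D.pr_one hpr
  | succ n ih => rw [pow_succ, hpr.mul _ (_root_.pow_mem hg n) _ hg, ih, pow_succ]

theorem eq_J_of_pr {z : G} (hz : z ∈ Subgroup.centralizer ({σ ^ (2 ^ (k - 1))} : Set G)) (h2 : z * z = 1)
    (hp : pr z = σ ^ (2 ^ (k - 1))) : z = σ ^ (2 ^ (k - 1)) := by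
  set J := σ ^ (2 ^ (k - 1)) with hJ
  have hJ2 : J * J = 1 := D.J_sq
  have hJC : J ∈ Subgroup.centralizer ({J} : Set G) := mem_centralizer_singleton.2 rfl
  have h1 : pr (z * J) = 1 := by
    rw [hpr.mul z hz J hJC, hp, hpr.fix J (D.pow_mem _), hJ2]
  have h3 : ¬ 2 ∣ orderOf (z * J) := (hpr.ker _ (mul_mem hz hJC)).1 h1
  have hzJ : z * J = J * z := mem_centralizer_singleton.1 hz
  have h4 : (z * J) * (z * J) = 1 := by
    calc z * J * (z * J) = z * (J * z) * J := by group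
      _ = z * (z * J) * J := by rw [hzJ]
      _ = (z * z) * (J * J) := by group
      _ = 1 := by rw [h2, hJ2, one_mul]
  have h5 : z * J = 1 := eq_one_of_sq_of_odd h4 h3
  calc z = z * J * J := by rw [mul_assoc, hJ2, mul_one]
    _ = J := by rw [h5, one_mul]

theorem pr_refl {u : G} (hu : u ∈ Subgroup.centralizer ({σ ^ (2 ^ (k - 1))} : Set G)) (h2 : u * u = 1) (h1 : u ≠ 1)
    (hJ : u ≠ σ ^ (2 ^ (k - 1))) : ∃ m : ℕ, pr u = σ ^ m * τ := by
  rcases D.mem _ (hpr.mem u hu) with ⟨i, hi⟩ | hm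
  · exfalso
    have h3 : σ ^ i * σ ^ i = 1 := by
      rw [← hi, ← hpr.mul u hu u hu, h2, D.pr_one hpr]
    rcases D.eq_one_or_J h3 with h | h
    · exact h1 (eq_one_of_sq_of_odd h2 ((hpr.ker u hu).1 (hi.trans h)))
    · exact hJ (D.eq_J_of_pr hpr hu h2 (hi.trans h))
  · exact hm

theorem pr_mul_rot {u v : G} (hu : u ∈ Subgroup.centralizer ({σ ^ (2 ^ (k - 1))} : Set G))
    (hv : v ∈ Subgroup.centralizer ({σ ^ (2 ^ (k - 1))} : Set G)) {a b : ℕ} (hmu : pr u = σ ^ a * τ) (hmv : pr v = σ ^ b * τ) :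
    ∃ l : ℕ, pr (u * v) = σ ^ l := by
  rw [hpr.mul u hu v hv, hmu, hmv]
  have hx : σ ^ a * τ * (σ ^ b * τ) = σ ^ a * (σ ^ b)⁻¹ := by
    calc σ ^ a * τ * (σ ^ b * τ) = σ ^ a * (τ * σ ^ b) * τ := by group
      _ = σ ^ a * ((σ ^ b)⁻¹ * τ) * τ := by rw [D.τ_mul_pow]
      _ = σ ^ a * (σ ^ b)⁻¹ * (τ * τ) := by group
      _ = σ ^ a * (σ ^ b)⁻¹ := by rw [D.τ2, mul_one]
  rcases D.mem _ (mul_mem (D.refl_mem a) (D.refl_mem b)) with h | ⟨m, hm⟩
  · exact h
  · exfalso
    apply D.refl_notMem m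
    rw [← hm, hx]
    exact mul_mem (Subgroup.npow_mem_zpowers σ a) (inv_mem (Subgroup.npow_mem_zpowers σ b))

/-- A function with section constancy is determined by the image under the retraction. -/
theorem f_of_pr (f : G → ℂ) (hf : ∀ g c, f (c * g * c⁻¹) = f g) (hf0 : ∀ g, ¬ 2 ∣ orderOf g → f g = 0)
    (hf1 : ∀ l y, σ ^ l ≠ 1 → y * σ ^ l = σ ^ l * y → ¬ 2 ∣ orderOf y → f (σ ^ l * y) = f (σ ^ l)) {g : G}
    (hg : g ∈ Subgroup.centralizer ({σ ^ (2 ^ (k - 1))} : Set G)) {l : ℕ} (hl : pr g = σ ^ l) : f g = f (σ ^ l) := by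
  obtain ⟨u, y, huy, hc, hu, hy, hu_z, hy_z⟩ := exists_jordan (p := 2) g
  have huC := (Subgroup.zpowers_le.2 hg) hu_z
  have hyC := (Subgroup.zpowers_le.2 hg) hy_z
  have hpy : pr y = 1 := (hpr.ker y hyC).2 hy
  have hpu : pr u = σ ^ l := by
    rw [← hl, ← huy, hpr.mul u huC y hyC, hpy, mul_one]
  by_cases hs : σ ^ l = 1
  · have h1 : pr u = 1 := hpu.trans hs
    have h2 := (hpr.ker u huC).1 h1
    obtain ⟨r, hr⟩ := hu
    have hu1 : u = 1 := by
      rcases Nat.eq_zero_or_pos r with rfl | h0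
      · rw [pow_zero] at hr
        exact orderOf_eq_one_iff.1 hr
      · exfalso
        apply h2
        rw [hr]
        exact dvd_pow_self 2 h0.ne'
    rw [hu1, one_mul] at huy
    rw [hs, ← huy, hf0 y hy, hf0 1 (by simp)]
  · have hPC := D.P_le_C hpr
    have hd : ∃ c ∈ Subgroup.centralizer ({σ ^ (2 ^ (k - 1))} : Set G), c * u * c⁻¹ ∈ (P : Subgroup G) := by
      have hord : ∃ r, orderOf (⟨u, huC⟩ : Subgroup.centralizer ({σ ^ (2 ^ (k - 1))} : Set G)) = 2 ^ r := by
        rw [Subgroup.orderOf_mk]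
        exact hu
      obtain ⟨c, hc'⟩ := exists_conj_elt_into_sylow (P.subtype hPC) hord
      exact ⟨c, c.2, hc'⟩
    obtain ⟨c, hcC, hcP⟩ := hd
    have e1 : pr (c * u * c⁻¹) = pr c * σ ^ l * (pr c)⁻¹ := by
      rw [hpr.mul _ (mul_mem hcC huC) _ (inv_mem hcC), hpr.mul c hcC u huC, hpu, D.pr_inv hpr hcC]
    rw [hpr.fix _ hcP] at e1
    have h3 : ∃ d : G, d * u * d⁻¹ = σ ^ l := by
      rcases D.mem _ (hpr.mem c hcC) with ⟨i, hi⟩ | ⟨i, hi⟩
      · refine ⟨c, ?_⟩
        rw [e1, hi, ((Commute.refl σ).pow_pow i l).eq]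
        group
      · refine ⟨τ⁻¹ * c, ?_⟩
        rw [hi, D.refl_conj] at e1
        have e2 : (τ⁻¹ * c) * u * (τ⁻¹ * c)⁻¹ = τ⁻¹ * (c * u * c⁻¹) * τ := by group
        rw [e2, e1, ← D.conj_pow_τ l]
        group
    obtain ⟨d, hd⟩ := h3
    have e3 : d * g * d⁻¹ = σ ^ l * (d * y * d⁻¹) := by
      rw [← hd, ← huy]
      group
    rw [← hf g d, e3]
    apply hf1 l _ hs
    · rw [← hd]
      calc d * y * d⁻¹ * (d * u * d⁻¹) = d * (y * u) * d⁻¹ := by group
        _ = d * (u * y) * d⁻¹ := by rw [hc.eq]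
        _ = d * u * d⁻¹ * (d * y * d⁻¹) := by group
    · rw [orderOf_conj]
      exact hy

theorem hkey2 {u v : G} (hu : u ∈ Subgroup.centralizer ({σ ^ (2 ^ (k - 1))} : Set G)) (hu2 : u * u = 1) (hu1 : u ≠ 1)
    (huJ : u ≠ σ ^ (2 ^ (k - 1))) (hv : v ∈ Subgroup.centralizer ({σ ^ (2 ^ (k - 1))} : Set G)) (hv2 : v * v = 1) (hv1 : v ≠ 1)
    (hvJ : v ≠ σ ^ (2 ^ (k - 1))) (hd : 2 ∣ orderOf (u * v)) : σ ^ (2 ^ (k - 1)) ∈ Subgroup.zpowers (u * v) := by
  obtain ⟨a, ha⟩ := D.pr_refl hpr hu hu2 hu1 huJ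
  obtain ⟨b, hb⟩ := D.pr_refl hpr hv hv2 hv1 hvJ
  obtain ⟨l, hl⟩ := D.pr_mul_rot hpr hu hv ha hb
  obtain ⟨z, hz, hz2, hz1⟩ := exists_invol_of_two_dvd hd
  have hgC := mul_mem hu hv
  have hzC := (Subgroup.zpowers_le.2 hgC) hz
  obtain ⟨e, he⟩ := (mem_powers_iff_mem_zpowers).2 hz
  have h1 : pr z = σ ^ (l * e) := by
    rw [← he, D.pr_pow hpr hgC, hl, pow_mul]
  have h2 : σ ^ (l * e) * σ ^ (l * e) = 1 := by
    rw [← h1, ← hpr.mul z hzC z hzC, hz2, D.pr_one hpr]
  rcases D.eq_one_or_J h2 with h3 | h3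
  · exfalso
    exact hz1 (eq_one_of_sq_of_odd hz2 ((hpr.ker z hzC).1 (h1.trans h3)))
  · have h4 := D.eq_J_of_pr hpr hzC hz2 (h1.trans h3)
    rw [← h4]
    exact hz

end DihData

section Partition

open Classical in
/-- Partition of the double sum according to the involution in the cyclic group generated by the product. -/
theorem sum_partition_conj {J : G} (hJ2 : J * J = 1) (hJ1 : J ≠ 1) (hall : ∀ x : G, x * x = 1 → x ≠ 1 → IsConj J x)
    (f : G → ℂ) (hf : ∀ g c, f (c * g * c⁻¹) = f g) (hf0 : ∀ g, ¬ 2 ∣ orderOf g → f g = 0) :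
    ∑ u ∈ Finset.univ.filter (fun u => IsConj J u), ∑ v ∈ Finset.univ.filter (fun v => IsConj J v), f (u * v) =
      ((Finset.univ.filter (fun u => IsConj J u)).card : ℂ) *
      ∑ u ∈ Finset.univ.filter (fun u => IsConj J u), ∑ v ∈ Finset.univ.filter (fun v => IsConj J v),
        (if J ∈ Subgroup.zpowers (u * v) then f (u * v) else 0) := by
  set K := Finset.univ.filter (fun u => IsConj J u) with hK
  have hKmem : ∀ z, z ∈ K ↔ IsConj J z := by
    intro z
    simp [hK]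
  have hKinv : ∀ z ∈ K, z * z = 1 ∧ z ≠ 1 := by
    intro z hz
    obtain ⟨c, hc⟩ := isConj_iff.1 ((hKmem z).1 hz)
    rw [← hc]
    constructor
    · have e : (c * J * c⁻¹) * (c * J * c⁻¹) = c * (J * J) * c⁻¹ := by group
      rw [e, hJ2]
      group
    · intro h
      apply hJ1
      have e : J = c⁻¹ * (c * J * c⁻¹) * c := by group
      rw [e, h]
      group
  have hpart : ∀ g : G, ∑ z ∈ K, (if z ∈ Subgroup.zpowers g then f g else 0) = f g := by
    intro g
    by_cases hg : 2 ∣ orderOf g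
    · obtain ⟨z₀, h1, h2, h3⟩ := exists_invol_of_two_dvd hg
      have hz₀K : z₀ ∈ K := (hKmem z₀).2 (hall z₀ h2 h3)
      rw [Finset.sum_eq_single z₀]
      · rw [if_pos h1]
      · intro z hz hne
        rw [if_neg]
        intro hzg
        exact hne (eq_of_sq_mem_zpowers hzg h1 (hKinv z hz).1 h2 (hKinv z hz).2 h3)
      · intro h
        exact absurd hz₀K h
    · rw [hf0 g hg]
      simp
  have hconj : ∀ z ∈ K, ∑ u ∈ K, ∑ v ∈ K, (if z ∈ Subgroup.zpowers (u * v) then f (u * v) else 0) =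
      ∑ u ∈ K, ∑ v ∈ K, (if J ∈ Subgroup.zpowers (u * v) then f (u * v) else 0) := by
    intro z hz
    obtain ⟨c, hc⟩ := isConj_iff.1 ((hKmem z).1 hz)
    have hconjK : ∀ x, x ∈ K ↔ (MulAut.conj c).toEquiv x ∈ K := by
      intro x
      rw [hKmem, hKmem]
      constructor
      · intro h
        exact h.trans (isConj_iff.2 ⟨c, rfl⟩)
      · intro h
        exact h.trans (isConj_iff.2 ⟨c, rfl⟩).symm
    symm
    apply Finset.sum_equiv (MulAut.conj c).toEquiv hconjK
    intro u _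
    apply Finset.sum_equiv (MulAut.conj c).toEquiv hconjK
    intro v _
    have e1 : (MulAut.conj c).toEquiv u * (MulAut.conj c).toEquiv v = c * (u * v) * c⁻¹ := by
      simp only [MulEquiv.toEquiv_eq_coe, MulEquiv.coe_toEquiv, MulAut.conj_apply]
      group
    rw [e1, ← hc, hf]
    by_cases h : J ∈ Subgroup.zpowers (u * v)
    · rw [if_pos h, if_pos ((mem_zpowers_conj_iff _ _ _).2 h)]
    · rw [if_neg h, if_neg (fun h' => h ((mem_zpowers_conj_iff _ _ _).1 h'))]
  calc ∑ u ∈ K, ∑ v ∈ K, f (u * v)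
      = ∑ u ∈ K, ∑ v ∈ K, ∑ z ∈ K, (if z ∈ Subgroup.zpowers (u * v) then f (u * v) else 0) := by
        simp only [hpart]
    _ = ∑ z ∈ K, ∑ u ∈ K, ∑ v ∈ K, (if z ∈ Subgroup.zpowers (u * v) then f (u * v) else 0) := by
        refine (Finset.sum_congr rfl fun u _ => Finset.sum_comm).trans ?_
        exact Finset.sum_comm
    _ = _ := by
        rw [Finset.sum_congr rfl hconj, Finset.sum_const, nsmul_eq_mul]

end Partition

namespace DihData

variable (D : DihData P σ τ k) {pr : G → G} (hpr : IsPr P (σ ^ (2 ^ (k - 1))) pr)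
include D hpr

open Classical in
/-- The fibre over `J`. -/
theorem sum_fiber_eq (hall : ∀ x : G, x * x = 1 → x ≠ 1 → IsConj (σ ^ (2 ^ (k - 1))) x)
    (f : G → ℂ) (hf0 : ∀ g, ¬ 2 ∣ orderOf g → f g = 0) :
    ∑ u ∈ Finset.univ.filter (fun u => IsConj (σ ^ (2 ^ (k - 1))) u),
      ∑ v ∈ Finset.univ.filter (fun v => IsConj (σ ^ (2 ^ (k - 1))) v),
        (if σ ^ (2 ^ (k - 1)) ∈ Subgroup.zpowers (u * v) then f (u * v) else 0) =
    ∑ u ∈ (Finset.univ.filter (fun u => IsConj (σ ^ (2 ^ (k - 1))) u)).filter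
        (fun u => u ∈ Subgroup.centralizer ({σ ^ (2 ^ (k - 1))} : Set G) ∧ u ≠ σ ^ (2 ^ (k - 1))),
      ∑ v ∈ (Finset.univ.filter (fun u => IsConj (σ ^ (2 ^ (k - 1))) u)).filter
        (fun u => u ∈ Subgroup.centralizer ({σ ^ (2 ^ (k - 1))} : Set G) ∧ u ≠ σ ^ (2 ^ (k - 1))), f (u * v) := by
  set J := σ ^ (2 ^ (k - 1)) with hJdef
  set K := Finset.univ.filter (fun u => IsConj J u) with hK
  have hJ2 : J * J = 1 := D.J_sq
  have hJ1 : J ≠ 1 := D.J_ne
  have hJi : J⁻¹ = J := inv_eq_of_mul_eq_one_left hJ2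
  have hKmem : ∀ z, z ∈ K ↔ IsConj J z := by
    intro z
    simp [hK]
  have hKinv : ∀ z ∈ K, z * z = 1 ∧ z ≠ 1 := by
    intro z hz
    obtain ⟨c, hc⟩ := isConj_iff.1 ((hKmem z).1 hz)
    rw [← hc]
    constructor
    · have e : (c * J * c⁻¹) * (c * J * c⁻¹) = c * (J * J) * c⁻¹ := by group
      rw [e, hJ2]
      group
    · intro h
      apply hJ1
      have e : J = c⁻¹ * (c * J * c⁻¹) * c := by group
      rw [e, h]
      group
  set p : G → Prop := fun u => u ∈ Subgroup.centralizer ({J} : Set G) ∧ u ≠ J with hp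
  have hkey1 : ∀ u ∈ K, ∀ v ∈ K, J ∈ Subgroup.zpowers (u * v) → p u ∧ p v := by
    intro u hu v hv hJ
    obtain ⟨hu2, hu1⟩ := hKinv u hu
    obtain ⟨hv2, hv1⟩ := hKinv v hv
    have hui : u⁻¹ = u := inv_eq_of_mul_eq_one_left hu2
    have hvi : v⁻¹ = v := inv_eq_of_mul_eq_one_left hv2
    have hginv : (u * v)⁻¹ = v * u := by rw [mul_inv_rev, hui, hvi]
    have e1 : u * (u * v) * u⁻¹ = (u * v)⁻¹ := by
      rw [hginv, hui, ← mul_assoc, hu2, one_mul]
    have e2 : v * (u * v) * v⁻¹ = (u * v)⁻¹ := by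
      rw [hginv, hvi, mul_assoc, mul_assoc, hv2, mul_one]
    have h1 := conj_inv_of_mem_zpowers e1 hJ
    have h2 := conj_inv_of_mem_zpowers e2 hJ
    rw [hJi] at h1 h2
    have huC : u * J = J * u := by
      calc u * J = (u * J * u⁻¹) * u := by group
        _ = J * u := by rw [h1]
    have hvC : v * J = J * v := by
      calc v * J = (v * J * v⁻¹) * v := by group
        _ = J * v := by rw [h2]
    have hg1 : u * v ≠ 1 := by
      intro h
      rw [h] at hJ
      exact hJ1 (Subgroup.mem_bot.1 (by simpa using hJ))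
    refine ⟨⟨mem_centralizer_singleton.2 huC, ?_⟩, ⟨mem_centralizer_singleton.2 hvC, ?_⟩⟩
    · intro huJ
      have hg2 : (u * v) * (u * v) = 1 := by
        rw [huJ]
        calc J * v * (J * v) = J * (v * J) * v := by group
          _ = J * (J * v) * v := by rw [hvC]
          _ = (J * J) * (v * v) := by group
          _ = 1 := by rw [hJ2, hv2, one_mul]
      have h3 := eq_of_sq_mem_zpowers hJ (Subgroup.mem_zpowers _) hJ2 hg2 hJ1 hg1
      rw [huJ] at h3
      exact hv1 (by simpa using h3.symm)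
    · intro hvJ
      have hg2 : (u * v) * (u * v) = 1 := by
        rw [hvJ]
        calc u * J * (u * J) = u * (J * u) * J := by group
          _ = u * (u * J) * J := by rw [huC]
          _ = (u * u) * (J * J) := by group
          _ = 1 := by rw [hu2, hJ2, one_mul]
      have h3 := eq_of_sq_mem_zpowers hJ (Subgroup.mem_zpowers _) hJ2 hg2 hJ1 hg1
      rw [hvJ] at h3
      exact hu1 (by simpa using h3.symm)
  rw [Finset.sum_filter (s := K) p]
  refine Finset.sum_congr rfl fun u hu => ?_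
  by_cases hpu : p u
  · rw [if_pos hpu, Finset.sum_filter (s := K) p]
    refine Finset.sum_congr rfl fun v hv => ?_
    by_cases hpv : p v
    · rw [if_pos hpv]
      by_cases hJ : J ∈ Subgroup.zpowers (u * v)
      · rw [if_pos hJ]
      · rw [if_neg hJ, hf0]
        intro hd
        exact hJ (D.hkey2 hpr hpu.1 (hKinv u hu).1 (hKinv u hu).2 hpu.2 hpv.1 (hKinv v hv).1 (hKinv v hv).2 hpv.2 hd)
    · rw [if_neg hpv, if_neg]
      intro hJ
      exact hpv (hkey1 u hu v hv hJ).2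
  · rw [if_neg hpu]
    refine Finset.sum_eq_zero fun v hv => ?_
    rw [if_neg]
    intro hJ
    exact hpu (hkey1 u hu v hv hJ).1

open Classical in
/-- The double sum over the noncentral involutions of the centralizer of `J`. -/
theorem sum_I (hall : ∀ x : G, x * x = 1 → x ≠ 1 → IsConj (σ ^ (2 ^ (k - 1))) x)
    (f : G → ℂ) (hf : ∀ g c, f (c * g * c⁻¹) = f g) (hf0 : ∀ g, ¬ 2 ∣ orderOf g → f g = 0)
    (hf1 : ∀ l y, σ ^ l ≠ 1 → y * σ ^ l = σ ^ l * y → ¬ 2 ∣ orderOf y → f (σ ^ l * y) = f (σ ^ l))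
    (hf2 : ∀ l, f (σ ^ l) + f (σ ^ (2 ^ (k - 1) + l)) = 2) :
    ∑ u ∈ (Finset.univ.filter (fun u => IsConj (σ ^ (2 ^ (k - 1))) u)).filter
        (fun u => u ∈ Subgroup.centralizer ({σ ^ (2 ^ (k - 1))} : Set G) ∧ u ≠ σ ^ (2 ^ (k - 1))),
      ∑ v ∈ (Finset.univ.filter (fun u => IsConj (σ ^ (2 ^ (k - 1))) u)).filter
        (fun u => u ∈ Subgroup.centralizer ({σ ^ (2 ^ (k - 1))} : Set G) ∧ u ≠ σ ^ (2 ^ (k - 1))), f (u * v) =
    (((Finset.univ.filter (fun u => IsConj (σ ^ (2 ^ (k - 1))) u)).filter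
        (fun u => u ∈ Subgroup.centralizer ({σ ^ (2 ^ (k - 1))} : Set G) ∧ u ≠ σ ^ (2 ^ (k - 1)))).card : ℂ) ^ 2 := by
  set J := σ ^ (2 ^ (k - 1)) with hJdef
  set I := (Finset.univ.filter (fun u => IsConj J u)).filter
        (fun u => u ∈ Subgroup.centralizer ({J} : Set G) ∧ u ≠ J) with hI
  have hJ2 : J * J = 1 := D.J_sq
  have hJ1 : J ≠ 1 := D.J_ne
  have hJi : J⁻¹ = J := inv_eq_of_mul_eq_one_left hJ2
  have hJC : J ∈ Subgroup.centralizer ({J} : Set G) := mem_centralizer_singleton.2 rfl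
  have hImem : ∀ z, z ∈ I ↔ (z ∈ Subgroup.centralizer ({J} : Set G) ∧ z * z = 1 ∧ z ≠ 1 ∧ z ≠ J) := by
    intro z
    simp only [hI, Finset.mem_filter, Finset.mem_univ, true_and]
    constructor
    · rintro ⟨h1, h2, h3⟩
      obtain ⟨c, hc⟩ := isConj_iff.1 h1
      refine ⟨h2, ?_, ?_, h3⟩
      · rw [← hc]
        have e : (c * J * c⁻¹) * (c * J * c⁻¹) = c * (J * J) * c⁻¹ := by group
        rw [e, hJ2]
        group
      · rw [← hc]
        intro h
        apply hJ1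
        have e : J = c⁻¹ * (c * J * c⁻¹) * c := by group
        rw [e, h]
        group
    · rintro ⟨h1, h2, h3, h4⟩
      exact ⟨hall z h2 h3, h1, h4⟩
  have hIJ : ∀ v ∈ I, J * v ∈ I := by
    intro v hv
    obtain ⟨h1, h2, h3, h4⟩ := (hImem v).1 hv
    have hvJ : v * J = J * v := mem_centralizer_singleton.1 h1
    refine (hImem _).2 ⟨mul_mem hJC h1, ?_, ?_, ?_⟩
    · calc J * v * (J * v) = J * (v * J) * v := by group
        _ = J * (J * v) * v := by rw [hvJ]
        _ = (J * J) * (v * v) := by group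
        _ = 1 := by rw [hJ2, h2, one_mul]
    · intro h
      apply h4
      rw [← hJi]
      exact eq_inv_of_mul_eq_one_right h
    · intro h
      exact h3 (by simpa using h)
  have hJJv : ∀ v : G, J * (J * v) = v := by
    intro v
    rw [← mul_assoc, hJ2, one_mul]
  have hinner : ∀ u ∈ I, ∑ v ∈ I, f (u * v) = (I.card : ℂ) := by
    intro u hu
    obtain ⟨hu1, hu2, hu3, hu4⟩ := (hImem u).1 hu
    obtain ⟨a, ha⟩ := D.pr_refl hpr hu1 hu2 hu3 hu4
    have hA : ∑ v ∈ I, f (u * v) = ∑ v ∈ I, f (u * (J * v)) := by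
      symm
      apply Finset.sum_equiv (Equiv.mulLeft J)
      · intro v
        constructor
        · exact hIJ v
        · intro h
          have := hIJ _ h
          simpa [hJJv] using this
      · intro v _
        rfl
    have h2 : ∑ v ∈ I, (f (u * v) + f (u * (J * v))) = ∑ v ∈ I, (2 : ℂ) := by
      refine Finset.sum_congr rfl fun v hv => ?_
      obtain ⟨hv1, hv2, hv3, hv4⟩ := (hImem v).1 hv
      obtain ⟨b, hb⟩ := D.pr_refl hpr hv1 hv2 hv3 hv4
      obtain ⟨l, hl⟩ := D.pr_mul_rot hpr hu1 hv1 ha hb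
      have e1 := D.f_of_pr hpr f hf hf0 hf1 (mul_mem hu1 hv1) hl
      have hl2 : pr (u * (J * v)) = σ ^ (2 ^ (k - 1) + l) := by
        rw [hpr.mul u hu1 _ (mul_mem hJC hv1), hpr.mul J hJC v hv1, hpr.fix J (D.pow_mem _), pow_add, ← hl,
          hpr.mul u hu1 v hv1]
        have h3 : pr u * J = J * pr u := D.J_comm (hpr.mem u hu1)
        calc pr u * (J * pr v) = (pr u * J) * pr v := by group
          _ = (J * pr u) * pr v := by rw [h3]
          _ = J * (pr u * pr v) := by group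
      have e2 := D.f_of_pr hpr f hf hf0 hf1 (mul_mem hu1 (mul_mem hJC hv1)) hl2
      rw [e1, e2]
      exact hf2 l
    rw [Finset.sum_add_distrib, ← hA, Finset.sum_const, nsmul_eq_mul] at h2
    have h3 : (2 : ℂ) * ∑ v ∈ I, f (u * v) = 2 * (I.card : ℂ) := by
      rw [two_mul, h2]
      ring
    exact mul_left_cancel₀ two_ne_zero h3
  rw [Finset.sum_congr rfl hinner, Finset.sum_const, nsmul_eq_mul]
  ring

end DihData

section Orbit

theorem mem_centralizer_pair {J t y : G} : y ∈ Subgroup.centralizer ({J, t} : Set G) ↔ y * J = J * y ∧ y * t = t * y := by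
  rw [Subgroup.mem_centralizer_iff]
  constructor
  · intro h
    exact ⟨(h J (by simp)).symm, (h t (by simp)).symm⟩
  · rintro ⟨h1, h2⟩ x hx
    rcases hx with rfl | hx
    · exact h1.symm
    · rw [Set.mem_singleton_iff] at hx
      rw [hx]
      exact h2.symm

open Classical in
/-- Orbit-stabilizer in the centralizer. -/
theorem card_orbit_mul {J t : G} (ht : t ∈ Subgroup.centralizer ({J} : Set G)) :
    (Finset.univ.filter (fun u => ∃ c ∈ Subgroup.centralizer ({J} : Set G), c * t * c⁻¹ = u)).card *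
      Nat.card (Subgroup.centralizer ({J, t} : Set G)) = Nat.card (Subgroup.centralizer ({J} : Set G)) := by
  set X := Subgroup.centralizer ({J} : Set G) with hX
  haveI : Fintype X := Fintype.ofFinite _
  let t' : X := ⟨t, ht⟩
  have h1 : (Finset.univ.filter (fun x : X => IsConj t' x)).card = (Subgroup.centralizer ({t'} : Set X)).index := by
    convert Cfsg.Agent.Lib.Char.card_filter_isConj t'
  have h2 := index_mul_card_centralizer t'
  have h3 : Nat.card (Subgroup.centralizer ({t'} : Set X)) = Nat.card (Subgroup.centralizer ({J, t} : Set G)) := by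
    apply Nat.card_congr
    refine ⟨fun x => ⟨((x : X) : G), ?_⟩, fun y => ⟨⟨(y : G), ?_⟩, ?_⟩, ?_, ?_⟩
    · rw [mem_centralizer_pair]
      refine ⟨mem_centralizer_singleton.1 (x : X).2, ?_⟩
      have h4 := mem_centralizer_singleton.1 x.2
      exact congrArg Subtype.val h4
    · rw [hX, mem_centralizer_singleton]
      exact (mem_centralizer_pair.1 y.2).1
    · rw [mem_centralizer_singleton]
      apply Subtype.ext
      exact (mem_centralizer_pair.1 y.2).2
    · intro x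
      rfl
    · intro y
      rfl
  have h4 : (Finset.univ.filter (fun u => ∃ c ∈ X, c * t * c⁻¹ = u)).card = (Finset.univ.filter (fun x : X => IsConj t' x)).card := by
    symm
    apply Finset.card_bij (fun (x : X) _ => (x : G))
    · intro x hx
      have hx' := (Finset.mem_filter.1 hx).2
      obtain ⟨c, hc⟩ := isConj_iff.1 hx'
      refine Finset.mem_filter.2 ⟨Finset.mem_univ _, ⟨c, c.2, ?_⟩⟩
      exact congrArg Subtype.val hc
    · intro x _ y _ h
      exact Subtype.ext h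
    · intro u hu
      obtain ⟨c, hc, rfl⟩ := (Finset.mem_filter.1 hu).2
      have hmem : c * t * c⁻¹ ∈ X := mul_mem (mul_mem hc ht) (inv_mem hc)
      refine ⟨⟨c * t * c⁻¹, hmem⟩, Finset.mem_filter.2 ⟨Finset.mem_univ _, ?_⟩, rfl⟩
      rw [isConj_iff]
      exact ⟨⟨c, hc⟩, rfl⟩
  rw [h4, h1, ← h3]
  exact h2

end Orbit

namespace DihData

variable (D : DihData P σ τ k)
include D

theorem conj_refl_even (e : ℕ) : σ ^ e * τ * (σ ^ e)⁻¹ = σ ^ (2 * e) * τ := by
  have h1 : τ * (σ ^ e)⁻¹ * τ⁻¹ = σ ^ e := by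
    have h2 := D.conj_pow_τ e
    have h3 : τ * (σ ^ e)⁻¹ * τ⁻¹ = (τ * σ ^ e * τ⁻¹)⁻¹ := by group
    rw [h3, h2, inv_inv]
  calc σ ^ e * τ * (σ ^ e)⁻¹ = σ ^ e * (τ * (σ ^ e)⁻¹ * τ⁻¹) * τ := by group
    _ = σ ^ e * σ ^ e * τ := by rw [h1]
    _ = σ ^ (2 * e) * τ := by rw [two_mul, pow_add]

theorem conj_refl_odd (e : ℕ) : σ ^ e * (σ * τ) * (σ ^ e)⁻¹ = σ ^ (2 * e + 1) * τ := by
  have h1 : τ * (σ ^ e)⁻¹ * τ⁻¹ = σ ^ e := by
    have h2 := D.conj_pow_τ e
    have h3 : τ * (σ ^ e)⁻¹ * τ⁻¹ = (τ * σ ^ e * τ⁻¹)⁻¹ := by group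
    rw [h3, h2, inv_inv]
  have h2 : Commute σ (σ ^ e) := (Commute.refl σ).pow_right e
  calc σ ^ e * (σ * τ) * (σ ^ e)⁻¹ = σ ^ e * σ * (τ * (σ ^ e)⁻¹ * τ⁻¹) * τ := by group
    _ = σ ^ e * σ * σ ^ e * τ := by rw [h1]
    _ = σ ^ (2 * e + 1) * τ := by
      rw [two_mul, pow_succ, pow_add, mul_assoc (σ ^ e), h2.eq]
      group

end DihData

namespace DihData

variable (D : DihData P σ τ k) {pr : G → G} (hpr : IsPr P (σ ^ (2 ^ (k - 1))) pr)
include D hpr

theorem conj_into_P {u : G} (hu : u ∈ Subgroup.centralizer ({σ ^ (2 ^ (k - 1))} : Set G)) (hu2 : ∃ r, orderOf u = 2 ^ r) :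
    ∃ c ∈ Subgroup.centralizer ({σ ^ (2 ^ (k - 1))} : Set G), c * u * c⁻¹ ∈ (P : Subgroup G) := by
  have hPC := D.P_le_C hpr
  have hord : ∃ r, orderOf (⟨u, hu⟩ : Subgroup.centralizer ({σ ^ (2 ^ (k - 1))} : Set G)) = 2 ^ r := by
    rw [Subgroup.orderOf_mk]
    exact hu2
  obtain ⟨c, hc'⟩ := exists_conj_elt_into_sylow (P.subtype hPC) hord
  exact ⟨c, c.2, hc'⟩

open Classical in
/-- The number of noncentral involutions in the centralizer of `J`. -/
theorem card_I (hconj1 : IsConj (σ ^ (2 ^ (k - 1))) τ) (hconj2 : IsConj (σ ^ (2 ^ (k - 1))) (σ * τ)) :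
    (((Finset.univ.filter (fun u => IsConj (σ ^ (2 ^ (k - 1))) u)).filter
        (fun u => u ∈ Subgroup.centralizer ({σ ^ (2 ^ (k - 1))} : Set G) ∧ u ≠ σ ^ (2 ^ (k - 1)))).card : ℚ) =
    (Nat.card (Subgroup.centralizer ({σ ^ (2 ^ (k - 1))} : Set G)) : ℚ) *
      (1 / (Nat.card (Subgroup.centralizer ({σ ^ (2 ^ (k - 1)), τ} : Set G)) : ℚ) +
        1 / (Nat.card (Subgroup.centralizer ({σ ^ (2 ^ (k - 1)), σ * τ} : Set G)) : ℚ)) := by
  set J := σ ^ (2 ^ (k - 1)) with hJdef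
  set C := Subgroup.centralizer ({J} : Set G) with hC
  set I := (Finset.univ.filter (fun u => IsConj J u)).filter (fun u => u ∈ C ∧ u ≠ J) with hI
  have hJ2 : J * J = 1 := D.J_sq
  have hJ1 : J ≠ 1 := D.J_ne
  have hJi : J⁻¹ = J := inv_eq_of_mul_eq_one_left hJ2
  have hPC : (P : Subgroup G) ≤ C := D.P_le_C hpr
  have hτ1 : σ * τ = σ ^ 1 * τ := by rw [pow_one]
  have hτC : τ ∈ C := hPC D.τP
  have hστC : σ * τ ∈ C := hPC (mul_mem D.σP D.τP)
  have h1 := card_orbit_mul hτC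
  have h2 := card_orbit_mul hστC
  set O₁ := Finset.univ.filter (fun u => ∃ c ∈ C, c * τ * c⁻¹ = u) with hO₁
  set O₂ := Finset.univ.filter (fun u => ∃ c ∈ C, c * (σ * τ) * c⁻¹ = u) with hO₂
  have hcentral : ∀ c ∈ C, c * J * c⁻¹ = J := by
    intro c hc
    rw [mem_centralizer_singleton.1 hc]
    group
  have hImem : ∀ z, z ∈ I ↔ (IsConj J z ∧ z ∈ C ∧ z ≠ J) := by
    intro z
    simp [hI]
  have hsub : ∀ t : G, t ∈ C → IsConj J t → t ≠ J → ∀ c ∈ C, c * t * c⁻¹ ∈ I := by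
    intro t ht hJt hne c hc
    refine (hImem _).2 ⟨hJt.trans (isConj_iff.2 ⟨c, rfl⟩), mul_mem (mul_mem hc ht) (inv_mem hc), ?_⟩
    intro h
    apply hne
    have e : t = c⁻¹ * (c * t * c⁻¹) * c := by group
    rw [e, h]
    have := hcentral c⁻¹ (inv_mem hc)
    rwa [inv_inv] at this
  have hτJ : τ ≠ J := by
    intro h
    apply D.τ_notMem
    rw [h]
    exact Subgroup.npow_mem_zpowers σ _
  have hστJ : σ * τ ≠ J := by
    intro h
    apply D.refl_notMem 1
    rw [← hτ1, h]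
    exact Subgroup.npow_mem_zpowers σ _
  have hIU : I = O₁ ∪ O₂ := by
    ext u
    simp only [Finset.mem_union]
    constructor
    · intro hu
      obtain ⟨h3, h4, h5⟩ := (hImem u).1 hu
      obtain ⟨c0, hc0⟩ := isConj_iff.1 h3
      have hu2 : u * u = 1 := by
        rw [← hc0]
        have e : (c0 * J * c0⁻¹) * (c0 * J * c0⁻¹) = c0 * (J * J) * c0⁻¹ := by group
        rw [e, hJ2]
        group
      have hu1 : u ≠ 1 := by
        rw [← hc0]
        intro h
        apply hJ1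
        have e : J = c0⁻¹ * (c0 * J * c0⁻¹) * c0 := by group
        rw [e, h]
        group
      have ho : orderOf u = 2 := orderOf_eq_prime (by rw [pow_two, hu2]) hu1
      obtain ⟨d, hd, hdP⟩ := D.conj_into_P hpr h4 ⟨1, by rw [ho, pow_one]⟩
      have hs2 : (d * u * d⁻¹) * (d * u * d⁻¹) = 1 := by
        have e : (d * u * d⁻¹) * (d * u * d⁻¹) = d * (u * u) * d⁻¹ := by group
        rw [e, hu2]
        group
      have hs1 : d * u * d⁻¹ ≠ 1 := by
        intro h
        apply hu1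
        have e : u = d⁻¹ * (d * u * d⁻¹) * d := by group
        rw [e, h]
        group
      have hsJ : d * u * d⁻¹ ≠ J := by
        intro h
        apply h5
        have e : u = d⁻¹ * (d * u * d⁻¹) * d := by group
        rw [e, h]
        have := hcentral d⁻¹ (inv_mem hd)
        rwa [inv_inv] at this
      rcases D.mem _ hdP with ⟨i, hi⟩ | ⟨m, hm⟩
      · exfalso
        rw [hi] at hs2 hs1 hsJ
        rcases D.eq_one_or_J hs2 with h | h
        · exact hs1 h
        · exact hsJ h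
      · have hu' : u = d⁻¹ * (σ ^ m * τ) * d := by
          rw [← hm]
          group
        rcases Nat.even_or_odd' m with ⟨e, rfl | rfl⟩
        · left
          refine Finset.mem_filter.2 ⟨Finset.mem_univ _, d⁻¹ * σ ^ e, mul_mem (inv_mem hd) (hPC (D.pow_mem e)), ?_⟩
          rw [hu', ← D.conj_refl_even]
          group
        · right
          refine Finset.mem_filter.2 ⟨Finset.mem_univ _, d⁻¹ * σ ^ e, mul_mem (inv_mem hd) (hPC (D.pow_mem e)), ?_⟩
          rw [hu', ← D.conj_refl_odd]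
          group
    · rintro (h | h)
      · obtain ⟨c, hc, rfl⟩ := (Finset.mem_filter.1 h).2
        exact hsub τ hτC hconj1 hτJ c hc
      · obtain ⟨c, hc, rfl⟩ := (Finset.mem_filter.1 h).2
        exact hsub _ hστC hconj2 hστJ c hc
  have hdisj : Disjoint O₁ O₂ := by
    rw [Finset.disjoint_left]
    intro u hu1 hu2
    obtain ⟨c, hc, hcu⟩ := (Finset.mem_filter.1 hu1).2
    obtain ⟨c', hc', hcu'⟩ := (Finset.mem_filter.1 hu2).2
    set d := c'⁻¹ * c with hd
    have hdC : d ∈ C := mul_mem (inv_mem hc') hc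
    have e1 : d * τ * d⁻¹ = σ * τ := by
      have e2 : d * τ * d⁻¹ = c'⁻¹ * (c * τ * c⁻¹) * c' := by
        rw [hd]
        group
      rw [e2, hcu, ← hcu']
      group
    have e3 : pr (d * τ * d⁻¹) = pr d * τ * (pr d)⁻¹ := by
      rw [hpr.mul _ (mul_mem hdC hτC) _ (inv_mem hdC), hpr.mul d hdC τ hτC, hpr.fix τ D.τP, D.pr_inv hpr hdC]
    rw [e1, hpr.fix _ (mul_mem D.σP D.τP)] at e3
    have hmain : ∃ i : ℕ, σ * τ = σ ^ (2 * i) * τ := by
      rcases D.mem _ (hpr.mem d hdC) with ⟨i, hi⟩ | ⟨i, hi⟩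
      · refine ⟨i, ?_⟩
        rw [e3, hi]
        exact D.conj_refl_even i
      · refine ⟨i, ?_⟩
        rw [e3, hi, ← D.conj_refl_even]
        group
    obtain ⟨i, hi⟩ := hmain
    have h3 : σ ^ 1 = σ ^ (2 * i) := by
      rw [pow_one]
      exact mul_right_cancel hi
    have h4 := (pow_eq_pow_iff_modEq.1 h3)
    rw [D.oσ] at h4
    have h5 : 2 ∣ 2 ^ k := dvd_pow_self 2 (by have := D.two_le; omega)
    have h6 := Nat.ModEq.of_dvd h5 h4
    unfold Nat.ModEq at h6
    omega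
  have hcard : I.card = O₁.card + O₂.card := by
    rw [hIU, Finset.card_union_of_disjoint hdisj]
  rw [hcard]
  have hc1 : (Nat.card (Subgroup.centralizer ({J, τ} : Set G)) : ℚ) ≠ 0 := by exact_mod_cast Nat.card_pos.ne'
  have hc2 : (Nat.card (Subgroup.centralizer ({J, σ * τ} : Set G)) : ℚ) ≠ 0 := by exact_mod_cast Nat.card_pos.ne'
  have h1' : (O₁.card : ℚ) * (Nat.card (Subgroup.centralizer ({J, τ} : Set G)) : ℚ) = (Nat.card C : ℚ) := by exact_mod_cast h1
  have h2' : (O₂.card : ℚ) * (Nat.card (Subgroup.centralizer ({J, σ * τ} : Set G)) : ℚ) = (Nat.card C : ℚ) := by exact_mod_cast h2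
  push_cast
  rw [mul_add, mul_one_div, mul_one_div, eq_div_of_mul_eq hc1 h1', eq_div_of_mul_eq hc2 h2']

end DihData

end Data

end Cfsg.Agent.Lib.FF
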