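import Mathlib
import Cfsg.Agent.Lib.FF.DihCount

/-!
# The order formula for groups with dihedral Sylow 2-subgroups and one class of involutions
-/

set_option autoImplicit false
set_option linter.unusedSectionVars false
set_option linter.unusedSimpArgs false
set_option linter.unusedVariables false

open scoped ComplexConjugate
open Cfsg MonoidAlgebra Cfsg.Agent.Lib.Char Cfsg.Agent.Lib.Block

namespace Cfsg.Agent.Lib.FF

section Closure

variable {G : Type*} [Group G] [Fintype G]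

/-- Dihedral data from generators. -/
theorem dihData_of_closure {k : ℕ} (hk : 2 ≤ k) (P : Sylow 2 G) {σ τ : G} (hσ : σ ∈ (P : Subgroup G)) (hτ : τ ∈ (P : Subgroup G))
    (hσo : orderOf σ = 2 ^ k) (hτo : orderOf τ = 2) (hrel : τ * σ * τ⁻¹ = σ⁻¹)
    (hgen : Subgroup.closure ({σ, τ} : Set G) = (P : Subgroup G)) : DihData P σ τ k := by
  classical
  have hτ2 : τ * τ = 1 := by rw [← pow_two, ← hτo, pow_orderOf_eq_one]
  have hτi : τ⁻¹ = τ := inv_eq_of_mul_eq_one_left hτ2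
  have hconj : ∀ i : ℕ, τ * σ ^ i * τ⁻¹ = (σ ^ i)⁻¹ := fun i => by rw [← conj_pow, hrel, inv_pow]
  have hτσ : ∀ i : ℕ, τ * σ ^ i = (σ ^ i)⁻¹ * τ := fun i => by
    rw [← hconj i]
    group
  have hinv : ∀ j : ℕ, ∃ e : ℕ, (σ ^ j)⁻¹ = σ ^ e := by
    intro j
    refine ⟨j * (2 ^ k - 1), ?_⟩
    apply inv_eq_of_mul_eq_one_right
    rw [← pow_add]
    have e1 : j + j * (2 ^ k - 1) = j * 2 ^ k := by
      have hp : 1 ≤ 2 ^ k := Nat.one_le_two_pow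
      obtain ⟨m, hm⟩ := Nat.exists_eq_add_of_le hp
      rw [hm]
      simp
      ring
    rw [e1, pow_mul', ← hσo, pow_orderOf_eq_one, one_pow]
  have hmem : ∀ u ∈ (P : Subgroup G), (∃ i : ℕ, u = σ ^ i) ∨ (∃ i : ℕ, u = σ ^ i * τ) := by
    intro u hu
    rw [← hgen] at hu
    induction hu using Subgroup.closure_induction with
    | mem x hx =>
      rcases hx with rfl | hx
      · exact Or.inl ⟨1, (pow_one _).symm⟩
      · rw [Set.mem_singleton_iff] at hx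
        exact Or.inr ⟨0, by rw [hx, pow_zero, one_mul]⟩
    | one => exact Or.inl ⟨0, (pow_zero _).symm⟩
    | mul x y _ _ hx hy =>
      rcases hx with ⟨i, rfl⟩ | ⟨i, rfl⟩ <;> rcases hy with ⟨j, rfl⟩ | ⟨j, rfl⟩
      · exact Or.inl ⟨i + j, (pow_add _ _ _).symm⟩
      · exact Or.inr ⟨i + j, by rw [pow_add, mul_assoc]⟩
      · obtain ⟨e, he⟩ := hinv j
        refine Or.inr ⟨i + e, ?_⟩
        rw [mul_assoc, hτσ, he, pow_add, mul_assoc]
      · obtain ⟨e, he⟩ := hinv j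
        refine Or.inl ⟨i + e, ?_⟩
        calc σ ^ i * τ * (σ ^ j * τ) = σ ^ i * (τ * σ ^ j) * τ := by group
          _ = σ ^ i * ((σ ^ j)⁻¹ * τ) * τ := by rw [hτσ]
          _ = σ ^ i * (σ ^ j)⁻¹ * (τ * τ) := by group
          _ = σ ^ (i + e) := by rw [hτ2, mul_one, he, pow_add]
    | inv x _ hx =>
      rcases hx with ⟨i, rfl⟩ | ⟨i, rfl⟩
      · obtain ⟨e, he⟩ := hinv i
        exact Or.inl ⟨e, he⟩
      · refine Or.inr ⟨i, ?_⟩
        apply inv_eq_of_mul_eq_one_left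
        calc σ ^ i * τ * (σ ^ i * τ) = σ ^ i * (τ * σ ^ i) * τ := by group
          _ = σ ^ i * ((σ ^ i)⁻¹ * τ) * τ := by rw [hτσ]
          _ = τ * τ := by group
          _ = 1 := hτ2
  have hσσ : σ * σ ≠ 1 := by
    intro h
    have h1 : σ ^ 2 = 1 := by rw [pow_two, h]
    have h2 := orderOf_dvd_of_pow_eq_one h1
    rw [hσo] at h2
    have h2' : 2 ^ k ∣ 2 ^ 1 := by simpa using h2
    have h3 := (Nat.pow_dvd_pow_iff_le_right (by norm_num : 1 < 2)).1 h2'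
    omega
  have hτnot : ∀ i j : ℕ, σ ^ i * τ ≠ σ ^ j := by
    intro i j h
    have h1 : τ = (σ ^ i)⁻¹ * σ ^ j := by
      rw [← h]
      group
    have h2 : Commute τ σ := by
      rw [h1]
      exact ((Commute.refl σ).pow_left i).inv_left.mul_left ((Commute.refl σ).pow_left j)
    have h3 : τ * σ * τ⁻¹ = σ := by
      rw [h2.eq]
      group
    rw [hrel] at h3
    apply hσσ
    nth_rw 1 [← h3]
    group
  have hpow : Set.InjOn (fun i : ℕ => σ ^ i) (Finset.range (2 ^ k) : Set ℕ) := by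
    intro a ha b hb h
    have h2 := pow_injOn_Iio_orderOf (x := σ)
    rw [hσo] at h2
    exact h2 (Set.mem_Iio.2 (Finset.mem_range.1 ha)) (Set.mem_Iio.2 (Finset.mem_range.1 hb)) h
  have hcard : Nat.card (P : Subgroup G) = 2 ^ (k + 1) := by
    let T : Finset G := (Finset.range (2 ^ k)).image (fun i => σ ^ i) ∪ (Finset.range (2 ^ k)).image (fun i => σ ^ i * τ)
    have hT : ∀ x, x ∈ T ↔ x ∈ (P : Subgroup G) := by
      intro x
      simp only [T, Finset.mem_union, Finset.mem_image, Finset.mem_range]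
      constructor
      · rintro (⟨i, _, rfl⟩ | ⟨i, _, rfl⟩)
        · exact Subgroup.pow_mem _ hσ i
        · exact mul_mem (Subgroup.pow_mem _ hσ i) hτ
      · intro hx
        have hpos : 0 < 2 ^ k := by positivity
        rcases hmem x hx with ⟨i, rfl⟩ | ⟨i, rfl⟩
        · left
          refine ⟨i % 2 ^ k, Nat.mod_lt _ hpos, ?_⟩
          rw [← hσo, pow_mod_orderOf]
        · right
          refine ⟨i % 2 ^ k, Nat.mod_lt _ hpos, ?_⟩
          rw [← hσo, pow_mod_orderOf]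
    have h1 : Nat.card (P : Subgroup G) = T.card := (Nat.subtype_card T hT).symm ▸ rfl
    rw [h1, Finset.card_union_of_disjoint, Finset.card_image_of_injOn hpow, Finset.card_image_of_injOn, Finset.card_range, pow_succ]
    · ring
    · intro a ha b hb h
      apply hpow ha hb
      exact mul_right_cancel h
    · rw [Finset.disjoint_left]
      intro x hx hx'
      obtain ⟨i, _, rfl⟩ := Finset.mem_image.1 hx
      obtain ⟨j, _, hj⟩ := Finset.mem_image.1 hx'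
      exact hτnot j i hj
  exact ⟨hk, hσ, hτ, hσo, hτ2, hrel, hcard, hmem⟩

end Closure

section Main

variable {G : Type*} [Group G] [Fintype G] {M : Ideal AlgInt} {P : Sylow 2 G} {σ τ : G} {k : ℕ}

namespace DihData

variable (D : DihData P σ τ k)
include D

/-- Every involution is conjugate to `J` when `J ∼ τ ∼ στ`. -/
theorem all_invol_conj (hconj1 : IsConj (σ ^ (2 ^ (k - 1))) τ) (hconj2 : IsConj (σ ^ (2 ^ (k - 1))) (σ * τ))
    (x : G) (hx2 : x * x = 1) (hx1 : x ≠ 1) : IsConj (σ ^ (2 ^ (k - 1))) x := by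
  have ho : orderOf x = 2 := orderOf_eq_prime (by rw [pow_two, hx2]) hx1
  obtain ⟨c, hc⟩ := exists_conj_elt_into_sylow P (u := x) ⟨1, by rw [ho, pow_one]⟩
  have hs2 : (c * x * c⁻¹) * (c * x * c⁻¹) = 1 := by
    have e : (c * x * c⁻¹) * (c * x * c⁻¹) = c * (x * x) * c⁻¹ := by group
    rw [e, hx2]
    group
  have hs1 : c * x * c⁻¹ ≠ 1 := by
    intro h
    apply hx1
    have e : x = c⁻¹ * (c * x * c⁻¹) * c := by group
    rw [e, h]
    group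
  have hx' : IsConj (c * x * c⁻¹) x := (isConj_iff.2 ⟨c, rfl⟩ : IsConj x (c * x * c⁻¹)).symm
  refine IsConj.trans ?_ hx'
  rcases D.mem _ hc with ⟨i, hi⟩ | ⟨m, hm⟩
  · rw [hi] at hs2 hs1 ⊢
    rcases D.eq_one_or_J hs2 with h | h
    · exact absurd h hs1
    · rw [h]
  · rw [hm]
    rcases Nat.even_or_odd' m with ⟨e, rfl | rfl⟩
    · exact hconj1.trans (isConj_iff.2 ⟨σ ^ e, D.conj_refl_even e⟩)
    · exact hconj2.trans (isConj_iff.2 ⟨σ ^ e, D.conj_refl_odd e⟩)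

open Classical in
/-- The core of the order formula: two characters. -/
theorem order_formula_aux (hM : IsPModular 2 M)
    (hconj1 : IsConj (σ ^ (2 ^ (k - 1))) τ) (hconj2 : IsConj (σ ^ (2 ^ (k - 1))) (σ * τ)) {ω : ℂ}
    (hω : IsPrimitiveRoot ω (2 ^ k)) (hωh : ω ^ (2 ^ (k - 1)) = -1) {α : ℤ} (hαs : (α : ℂ) * α = 1)
    (χ₁ : IrrCharacter G) (hχ₁ : χ₁ ∈ principalBlock M G) (b₀ : IrrCharacter G) (hb₀ : b₀ ∈ principalBlock M G)
    (hrel₀ : ∀ ρ : G, ¬ 2 ∣ orderOf ρ → (α : ℂ) * ((χ₁ : G → ℂ) ρ - (b₀ : G → ℂ) ρ) = 1)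
    (hv₀ : ∀ l, 0 < l → l < 2 ^ k → (χ₁ : G → ℂ) (σ ^ l) = -(α : ℂ) ∧
      (b₀ : G → ℂ) (σ ^ l) = -(α : ℂ) * (ω ^ l + (ω ^ l)⁻¹)) :
    (charDegree (χ₁ : G → ℂ) : ℤ) ≠ -α ∧
    (Nat.card G : ℚ) * ((charDegree (χ₁ : G → ℂ) : ℚ) - ((-α : ℤ) : ℚ)) ^ 2 =
      2 * (charDegree (χ₁ : G → ℂ) : ℚ) * ((charDegree (χ₁ : G → ℂ) : ℚ) + ((-α : ℤ) : ℚ)) *
      (Nat.card (Subgroup.centralizer ({σ ^ (2 ^ (k - 1))} : Set G)) : ℚ) ^ 3 *
      (1 / (Nat.card (Subgroup.centralizer ({σ ^ (2 ^ (k - 1)), τ} : Set G)) : ℚ) +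
        1 / (Nat.card (Subgroup.centralizer ({σ ^ (2 ^ (k - 1)), σ * τ} : Set G)) : ℚ)) ^ 2 := by
  have := isPModular_isPrime hM
  have e2 : 2 ^ k = 2 * 2 ^ (k - 1) := D.two_pow_eq
  have hh2 : 2 ≤ 2 ^ (k - 1) := by
    have := D.two_le
    calc 2 = 2 ^ 1 := by norm_num
      _ ≤ 2 ^ (k - 1) := Nat.pow_le_pow_right (by norm_num) (by omega)
  obtain ⟨f, hf_def⟩ : ∃ f : G → ℂ, f = fun g => (1 - (α : ℂ) * (χ₁ : G → ℂ) g + (α : ℂ) * (b₀ : G → ℂ) g) / 2 := ⟨_, rfl⟩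
  have hfa : ∀ g, f g = (1 - (α : ℂ) * (χ₁ : G → ℂ) g + (α : ℂ) * (b₀ : G → ℂ) g) / 2 := fun g => by rw [hf_def]
  have hf : ∀ g c, f (c * g * c⁻¹) = f g := by
    intro g c
    rw [hfa, hfa, IsCharacter.isClassFunction (IsIrrCharacter.isCharacter χ₁.2),
      IsCharacter.isClassFunction (IsIrrCharacter.isCharacter b₀.2)]
  have hf0 : ∀ g, ¬ 2 ∣ orderOf g → f g = 0 := by
    intro g hg
    have h3 := hrel₀ g hg
    rw [hfa, div_eq_zero_iff]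
    left
    linear_combination -h3
  have hf1 : ∀ l y, σ ^ l ≠ 1 → y * σ ^ l = σ ^ l * y → ¬ 2 ∣ orderOf y → f (σ ^ l * y) = f (σ ^ l) := by
    intro l y h3 h4 h5
    rw [hfa, hfa, D.section_const_pow hM h3 h4 h5 χ₁ hχ₁, D.section_const_pow hM h3 h4 h5 b₀ hb₀]
  have hfv : ∀ l : ℕ, f (σ ^ l) = 1 - (ω ^ l + (ω ^ l)⁻¹) / 2 := by
    intro l
    have e1 : σ ^ l = σ ^ (l % 2 ^ k) := by
      rw [← D.oσ]
      exact (pow_mod_orderOf σ l).symm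
    have e3 : ω ^ l = ω ^ (l % 2 ^ k) := pow_eq_pow_mod l hω.pow_eq_one
    rcases Nat.eq_zero_or_pos (l % 2 ^ k) with h0 | h0
    · rw [e1, e3, h0, pow_zero, pow_zero, hf0 1 (by simp)]
      norm_num
    · have hlt : l % 2 ^ k < 2 ^ k := Nat.mod_lt _ (by positivity)
      obtain ⟨v1, v5⟩ := hv₀ _ h0 hlt
      rw [e1, e3, hfa, v1, v5]
      linear_combination ((1 - (ω ^ (l % 2 ^ k) + (ω ^ (l % 2 ^ k))⁻¹)) / 2) * hαs
  have hf2 : ∀ l, f (σ ^ l) + f (σ ^ (2 ^ (k - 1) + l)) = 2 := by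
    intro l
    rw [hfv, hfv, pow_add, hωh, neg_one_mul, inv_neg]
    ring
  obtain ⟨pr, hpr⟩ := D.exists_pr
  have hall' := D.all_invol_conj hconj1 hconj2
  have T1 := sum_partition_conj D.J_sq D.J_ne hall' f hf hf0
  rw [D.sum_fiber_eq hpr hall' f hf0, D.sum_I hpr hall' f hf hf0 hf1 hf2] at T1
  have C1 := D.card_I hpr hconj1 hconj2
  obtain ⟨J, hJ⟩ : ∃ J, J = σ ^ (2 ^ (k - 1)) := ⟨_, rfl⟩
  rw [← hJ] at T1 C1 ⊢
  obtain ⟨c, hc⟩ : ∃ c, c = Subgroup.centralizer ({J} : Set G) := ⟨_, rfl⟩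
  obtain ⟨K, hK⟩ : ∃ K, K = Finset.univ.filter (fun u => IsConj J u) := ⟨_, rfl⟩
  have hKc : K.card = (Subgroup.centralizer ({J} : Set G)).index := by
    rw [hK]
    convert Cfsg.Agent.Lib.Char.card_filter_isConj J
  rw [← hK] at T1 C1
  obtain ⟨I, hI⟩ : ∃ I, I = K.filter (fun u => u ∈ Subgroup.centralizer ({J} : Set G) ∧ u ≠ J) := ⟨_, rfl⟩
  rw [← hI] at T1 C1
  have S1 := sum_class_mul_irr χ₁ J
  have S2 := sum_class_mul_irr b₀ J
  rw [← hK, ← hKc] at S1 S2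
  have hs : ∀ u v, f (u * v) = 1 / 2 - ((α : ℂ) / 2) * (χ₁ : G → ℂ) (u * v) + ((α : ℂ) / 2) * (b₀ : G → ℂ) (u * v) := by
    intro u v
    rw [hfa]
    ring
  have S0 : ∑ u ∈ K, ∑ v ∈ K, f (u * v) = ((K.card : ℂ) * (K.card : ℂ)) * (1 / 2) -
      ((α : ℂ) / 2) * ∑ u ∈ K, ∑ v ∈ K, (χ₁ : G → ℂ) (u * v) + ((α : ℂ) / 2) * ∑ u ∈ K, ∑ v ∈ K, (b₀ : G → ℂ) (u * v) := by
    simp only [hs, Finset.sum_add_distrib, Finset.sum_sub_distrib, ← Finset.mul_sum, Finset.sum_const, nsmul_eq_mul]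
    ring
  rw [S1, S2] at S0
  rw [S0] at T1
  have hh0 : 0 < 2 ^ (k - 1) := by omega
  have hhN : 2 ^ (k - 1) < 2 ^ k := by omega
  obtain ⟨vJ1, vJ2⟩ := hv₀ _ hh0 hhN
  rw [← hJ] at vJ1 vJ2
  obtain ⟨x, hx⟩ : ∃ x, x = charDegree (χ₁ : G → ℂ) := ⟨_, rfl⟩
  obtain ⟨y, hy⟩ : ∃ y, y = charDegree (b₀ : G → ℂ) := ⟨_, rfl⟩
  have hχ1 : (χ₁ : G → ℂ) 1 = (x : ℂ) := by
    rw [hx]
    exact map_one_eq_charDegree (IsIrrCharacter.isCharacter χ₁.2)
  have hb1 : (b₀ : G → ℂ) 1 = (y : ℂ) := by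
    rw [hy]
    exact map_one_eq_charDegree (IsIrrCharacter.isCharacter b₀.2)
  have hxpos : 0 < x := by
    rw [hx]
    exact charDegree_pos_of_irr χ₁.2
  have hypos : 0 < y := by
    rw [hy]
    exact charDegree_pos_of_irr b₀.2
  have hrel1 := hrel₀ 1 (by simp)
  rw [hχ1, hb1] at hrel1
  have hyx : (y : ℂ) = (x : ℂ) - (α : ℂ) := by
    linear_combination (-(α : ℂ)) * hrel1 + ((x : ℂ) - (y : ℂ)) * hαs
  have hyZ : (y : ℤ) = (x : ℤ) - α := by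
    apply Int.cast_injective (α := ℂ)
    push_cast
    exact hyx
  rw [vJ1, vJ2, hωh, hχ1, hb1] at T1
  have hKpos : 0 < K.card := by
    rw [hKc]
    exact Cfsg.Agent.Lib.Char.centralizer_index_pos J
  have hA : (K.card : ℂ) ≠ 0 := by exact_mod_cast hKpos.ne'
  have hX : (x : ℂ) ≠ 0 := by exact_mod_cast hxpos.ne'
  have hY : (y : ℂ) ≠ 0 := by exact_mod_cast hypos.ne'
  have hZ1 : (K.card : ℂ) * (2 * (I.card : ℂ) ^ 2 * (x : ℂ) * (y : ℂ)) =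
      (K.card : ℂ) * ((K.card : ℂ) * ((x : ℂ) * (y : ℂ) - (α : ℂ) * (y : ℂ) + 4 * (α : ℂ) * (x : ℂ))) := by
    have e1 : (-(α : ℂ)) ^ 2 = 1 := by rw [neg_sq, pow_two, hαs]
    have e2 : (-(α : ℂ) * (-1 + (-1 : ℂ)⁻¹)) ^ 2 = 4 := by
      have : (-(α : ℂ) * (-1 + (-1 : ℂ)⁻¹)) = 2 * (α : ℂ) := by
        norm_num
        ring
      rw [this, mul_pow, pow_two (α : ℂ), hαs]
      norm_num
    rw [e1, e2] at T1
    have e3 : (K.card : ℂ) * (I.card : ℂ) ^ 2 * (2 * (x : ℂ) * (y : ℂ)) =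
        ((K.card : ℂ) * (K.card : ℂ) * (1 / 2) - (α : ℂ) / 2 * ((K.card : ℂ) ^ 2 * 1 / (x : ℂ)) +
          (α : ℂ) / 2 * ((K.card : ℂ) ^ 2 * 4 / (y : ℂ))) * (2 * (x : ℂ) * (y : ℂ)) := by
      rw [T1]
    have e4 : ((K.card : ℂ) * (K.card : ℂ) * (1 / 2) - (α : ℂ) / 2 * ((K.card : ℂ) ^ 2 * 1 / (x : ℂ)) +
          (α : ℂ) / 2 * ((K.card : ℂ) ^ 2 * 4 / (y : ℂ))) * (2 * (x : ℂ) * (y : ℂ)) =
        (K.card : ℂ) * ((K.card : ℂ) * ((x : ℂ) * (y : ℂ) - (α : ℂ) * (y : ℂ) + 4 * (α : ℂ) * (x : ℂ))) := by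
      field_simp
    rw [e4] at e3
    linear_combination e3
  have hZ2 := mul_left_cancel₀ hA hZ1
  have hZ3 : (K.card : ℂ) * ((x : ℂ) + (α : ℂ)) ^ 2 = 2 * (I.card : ℂ) ^ 2 * (x : ℂ) * ((x : ℂ) - (α : ℂ)) := by
    rw [hyx] at hZ2
    linear_combination (-1 : ℂ) * hZ2
  have hZ4 : (K.card : ℤ) * ((x : ℤ) + α) ^ 2 = 2 * (I.card : ℤ) ^ 2 * (x : ℤ) * ((x : ℤ) - α) := by
    apply Int.cast_injective (α := ℂ)
    push_cast
    exact hZ3
  have hc1 : (0 : ℚ) < (Nat.card (Subgroup.centralizer ({J, τ} : Set G)) : ℚ) := by exact_mod_cast Nat.card_pos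
  have hc2 : (0 : ℚ) < (Nat.card (Subgroup.centralizer ({J, σ * τ} : Set G)) : ℚ) := by exact_mod_cast Nat.card_pos
  have hc0 : (0 : ℚ) < (Nat.card (Subgroup.centralizer ({J} : Set G)) : ℚ) := by exact_mod_cast Nat.card_pos
  have hIpos : (0 : ℚ) < (I.card : ℚ) := by
    rw [C1]
    positivity
  rw [← hx]
  constructor
  · intro h0
    rw [h0] at hZ4
    have h1 : (0 : ℤ) < (I.card : ℤ) := by exact_mod_cast hIpos
    have h2 : (0 : ℤ) < (x : ℤ) := by exact_mod_cast hxpos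
    have h3 : (0 : ℤ) < (-α) - α := by
      have h4 : (0 : ℤ) < (y : ℤ) := by exact_mod_cast hypos
      rw [hyZ, h0] at h4
      exact h4
    have h5 : ((K.card : ℤ)) * (-α + α) ^ 2 = 0 := by
      rw [neg_add_cancel]
      simp
    rw [h5] at hZ4
    have h6 : (0 : ℤ) < 2 * (I.card : ℤ) ^ 2 * (-α) * ((-α) - α) := by
      rw [h0] at h2
      positivity
    linarith
  · have hG : (Nat.card G : ℚ) = (K.card : ℚ) * (Nat.card (Subgroup.centralizer ({J} : Set G)) : ℚ) := by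
      rw [hKc]
      exact_mod_cast (Cfsg.Agent.Lib.Char.index_mul_card_centralizer J).symm
    have hQ : (K.card : ℚ) * ((x : ℚ) + (α : ℚ)) ^ 2 = 2 * (I.card : ℚ) ^ 2 * (x : ℚ) * ((x : ℚ) - (α : ℚ)) := by
      exact_mod_cast hZ4
    rw [C1] at hQ
    rw [hG]
    push_cast
    linear_combination (Nat.card (Subgroup.centralizer ({J} : Set G)) : ℚ) * hQ

open Classical in
/-- **The order formula.** -/
theorem order_formula (hM : IsPModular 2 M)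
    (hconj1 : IsConj (σ ^ (2 ^ (k - 1))) τ) (hconj2 : IsConj (σ ^ (2 ^ (k - 1))) (σ * τ))
    (χ₁ : IrrCharacter G) (hχ₁ : χ₁ ∈ principalBlock M G) (h1 : (χ₁ : G → ℂ) ≠ (fun _ => 1)) (δ₁ : ℤ) (hδ₁ : δ₁ = 1 ∨ δ₁ = -1)
    (hval : ∀ l : ℕ, 0 < l → l < 2 ^ k → (χ₁ : G → ℂ) (σ ^ l) = δ₁) :
    (charDegree (χ₁ : G → ℂ) : ℤ) ≠ δ₁ ∧
    (Nat.card G : ℚ) * ((charDegree (χ₁ : G → ℂ) : ℚ) - δ₁) ^ 2 =
      2 * (charDegree (χ₁ : G → ℂ) : ℚ) * ((charDegree (χ₁ : G → ℂ) : ℚ) + δ₁) *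
      (Nat.card (Subgroup.centralizer ({σ ^ (2 ^ (k - 1))} : Set G)) : ℚ) ^ 3 *
      (1 / (Nat.card (Subgroup.centralizer ({σ ^ (2 ^ (k - 1)), τ} : Set G)) : ℚ) +
        1 / (Nat.card (Subgroup.centralizer ({σ ^ (2 ^ (k - 1)), σ * τ} : Set G)) : ℚ)) ^ 2 := by
  have := isPModular_isPrime hM
  have hpos : 2 ^ k ≠ 0 := by positivity
  obtain ⟨ω, hω⟩ : ∃ ω : ℂ, IsPrimitiveRoot ω (2 ^ k) := ⟨_, Complex.isPrimitiveRoot_exp _ hpos⟩
  obtain ⟨a, b, c₂, c₃, α, γ₂, γ₃, hα, hγ₂, hγ₃, ha, hb, hc₂, hc₃, hinj, hbne, hac₂, hac₃, hc₂₃, hall, hv, hrel⟩ :=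
    D.principal_main hM hω
  have e2 : 2 ^ k = 2 * 2 ^ (k - 1) := D.two_pow_eq
  have hh2 : 2 ≤ 2 ^ (k - 1) := by
    have := D.two_le
    calc 2 = 2 ^ 1 := by norm_num
      _ ≤ 2 ^ (k - 1) := Nat.pow_le_pow_right (by norm_num) (by omega)
  have hωh : ω ^ (2 ^ (k - 1)) = -1 := by
    have h5 : (ω ^ (2 ^ (k - 1))) ^ 2 = 1 := by
      rw [← pow_mul, mul_comm _ 2, ← e2, hω.pow_eq_one]
    have h6 : ω ^ (2 ^ (k - 1)) ≠ 1 := fun h' => by
      have h7 := (hω.pow_eq_one_iff_dvd _).1 h'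
      have := Nat.le_of_dvd (by omega) h7
      omega
    have h7 : (ω ^ (2 ^ (k - 1)) - 1) * (ω ^ (2 ^ (k - 1)) + 1) = 0 := by linear_combination h5
    rcases mul_eq_zero.1 h7 with h8 | h8
    · exact absurd (sub_eq_zero.1 h8) h6
    · exact eq_neg_of_add_eq_zero_left h8
  have hαs : (α : ℂ) * α = 1 := by rcases hα with rfl | rfl <;> simp
  -- identification of `χ₁`
  have hid : χ₁ = a ∧ δ₁ = -α := by
    have hl1 : 1 < 2 ^ k := by omega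
    have hl2 : 2 < 2 ^ k := by omega
    rcases hall χ₁ hχ₁ with h3 | h3 | h3 | h3 | ⟨i, h3⟩
    · exfalso
      apply h1
      rw [h3]
      rfl
    · refine ⟨h3, ?_⟩
      have h4 := hval 1 (by norm_num) hl1
      rw [h3, (hv 1 (by norm_num) hl1).1] at h4
      have h5 : ((δ₁ : ℤ) : ℂ) = ((-α : ℤ) : ℂ) := by
        push_cast
        exact h4.symm
      exact_mod_cast h5
    · exfalso
      have h4 := hval 1 (by norm_num) hl1
      have h5 := hval 2 (by norm_num) hl2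
      rw [h3, (hv 1 (by norm_num) hl1).2.1, pow_one] at h4
      rw [h3, (hv 2 (by norm_num) hl2).2.1, show ((-1 : ℂ)) ^ 2 = 1 by norm_num, mul_one] at h5
      have h6 : (γ₂ : ℂ) = 0 := by
        have h7 : (2 : ℂ) * γ₂ = 0 := by linear_combination h5 - h4
        exact (mul_eq_zero.1 h7).resolve_left two_ne_zero
      rcases hγ₂ with rfl | rfl <;> simp at h6
    · exfalso
      have h4 := hval 1 (by norm_num) hl1
      have h5 := hval 2 (by norm_num) hl2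
      rw [h3, (hv 1 (by norm_num) hl1).2.2.1, pow_one] at h4
      rw [h3, (hv 2 (by norm_num) hl2).2.2.1, show ((-1 : ℂ)) ^ 2 = 1 by norm_num, mul_one] at h5
      have h6 : (γ₃ : ℂ) = 0 := by
        have h7 : (2 : ℂ) * γ₃ = 0 := by linear_combination h5 - h4
        exact (mul_eq_zero.1 h7).resolve_left two_ne_zero
      rcases hγ₃ with rfl | rfl <;> simp at h6
    · exfalso
      have hh0 : 0 < 2 ^ (k - 1) := by omega
      have hhN : 2 ^ (k - 1) < 2 ^ k := by omega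
      have h4 := hval _ hh0 hhN
      rw [h3, (hv _ hh0 hhN).2.2.2 i] at h4
      have e3 : ω ^ (((i : ℕ) + 1) * 2 ^ (k - 1)) = (-1) ^ ((i : ℕ) + 1) := by
        rw [mul_comm, pow_mul, hωh]
      rw [e3] at h4
      rcases Nat.even_or_odd ((i : ℕ) + 1) with h5 | h5
      · rw [h5.neg_one_pow] at h4
        have h6 : ((δ₁ : ℤ) : ℂ) = ((-(2 * α) : ℤ) : ℂ) := by
          push_cast
          rw [← h4]
          norm_num
          ring
        have h7 : δ₁ = -(2 * α) := by exact_mod_cast h6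
        rcases hδ₁ with rfl | rfl <;> omega
      · rw [h5.neg_one_pow] at h4
        have h6 : ((δ₁ : ℤ) : ℂ) = ((2 * α : ℤ) : ℂ) := by
          push_cast
          rw [← h4]
          norm_num
          ring
        have h7 : δ₁ = 2 * α := by exact_mod_cast h6
        rcases hδ₁ with rfl | rfl <;> omega
  obtain ⟨rfl, rfl⟩ := hid
  have hh1 : 0 < 2 ^ (k - 1) - 1 := by omega
  obtain ⟨b₀, hb₀⟩ : ∃ b₀, b₀ = b ⟨0, hh1⟩ := ⟨_, rfl⟩
  have hb₀B : b₀ ∈ principalBlock M G := by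
    rw [hb₀]
    exact (hb _).1
  have hrel₀ : ∀ ρ : G, ¬ 2 ∣ orderOf ρ → (α : ℂ) * ((χ₁ : G → ℂ) ρ - (b₀ : G → ℂ) ρ) = 1 := by
    intro ρ hρ
    rw [hb₀]
    exact (hrel ρ hρ).1 _
  have hv₀ : ∀ l, 0 < l → l < 2 ^ k → (χ₁ : G → ℂ) (σ ^ l) = -(α : ℂ) ∧
      (b₀ : G → ℂ) (σ ^ l) = -(α : ℂ) * (ω ^ l + (ω ^ l)⁻¹) := by
    intro l h0 hl
    obtain ⟨v1, _, _, v4⟩ := hv l h0 hl
    refine ⟨v1, ?_⟩
    have v5 := v4 ⟨0, hh1⟩
    rw [hb₀, v5]
    simp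
  exact D.order_formula_aux hM hconj1 hconj2 hω hωh hαs χ₁ ha.1 b₀ hb₀B hrel₀ hv₀

end DihData

end Main

end Cfsg.Agent.Lib.FF
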