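import Cfsg.Agent.Lib.FF.KP4

/-!
# Groups whose order is divisible exactly once by `p`: local structure at an element of order `p`
-/

set_option autoImplicit false
set_option linter.unusedSectionVars false
set_option linter.unusedVariables false
set_option maxSynthPendingDepth 3
set_option linter.style.haveILetI false
set_option linter.unusedSimpArgs false
set_option linter.unnecessarySimpa false

open scoped ComplexConjugate Pointwise
open Module Cfsg Cfsg.Agent.Lib.Block Cfsg.Agent.Lib.Char Cfsg.Agent.Lib.CharExtra Cfsg.Agent.Lib.BPair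

namespace Cfsg.Agent.Lib.FF

attribute [local instance] Cfsg.Agent.Lib.BPair.subFintype

section FT

variable {G : Type*} [Group G] [Fintype G] {p : ℕ} [hp : Fact p.Prime] {x : G}

theorem ft_not_sq (hX : (Nat.card G).factorization p = 1) : ¬ p ^ 2 ∣ Nat.card G := by
  intro h
  have h1 := (hp.out.pow_dvd_iff_le_factorization (Nat.card_pos (α := G)).ne').1 h
  omega

theorem ft_isP_zp {y : G} (hy : orderOf y = p) : IsPGroup p (Subgroup.zpowers y) := by
  apply IsPGroup.of_card (n := 1)
  rw [Nat.card_zpowers, hy, pow_one]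

theorem ft_mem_zpowers (hX : (Nat.card G).factorization p = 1) (hx : orderOf x = p) {y : G} (hy : orderOf y = p)
    (hc : y * x = x * y) : y ∈ Subgroup.zpowers x := by
  have h1 : Subgroup.zpowers y ≤ Subgroup.normalizer ((Subgroup.zpowers x : Subgroup G) : Set G) := by
    intro z hz
    obtain ⟨k, rfl⟩ := Subgroup.mem_zpowers_iff.1 hz
    rw [Subgroup.mem_normalizer_iff]
    intro w
    constructor
    · rintro hw
      obtain ⟨l, rfl⟩ := Subgroup.mem_zpowers_iff.1 hw
      have h2 : Commute (y ^ k) (x ^ l) := (Commute.zpow_zpow hc k l)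
      rw [h2.eq, mul_inv_cancel_right]
      exact hw
    · rintro hw
      obtain ⟨l, hl⟩ := Subgroup.mem_zpowers_iff.1 hw
      have h2 : Commute (y ^ k) (x ^ l) := (Commute.zpow_zpow hc k l)
      have h3 : w = x ^ l := by
        have h4 : y ^ k * w = x ^ l * y ^ k := by
          rw [hl]
          group
        have h4' : y ^ k * w = y ^ k * x ^ l := by
          rw [h4, h2.eq]
        exact mul_left_cancel h4'
      rw [h3]
      exact Subgroup.zpow_mem_zpowers x l
  have h2 := IsPGroup.to_sup_of_normal_right' (ft_isP_zp hy) (ft_isP_zp hx) h1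
  obtain ⟨n, hn⟩ := IsPGroup.iff_card.1 h2
  have h3 : Nat.card (Subgroup.zpowers y ⊔ Subgroup.zpowers x : Subgroup G) ∣ Nat.card G := Subgroup.card_subgroup_dvd_card _
  have h4 : n ≤ 1 := by
    by_contra h5
    apply ft_not_sq hX
    have h6 : p ^ 2 ∣ p ^ n := pow_dvd_pow p (by omega)
    rw [← hn] at h6
    exact h6.trans h3
  have h5 : Subgroup.zpowers x ≤ Subgroup.zpowers y ⊔ Subgroup.zpowers x := le_sup_right
  have h6 : Subgroup.zpowers x = Subgroup.zpowers y ⊔ Subgroup.zpowers x := by
    apply Subgroup.eq_of_le_of_card_ge h5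
    rw [Nat.card_zpowers, hx, hn]
    calc p ^ n ≤ p ^ 1 := Nat.pow_le_pow_right hp.out.pos h4
      _ = p := pow_one p
  rw [h6]
  exact Subgroup.mem_sup_left (Subgroup.mem_zpowers y)

theorem ft_zp_eq (hx : orderOf x = p) {y : G} (hy : orderOf y = p) (h : y ∈ Subgroup.zpowers x) :
    Subgroup.zpowers y = Subgroup.zpowers x := by
  apply Subgroup.eq_of_le_of_card_ge
  · exact (Subgroup.zpowers_le).2 h
  · rw [Nat.card_zpowers, Nat.card_zpowers, hx, hy]

/-- A singular element has a power generating a subgroup of order `p`. -/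
theorem ft_pow_order (hX : (Nat.card G).factorization p = 1) {c : G} (hc : p ∣ orderOf c) :
    orderOf (c ^ (orderOf c / p)) = p ∧ ¬ p ∣ orderOf c / p := by
  have h0 : orderOf c ≠ 0 := (orderOf_pos c).ne'
  have hd : orderOf c / p ∣ orderOf c := Nat.div_dvd_of_dvd hc
  have hm0 : orderOf c / p ≠ 0 := by
    intro h
    have := Nat.div_mul_cancel hc
    rw [h, zero_mul] at this
    exact h0 this.symm
  constructor
  · rw [orderOf_pow_of_dvd hm0 hd]
    exact Nat.div_div_self hc h0
  · intro h
    apply ft_not_sq hX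
    have h1 : p * p ∣ orderOf c := by
      have h2 := Nat.mul_dvd_mul_left p h
      rwa [Nat.mul_div_cancel' hc] at h2
    rw [pow_two]
    exact h1.trans (orderOf_dvd_natCard c)

/-- If conjugation by `g` sends `x` into its cyclic group then `g` normalizes it. -/
theorem ft_mem_norm (hx : orderOf x = p) {g : G} (h : g⁻¹ * x * g ∈ Subgroup.zpowers x) :
    g ∈ Subgroup.normalizer ((Subgroup.zpowers x : Subgroup G) : Set G) := by
  have h1 : orderOf (g⁻¹ * x * g) = p := by
    have := MulEquiv.orderOf_eq (MulAut.conj g⁻¹) x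
    simpa [hx] using this
  have h2 := ft_zp_eq hx h1 h
  have h5 : ∀ l : ℤ, (g⁻¹ * x * g) ^ l = g⁻¹ * x ^ l * g := by
    intro l
    have := conj_zpow (a := g⁻¹) (b := x) (i := l)
    simpa using this
  rw [Subgroup.mem_normalizer_iff]
  intro w
  constructor
  · intro hw
    have hw' : w ∈ Subgroup.zpowers (g⁻¹ * x * g) := by
      rw [h2]
      exact hw
    obtain ⟨l, rfl⟩ := Subgroup.mem_zpowers_iff.1 hw'
    rw [h5]
    have : g * (g⁻¹ * x ^ l * g) * g⁻¹ = x ^ l := by group
    rw [this]
    exact Subgroup.zpow_mem_zpowers x l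
  · intro hw
    obtain ⟨l, hl⟩ := Subgroup.mem_zpowers_iff.1 hw
    have h6 : w = (g⁻¹ * x * g) ^ l := by
      rw [h5, hl]
      group
    rw [h6]
    rw [← h2]
    exact Subgroup.zpow_mem_zpowers _ l

/-- Centralizer membership. -/
theorem ft_mem_cen {c : G} : c ∈ Cen (Subgroup.zpowers x) ↔ c * x = x * c := by
  rw [Subgroup.mem_centralizer_iff]
  constructor
  · intro h
    exact (h x (Subgroup.mem_zpowers x)).symm
  · intro h z hz
    obtain ⟨k, rfl⟩ := Subgroup.mem_zpowers_iff.1 hz
    exact (Commute.zpow_right h k).eq.symm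

theorem ft_cen_eq : Cen (Subgroup.zpowers x) = Subgroup.centralizer ({x} : Set G) := by
  ext c
  rw [ft_mem_cen, Subgroup.mem_centralizer_singleton_iff]

/-- The trivial intersection property of the singular elements of the centralizer. -/
theorem ft_ti (hX : (Nat.card G).factorization p = 1) (hx : orderOf x = p) {c g : G} (hc : c * x = x * c) (hs : p ∣ orderOf c)
    (hg : (g⁻¹ * c * g) * x = x * (g⁻¹ * c * g)) :
    g ∈ Subgroup.normalizer ((Subgroup.zpowers x : Subgroup G) : Set G) := by
  obtain ⟨h1, -⟩ := ft_pow_order hX hs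
  have hord : orderOf (g⁻¹ * c * g) = orderOf c := by
    have := MulEquiv.orderOf_eq (MulAut.conj g⁻¹) c
    simpa using this
  have hs' : p ∣ orderOf (g⁻¹ * c * g) := hord ▸ hs
  obtain ⟨h2, -⟩ := ft_pow_order hX hs'
  rw [hord] at h2
  have h3 : (c ^ (orderOf c / p)) * x = x * (c ^ (orderOf c / p)) := (Commute.pow_left hc _).eq
  have h4 := ft_mem_zpowers hX hx h1 h3
  have h5 : (g⁻¹ * c * g) ^ (orderOf c / p) * x = x * (g⁻¹ * c * g) ^ (orderOf c / p) := (Commute.pow_left hg _).eq
  have h6 := ft_mem_zpowers hX hx h2 h5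
  have h7 := ft_zp_eq hx h1 h4
  have h8 : x ∈ Subgroup.zpowers (c ^ (orderOf c / p)) := by
    rw [h7]
    exact Subgroup.mem_zpowers x
  obtain ⟨k, hk⟩ := Subgroup.mem_zpowers_iff.1 h8
  apply ft_mem_norm hx
  have h9 : (g⁻¹ * c * g) ^ (orderOf c / p) = g⁻¹ * c ^ (orderOf c / p) * g := by
    have := conj_pow (a := g⁻¹) (b := c) (i := orderOf c / p)
    simpa using this
  rw [h9] at h6
  have h10 : g⁻¹ * x * g = (g⁻¹ * c ^ (orderOf c / p) * g) ^ k := by
    have := conj_zpow (a := g⁻¹) (b := c ^ (orderOf c / p)) (i := k)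
    rw [inv_inv] at this
    rw [this, hk]
  rw [h10]
  exact Subgroup.zpow_mem _ h6 k

/-- Every singular element is conjugate into the centralizer. -/
theorem ft_exists_conj (hX : (Nat.card G).factorization p = 1) (hx : orderOf x = p) {y : G} (hs : p ∣ orderOf y) :
    ∃ h : G, (h⁻¹ * y * h) * x = x * (h⁻¹ * y * h) := by
  classical
  obtain ⟨h1, -⟩ := ft_pow_order hX hs
  obtain ⟨P, hP⟩ := IsPGroup.exists_le_sylow (ft_isP_zp hx)
  obtain ⟨Q, hQ⟩ := IsPGroup.exists_le_sylow (ft_isP_zp h1)
  have hcP : Nat.card (P : Subgroup G) = p := by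
    rw [Sylow.card_eq_multiplicity, hX, pow_one]
  have hcQ : Nat.card (Q : Subgroup G) = p := by
    rw [Sylow.card_eq_multiplicity, hX, pow_one]
  have hPe : Subgroup.zpowers x = (P : Subgroup G) := by
    apply Subgroup.eq_of_le_of_card_ge hP
    rw [hcP, Nat.card_zpowers, hx]
  have hQe : Subgroup.zpowers (y ^ (orderOf y / p)) = (Q : Subgroup G) := by
    apply Subgroup.eq_of_le_of_card_ge hQ
    rw [hcQ, Nat.card_zpowers, h1]
  obtain ⟨h, hh⟩ := MulAction.exists_smul_eq G P Q
  have h2 : y ^ (orderOf y / p) ∈ (h • P : Sylow p G) := by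
    rw [hh]
    exact hQ (Subgroup.mem_zpowers _)
  have h3 : (h⁻¹ * y * h) ^ (orderOf y / p) ∈ (P : Subgroup G) := by
    have h4 : y ^ (orderOf y / p) ∈ MulAut.conj h • (P : Subgroup G) := h2
    have h5 := Subgroup.mem_pointwise_smul_iff_inv_smul_mem.1 h4
    simpa [MulAut.smul_def, MulAut.conj_inv_apply] using h5
  rw [← hPe] at h3
  have h6 : (h⁻¹ * y * h) ^ (orderOf y / p) = h⁻¹ * y ^ (orderOf y / p) * h := by
    have := conj_pow (a := h⁻¹) (b := y) (i := orderOf y / p)
    simpa using this
  have h7 : orderOf ((h⁻¹ * y * h) ^ (orderOf y / p)) = p := by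
    rw [h6]
    have := MulEquiv.orderOf_eq (MulAut.conj h⁻¹) (y ^ (orderOf y / p))
    simpa [h1] using this
  have h8 := ft_zp_eq hx h7 h3
  have h9 : x ∈ Subgroup.zpowers ((h⁻¹ * y * h) ^ (orderOf y / p)) := by
    rw [h8]
    exact Subgroup.mem_zpowers x
  obtain ⟨k, hk⟩ := Subgroup.mem_zpowers_iff.1 h9
  refine ⟨h, ?_⟩
  rw [← hk]
  exact (Commute.zpow_right (Commute.pow_right (Commute.refl _) _) k).eq

/-- Conjugation of functions on the centralizer. -/
noncomputable def cjF (x g : G) (f : Cen (Subgroup.zpowers x) → ℂ) : Cen (Subgroup.zpowers x) → ℂ :=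
  fun c => extendByZero (Cen (Subgroup.zpowers x)) f (g⁻¹ * c * g)

theorem ft_conj_mem {g : G} (hg : g ∈ Subgroup.normalizer ((Subgroup.zpowers x : Subgroup G) : Set G)) (c : Cen (Subgroup.zpowers x)) :
    g⁻¹ * (c : G) * g ∈ Cen (Subgroup.zpowers x) := by
  have h := normalizer_le_normalizer_cen hg
  have h2 := (Subgroup.mem_normalizer_iff.1 ((Subgroup.normalizer ((Cen (Subgroup.zpowers x) : Subgroup G) : Set G)).inv_mem h) c).1 c.2
  simpa using h2

theorem cjF_apply {g : G} (hg : g ∈ Subgroup.normalizer ((Subgroup.zpowers x : Subgroup G) : Set G))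
    (f : Cen (Subgroup.zpowers x) → ℂ) (c : Cen (Subgroup.zpowers x)) :
    cjF x g f c = f ⟨g⁻¹ * c * g, ft_conj_mem hg c⟩ := by
  unfold cjF
  exact extendByZero_of_mem _ _ (ft_conj_mem hg c)

theorem cjF_irr {g : G} (hg : g ∈ Subgroup.normalizer ((Subgroup.zpowers x : Subgroup G) : Set G))
    (ξ : IrrCharacter (Cen (Subgroup.zpowers x))) :
    cjF x g (ξ : Cen (Subgroup.zpowers x) → ℂ) = (mapIrr (nConj (normalizer_le_normalizer_cen hg)) ξ : Cen (Subgroup.zpowers x) → ℂ) := by
  funext c
  rw [cjF_apply hg, mapIrr_apply']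
  rfl

theorem cjF_sub (g : G) (f f' : Cen (Subgroup.zpowers x) → ℂ) (hg : g ∈ Subgroup.normalizer ((Subgroup.zpowers x : Subgroup G) : Set G)) :
    cjF x g (f - f') = cjF x g f - cjF x g f' := by
  funext c
  simp only [Pi.sub_apply, cjF_apply hg]

open Classical in
theorem ft_ind_res (hX : (Nat.card G).factorization p = 1) (hx : orderOf x = p) (f : Cen (Subgroup.zpowers x) → ℂ)
    (hf : ∀ c : Cen (Subgroup.zpowers x), ¬ p ∣ orderOf c → f c = 0) (c : Cen (Subgroup.zpowers x)) :
    indFun (Cen (Subgroup.zpowers x)) f c = (Nat.card (Cen (Subgroup.zpowers x)) : ℂ)⁻¹ *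
      ∑ g : G, if g ∈ Subgroup.normalizer ((Subgroup.zpowers x : Subgroup G) : Set G) then cjF x g f c else 0 := by
  classical
  rw [indFun_apply]
  congr 1
  refine Finset.sum_congr rfl fun g _ => ?_
  split_ifs with hg
  · rfl
  · by_cases hm : g⁻¹ * (c : G) * g ∈ Cen (Subgroup.zpowers x)
    · rw [extendByZero_of_mem _ _ hm]
      apply hf
      rw [← Subgroup.orderOf_coe]
      show ¬ p ∣ orderOf (g⁻¹ * (c : G) * g)
      intro hs
      have hord : orderOf (g⁻¹ * (c : G) * g) = orderOf (c : G) := by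
        have := MulEquiv.orderOf_eq (MulAut.conj g⁻¹) (c : G)
        simpa using this
      rw [hord] at hs
      exact hg (ft_ti hX hx (ft_mem_cen.1 c.2) hs (ft_mem_cen.1 hm))
    · exact extendByZero_of_not_mem _ _ hm

open Classical in
/-- The inner product of two induced functions. -/
theorem ft_inner_ind (hX : (Nat.card G).factorization p = 1) (hx : orderOf x = p) (f f' : Cen (Subgroup.zpowers x) → ℂ)
    (hf' : ∀ c : Cen (Subgroup.zpowers x), ¬ p ∣ orderOf c → f' c = 0) :
    classInner (indFun (Cen (Subgroup.zpowers x)) f) (indFun (Cen (Subgroup.zpowers x)) f') =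
      (Nat.card (Cen (Subgroup.zpowers x)) : ℂ)⁻¹ *
      ∑ g : G, if g ∈ Subgroup.normalizer ((Subgroup.zpowers x : Subgroup G) : Set G) then classInner f (cjF x g f') else 0 := by
  classical
  rw [frobenius_reciprocity _ f _ (indFun_isClassFunction _ f')]
  have h1 : (fun c : Cen (Subgroup.zpowers x) => indFun (Cen (Subgroup.zpowers x)) f' c) =
      ((Nat.card (Cen (Subgroup.zpowers x)) : ℂ)⁻¹) • ∑ g : G, if g ∈ Subgroup.normalizer ((Subgroup.zpowers x : Subgroup G) : Set G) then cjF x g f' else 0 := by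
    funext c
    rw [ft_ind_res hX hx f' hf' c]
    simp only [Pi.smul_apply, Finset.sum_apply, smul_eq_mul]
    congr 1
    refine Finset.sum_congr rfl fun g _ => ?_
    split_ifs <;> rfl
  rw [h1, classInner_smul_right, classInner_sum_right]
  simp only [map_inv₀, Complex.conj_natCast]
  congr 1
  refine Finset.sum_congr rfl fun g _ => ?_
  split_ifs
  · rfl
  · rw [classInner_def]
    simp

open Classical in
/-- Conjugation preserves class functions restricted. -/
theorem ft_sum_N (u : G → ℂ) (hu : IsClassFunction G u) (c : Cen (Subgroup.zpowers x)) :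
    (∑ g : G, if g ∈ Subgroup.normalizer ((Subgroup.zpowers x : Subgroup G) : Set G) then cjF x g (fun c => u c) c else 0) =
      (Nat.card (Subgroup.normalizer ((Subgroup.zpowers x : Subgroup G) : Set G)) : ℂ) * u c := by
  classical
  have h1 : ∀ g : G, (if g ∈ Subgroup.normalizer ((Subgroup.zpowers x : Subgroup G) : Set G) then cjF x g (fun c => u c) c else 0) =
      if g ∈ Subgroup.normalizer ((Subgroup.zpowers x : Subgroup G) : Set G) then u c else 0 := by
    intro g
    split_ifs with hg
    · rw [cjF_apply hg]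
      have := hu (c : G) g⁻¹
      simpa using this
    · rfl
  simp only [h1]
  rw [← Finset.sum_filter, Finset.sum_const, nsmul_eq_mul]
  congr 2
  rw [Nat.card_eq_fintype_card, Fintype.card_subtype]

/-- Every class function vanishing on the regular elements is determined by its restriction to the centralizer. -/
theorem ft_ind_eq (hX : (Nat.card G).factorization p = 1) (hx : orderOf x = p) (u : G → ℂ) (hu : IsClassFunction G u)
    (hreg : ∀ g, ¬ p ∣ orderOf g → u g = 0) {q : ℕ}
    (hq : Nat.card (Subgroup.normalizer ((Subgroup.zpowers x : Subgroup G) : Set G)) = q * Nat.card (Cen (Subgroup.zpowers x))) :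
    indFun (Cen (Subgroup.zpowers x)) (fun c => u c) = (q : ℂ) • u := by
  classical
  have hC0 : (Nat.card (Cen (Subgroup.zpowers x)) : ℂ) ≠ 0 := by
    exact_mod_cast (Nat.card_pos (α := Cen (Subgroup.zpowers x))).ne'
  have hres : ∀ c : Cen (Subgroup.zpowers x), ¬ p ∣ orderOf c → (fun c : Cen (Subgroup.zpowers x) => u c) c = 0 := by
    intro c hc
    apply hreg
    rw [Subgroup.orderOf_coe]
    exact hc
  funext y
  simp only [Pi.smul_apply, smul_eq_mul]
  by_cases hs : p ∣ orderOf y
  · obtain ⟨h, hh⟩ := ft_exists_conj hX hx hs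
    obtain ⟨c, hc⟩ : ∃ c : Cen (Subgroup.zpowers x), (c : G) = h⁻¹ * y * h := ⟨⟨_, ft_mem_cen.2 hh⟩, rfl⟩
    have h1 : indFun (Cen (Subgroup.zpowers x)) (fun c => u c) y = indFun (Cen (Subgroup.zpowers x)) (fun c => u c) c := by
      rw [hc]
      have := indFun_isClassFunction (Cen (Subgroup.zpowers x)) (fun c => u c) y h⁻¹
      simpa using this.symm
    have h2 : u y = u c := by
      rw [hc]
      have := hu y h⁻¹
      simpa using this.symm
    rw [h1, h2, ft_ind_res hX hx _ hres c, ft_sum_N u hu c, hq]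
    push_cast
    field_simp
  · rw [hreg y hs, mul_zero, indFun_apply]
    apply mul_eq_zero_of_right
    refine Finset.sum_eq_zero fun g _ => ?_
    by_cases hm : g⁻¹ * y * g ∈ Cen (Subgroup.zpowers x)
    · rw [extendByZero_of_mem _ _ hm]
      apply hreg
      have hord : orderOf (g⁻¹ * y * g) = orderOf y := by
        have := MulEquiv.orderOf_eq (MulAut.conj g⁻¹) y
        simpa using this
      show ¬ p ∣ orderOf (g⁻¹ * y * g)
      rwa [hord]
    · exact extendByZero_of_not_mem _ _ hm

/-- The averaging formula: class functions vanishing on the regular elements. -/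
theorem ft_T1 (hX : (Nat.card G).factorization p = 1) (hx : orderOf x = p) (u : G → ℂ) (hu : IsClassFunction G u)
    (hreg : ∀ g, ¬ p ∣ orderOf g → u g = 0) {q : ℕ} (hq0 : q ≠ 0)
    (hq : Nat.card (Subgroup.normalizer ((Subgroup.zpowers x : Subgroup G) : Set G)) = q * Nat.card (Cen (Subgroup.zpowers x))) :
    (q : ℂ) * ((Nat.card G : ℂ)⁻¹ * ∑ g : G, u g) = (Nat.card (Cen (Subgroup.zpowers x)) : ℂ)⁻¹ * ∑ c : Cen (Subgroup.zpowers x), u c := by
  have h1 := ft_ind_eq hX hx u hu hreg hq
  have h2 := frobenius_reciprocity (Cen (Subgroup.zpowers x)) (fun c => u c) (fun _ => (1 : ℂ)) (fun _ _ => rfl)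
  rw [h1, classInner_smul_left, classInner_def, classInner_def] at h2
  simp at h2
  simpa using h2

/-- The same for inner products. -/
theorem ft_T1_inner (hX : (Nat.card G).factorization p = 1) (hx : orderOf x = p) (f h : G → ℂ) (hf : IsClassFunction G f)
    (hh : IsClassFunction G h) (hreg : ∀ g, ¬ p ∣ orderOf g → f g = 0) {q : ℕ} (hq0 : q ≠ 0)
    (hq : Nat.card (Subgroup.normalizer ((Subgroup.zpowers x : Subgroup G) : Set G)) = q * Nat.card (Cen (Subgroup.zpowers x))) :
    (q : ℂ) * classInner f h = classInner (fun c : Cen (Subgroup.zpowers x) => f c) (fun c : Cen (Subgroup.zpowers x) => h c) := by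
  have h1 := ft_T1 hX hx (fun g => f g * conj (h g)) (by
    intro a b
    beta_reduce
    rw [hf a b, hh a b]) (by
    intro g hg
    beta_reduce
    rw [hreg g hg, zero_mul]) hq0 hq
  rw [classInner_def, classInner_def]
  exact h1

end FT

end Cfsg.Agent.Lib.FF
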