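import Cfsg.Agent.Lib.FF.FT9
import Cfsg.Agent.Lib.Degree.Cod
import Cfsg.Agent.Lib.Degree.Linear
import Cfsg.Agent.Lib.Char.DefectZero
import Cfsg.Agent.Lib.CharExtra.SmallFaith

/-!
# Groups whose order is divisible exactly once by `p`: local structure at an element of order `p`
-/

set_option autoImplicit false
set_option linter.unusedSectionVars false
set_option linter.unusedVariables false
set_option maxSynthPendingDepth 3
set_option linter.style.haveILetI false
set_option linter.unusedSimpArgs false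
set_option linter.unnecessarySimpa false

open scoped ComplexConjugate Pointwise
open Module Cfsg Cfsg.Agent.Lib.Block Cfsg.Agent.Lib.Char Cfsg.Agent.Lib.CharExtra Cfsg.Agent.Lib.BPair

namespace Cfsg.Agent.Lib.FF

attribute [local instance] Cfsg.Agent.Lib.BPair.subFintype


universe u

section FT10

open Cfsg.Agent.Lib.Degree

variable {G : Type u} [Group G] [Fintype G] {p : ℕ} [hp : Fact p.Prime] {x : G} {μ : Cen (Subgroup.zpowers x) →* ℂˣ}

local notation "CX" => Cen (Subgroup.zpowers x)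
local notation "NX" => Subgroup.normalizer ((Subgroup.zpowers x : Subgroup G) : Set G)

theorem LD.comm_of_norm (L : LD p x μ) {y : G} (hy : y ^ p = 1) (hn : y ∈ NX) : y * x = x * y := by
  have h1 : ∀ n : ℕ, sF x (y ^ n) p = (sF x y p) ^ n := by
    intro n
    induction n with
    | zero =>
      rw [pow_zero, pow_zero]
      exact L.sF_one
    | succ n ih => rw [pow_succ, L.sF_mul (Subgroup.pow_mem _ hn n) hn, ih, pow_succ]
  have h2 := h1 p
  rw [hy, L.sF_one, ZMod.pow_card] at h2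
  exact ft_mem_cen.1 ((L.sF_eq_one_iff hn).1 h2.symm)

theorem ft_step_irr (hX : (Nat.card G).factorization p = 1) (hx : orderOf x = p)
    (IH : ∀ K : Subgroup G, K ≠ ⊤ → ∀ y : K, orderOf y = p → ∀ ψ : K → ℂ, IsCharacter K ψ → (∀ g, ψ g = ψ 1 → g = 1) →
      2 * charDegree ψ + 1 < p → ∀ k : K, k⁻¹ * y * k ∈ Subgroup.zpowers y)
    (ζ : IrrCharacter G) (hfaith : ∀ g, (ζ : G → ℂ) g = (ζ : G → ℂ) 1 → g = 1) (hdeg : 2 * charDegree (ζ : G → ℂ) + 1 < p) (g : G) :
    g⁻¹ * x * g ∈ Subgroup.zpowers x := by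
  classical
  obtain ⟨μ, L⟩ := exists_LD hX hx
  obtain ⟨M, hM⟩ := Cfsg.Agent.Lib.Char.exists_isPModular p hp.out
  have hcen : x ∈ Subgroup.center G → g⁻¹ * x * g ∈ Subgroup.zpowers x := by
    intro h
    have h1 : g⁻¹ * x * g = x := by
      have h2 := (Subgroup.mem_center_iff.1 h) g
      rw [mul_assoc, ← h2]
      group
    rw [h1]
    exact Subgroup.mem_zpowers x
  by_cases hperf : ∀ χ : IrrCharacter G, charDegree (χ : G → ℂ) = 1 → χ = oneIrr G
  · exact hcen (L.irr_main hM ζ hfaith hdeg (Or.inl hperf))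
  push Not at hperf
  obtain ⟨l, hl1, hlne⟩ := hperf
  have hl1' : (l : G → ℂ) 1 = 1 := by
    rw [map_one_eq_charDegree (IsIrrCharacter.isCharacter l.2), hl1]
    simp
  have hmul : ∀ a b, (l : G → ℂ) (a * b) = (l : G → ℂ) a * (l : G → ℂ) b := irr_linear_mul l hl1'
  have hlc := IsIrrCharacter.isCharacter l.2
  have hlcf : IsClassFunction G (l : G → ℂ) := IsCharacter.isClassFunction hlc
  by_cases hlx : (l : G → ℂ) x = 1
  · obtain ⟨K, hK⟩ : ∃ K, K = kerOf (l : G → ℂ) := ⟨_, rfl⟩
    have hKn : K.Normal := by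
      rw [hK]
      exact kerOf_normal hlcf
    have hmem : ∀ a, a ∈ K ↔ (l : G → ℂ) a = 1 := by
      intro a
      rw [hK, mem_kerOf_iff hlc, hl1']
    have hKtop : K ≠ ⊤ := by
      intro h
      apply hlne
      apply Subtype.ext
      funext a
      rw [(hmem a).1 (by rw [h]; trivial)]
      rfl
    have hxK : x ∈ K := (hmem x).2 hlx
    have hyK : g⁻¹ * x * g ∈ K := by
      have h2 := hKn.conj_mem x hxK g⁻¹
      simpa using h2
    have hordx : orderOf (⟨x, hxK⟩ : K) = p := by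
      rw [Subgroup.orderOf_mk]
      exact hx
    have h1 := IH K hKtop ⟨x, hxK⟩ hordx (fun k => (ζ : G → ℂ) k) (IsCharacter.restrict K (IsIrrCharacter.isCharacter ζ.2))
      (fun k hk => Subtype.ext (hfaith k (by simpa using hk))) hdeg ⟨g⁻¹ * x * g, hyK⟩
    have h2 : (g⁻¹ * x * g)⁻¹ * x * (g⁻¹ * x * g) ∈ Subgroup.zpowers x := by
      obtain ⟨n, hn⟩ := Subgroup.mem_zpowers_iff.1 h1
      refine Subgroup.mem_zpowers_iff.2 ⟨n, ?_⟩
      have h3 := congrArg Subtype.val hn
      simpa using h3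
    have hyn := ft_mem_norm hx h2
    have hordy : orderOf (g⁻¹ * x * g) = p := by
      have h3 : g⁻¹ * x * g = g⁻¹ * x * g⁻¹⁻¹ := by group
      rw [h3, orderOf_conj, hx]
    have hyp : (g⁻¹ * x * g) ^ p = 1 := by
      rw [← hordy]
      exact pow_orderOf_eq_one _
    exact ft_mem_zpowers hX hx hordy (L.comm_of_norm hyp hyn)
  · have hpow : ∀ (a : G) (k : ℕ), (l : G → ℂ) (a ^ k) = (l : G → ℂ) a ^ k := fun a k => map_pow (linearHom l hl1') a k
    have hNC : NX ≤ CX := by
      intro n hn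
      have h1 := L.sF_spec hn
      have h2 : (l : G → ℂ) (n⁻¹ * x * n) = (l : G → ℂ) x := by
        have h3 : n⁻¹ * x * n = n⁻¹ * x * n⁻¹⁻¹ := by group
        rw [h3]
        exact hlcf x n⁻¹
      rw [h1, hpow] at h2
      have h3 : (l : G → ℂ) x ^ p = 1 := by
        rw [← hpow, ← hx, pow_orderOf_eq_one]
        exact hl1'
      have h4 : orderOf ((l : G → ℂ) x) = p := orderOf_eq_prime h3 hlx
      have h5 : IsPrimitiveRoot ((l : G → ℂ) x) p := h4 ▸ IsPrimitiveRoot.orderOf _
      have h6 := h5.pow_inj (ZMod.val_lt (sF x n p)) hp.out.one_lt (by rw [h2, pow_one])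
      have h7 : sF x n p = 1 := by
        haveI : Fact (1 < p) := ⟨hp.out.one_lt⟩
        apply ZMod.val_injective
        rw [h6, ZMod.val_one]
      exact (L.sF_eq_one_iff hn).1 h7
    exact hcen (L.irr_main hM ζ hfaith hdeg (Or.inr hNC))

theorem ft_step_gen (hX : (Nat.card G).factorization p = 1) (hx : orderOf x = p)
    (hirr : ∀ ζ : IrrCharacter G, (∀ g, (ζ : G → ℂ) g = (ζ : G → ℂ) 1 → g = 1) → 2 * charDegree (ζ : G → ℂ) + 1 < p → ∀ g, g⁻¹ * x * g ∈ Subgroup.zpowers x)
    (IQ : ∀ (K : Subgroup G) [K.Normal], K ≠ ⊥ → ∀ y : G ⧸ K, orderOf y = p → ∀ ψ : G ⧸ K → ℂ, IsCharacter (G ⧸ K) ψ → (∀ g, ψ g = ψ 1 → g = 1) →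
      2 * charDegree ψ + 1 < p → ∀ k : G ⧸ K, k⁻¹ * y * k ∈ Subgroup.zpowers y)
    (χ : G → ℂ) (hχ : IsCharacter G χ) (hfaith : ∀ g, χ g = χ 1 → g = 1) (hdeg : 2 * charDegree χ + 1 < p) (g : G) :
    g⁻¹ * x * g ∈ Subgroup.zpowers x := by
  classical
  obtain ⟨y, hy⟩ : ∃ y, y = g⁻¹ * x * g := ⟨_, rfl⟩
  rw [← hy]
  have hordy : orderOf y = p := by
    have h3 : y = g⁻¹ * x * g⁻¹⁻¹ := by
      rw [hy]
      group
    rw [h3, orderOf_conj, hx]
  have hkey : x * y * x⁻¹ * y⁻¹ = 1 := by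
    apply hfaith
    apply eq_map_one_of_constituents hχ
    intro τ hτ
    have hτdeg : charDegree (τ : G → ℂ) ≤ charDegree χ := charDegree_le_of_constituent hχ τ.2 hτ
    have hτdeg' : 2 * charDegree (τ : G → ℂ) + 1 < p := by omega
    have hτc := IsIrrCharacter.isCharacter τ.2
    obtain ⟨K, hK⟩ : ∃ K, K = kerOf (τ : G → ℂ) := ⟨_, rfl⟩
    haveI hKn : K.Normal := by
      rw [hK]
      exact kerOf_normal (IsCharacter.isClassFunction hτc)
    have hmem : ∀ a, a ∈ K ↔ (τ : G → ℂ) a = (τ : G → ℂ) 1 := by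
      intro a
      rw [hK, mem_kerOf_iff hτc]
    by_cases hK0 : K = ⊥
    · have hf : ∀ g, (τ : G → ℂ) g = (τ : G → ℂ) 1 → g = 1 := by
        intro a ha
        have h1 : a ∈ K := (hmem a).2 ha
        rw [hK0] at h1
        simpa using h1
      have h1 := hirr τ hf hτdeg' g
      rw [← hy] at h1
      obtain ⟨n, hn⟩ := Subgroup.mem_zpowers_iff.1 h1
      have h2 : x * y * x⁻¹ * y⁻¹ = 1 := by
        rw [← hn]
        have h3 : x * x ^ n = x ^ n * x := (Commute.zpow_right (Commute.refl x) n).eq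
        rw [h3]
        group
      rw [h2]
    · by_cases hxK : x ∈ K
      · have hyK : y ∈ K := by
          have h2 := hKn.conj_mem x hxK g⁻¹
          rw [hy]
          simpa using h2
        exact (hmem _).1 (K.mul_mem (K.mul_mem (K.mul_mem hxK hyK) (K.inv_mem hxK)) (K.inv_mem hyK))
      · have hxb : orderOf (x : G ⧸ K) = p := by
          apply orderOf_eq_prime
          · rw [← QuotientGroup.mk_pow, ← hx, pow_orderOf_eq_one]
            rfl
          · intro h
            exact hxK ((QuotientGroup.eq_one_iff x).1 h)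
        obtain ⟨τb, hτb⟩ := exists_inflate K (χ := τ) (fun n hn => (hmem n).1 hn)
        have hcoe : ∀ a : G, (τb : G ⧸ K → ℂ) (a : G ⧸ K) = (τ : G → ℂ) a := by
          intro a
          rw [← hτb]
          rfl
        have hfb : ∀ g, (τb : G ⧸ K → ℂ) g = (τb : G ⧸ K → ℂ) 1 → g = 1 := by
          intro b h
          obtain ⟨a, rfl⟩ := QuotientGroup.mk_surjective b
          have h2 : (τ : G → ℂ) a = (τ : G → ℂ) 1 := by
            rw [← hcoe, ← hcoe]
            exact h
          exact (QuotientGroup.eq_one_iff a).2 ((hmem a).2 h2)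
        have hdegb : charDegree (τb : G ⧸ K → ℂ) = charDegree (τ : G → ℂ) := by
          unfold charDegree
          rw [← hcoe 1]
          rfl
        have h1 := IQ K hK0 (x : G ⧸ K) hxb τb (IsIrrCharacter.isCharacter τb.2) hfb (by rw [hdegb]; exact hτdeg') (g : G ⧸ K)
        have h2 : ((x * y * x⁻¹ * y⁻¹ : G) : G ⧸ K) = 1 := by
          obtain ⟨n, hn⟩ := Subgroup.mem_zpowers_iff.1 h1
          have h3 : (y : G ⧸ K) = (x : G ⧸ K) ^ n := by
            rw [hn, hy]
            rfl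
          have h4 : ((x * y * x⁻¹ * y⁻¹ : G) : G ⧸ K) = (x : G ⧸ K) * (y : G ⧸ K) * (x : G ⧸ K)⁻¹ * (y : G ⧸ K)⁻¹ := rfl
          rw [h4, h3]
          have h5 : (x : G ⧸ K) * (x : G ⧸ K) ^ n = (x : G ⧸ K) ^ n * (x : G ⧸ K) := (Commute.zpow_right (Commute.refl _) n).eq
          rw [h5]
          group
        exact (hmem _).1 ((QuotientGroup.eq_one_iff _).1 h2)
  have hc : y * x = x * y := by
    have h1 : x * y * x⁻¹ = y := by
      rw [mul_inv_eq_one] at hkey
      exact hkey
    rw [mul_inv_eq_iff_eq_mul] at h1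
    exact h1.symm
  exact ft_mem_zpowers hX hx hordy hc

end FT10

theorem ft_normal_main (p : ℕ) [hp : Fact p.Prime] : ∀ (n : ℕ) (G : Type u) [Group G] [Finite G], Nat.card G = n → ∀ x : G,
    (Nat.card G).factorization p ≤ 1 → orderOf x = p → ∀ χ : G → ℂ, IsCharacter G χ → (∀ g, χ g = χ 1 → g = 1) → 2 * charDegree χ + 1 < p →
    ∀ g, g⁻¹ * x * g ∈ Subgroup.zpowers x := by
  intro n
  induction n using Nat.strong_induction_on with
  | _ n ih =>
    intro G _ _ hn x hX hx χ hχ hfaith hdeg g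
    haveI := Fintype.ofFinite G
    have hGpos : Nat.card G ≠ 0 := Nat.card_pos.ne'
    have hdvd : p ∣ Nat.card G := by
      rw [← hx]
      exact orderOf_dvd_natCard x
    have hX1 : (Nat.card G).factorization p = 1 := le_antisymm hX (hp.out.factorization_pos_of_dvd hGpos hdvd)
    have hfac : ∀ m : ℕ, m ∣ Nat.card G → m.factorization p ≤ 1 := by
      intro m hm
      have hm0 : m ≠ 0 := fun h => hGpos (by rw [h] at hm; exact Nat.eq_zero_of_zero_dvd hm)
      exact ((Nat.factorization_le_iff_dvd hm0 hGpos).2 hm p).trans hX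
    refine ft_step_gen hX1 hx ?_ ?_ χ hχ hfaith hdeg g
    · intro ζ hf hd g'
      refine ft_step_irr hX1 hx ?_ ζ hf hd g'
      intro K hK y hy ψ hψ hfψ hdψ k
      have hlt : Nat.card K < n := by
        rw [← hn]
        have h1 := Subgroup.card_mul_index K
        have h2 : K.index ≠ 1 := fun h => hK (Subgroup.index_eq_one.1 h)
        have h3 : K.index ≠ 0 := fun h => by
          rw [h, mul_zero] at h1
          exact hGpos h1.symm
        have h4 : 0 < Nat.card K := Nat.card_pos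
        nlinarith [Nat.lt_of_le_of_ne (Nat.one_le_iff_ne_zero.2 h3) (Ne.symm h2)]
      exact ih _ hlt K rfl y (hfac _ (Subgroup.card_subgroup_dvd_card K)) hy ψ hψ hfψ hdψ k
    · intro K _ hK y hy ψ hψ hfψ hdψ k
      have hcq : Nat.card (G ⧸ K) = K.index := rfl
      have hlt : Nat.card (G ⧸ K) < n := by
        rw [← hn, hcq]
        have h1 := Subgroup.card_mul_index K
        have h2 : Nat.card K ≠ 1 := fun h => hK (Subgroup.eq_bot_of_card_eq K h)
        have h3 : 0 < Nat.card K := Nat.card_pos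
        have h4 : 0 < K.index := by
          rcases Nat.eq_zero_or_pos K.index with h | h
          · rw [h, mul_zero] at h1
            exact absurd h1.symm hGpos
          · exact h
        nlinarith [Nat.lt_of_le_of_ne h3 (Ne.symm h2)]
      exact ih _ hlt (G ⧸ K) rfl y (hfac _ ⟨Nat.card K, by rw [hcq, ← Subgroup.card_mul_index K, mul_comm]⟩) hy ψ hψ hfψ hdψ k

end Cfsg.Agent.Lib.FF
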