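import Cfsg.Agent.Lib.FF.FT1

/-!
# Groups whose order is divisible exactly once by `p`: local structure at an element of order `p`
-/

set_option autoImplicit false
set_option linter.unusedSectionVars false
set_option linter.unusedVariables false
set_option maxSynthPendingDepth 3
set_option linter.style.haveILetI false
set_option linter.unusedSimpArgs false
set_option linter.unnecessarySimpa false

open scoped ComplexConjugate Pointwise
open Module Cfsg Cfsg.Agent.Lib.Block Cfsg.Agent.Lib.Char Cfsg.Agent.Lib.CharExtra Cfsg.Agent.Lib.BPair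

namespace Cfsg.Agent.Lib.FF

attribute [local instance] Cfsg.Agent.Lib.BPair.subFintype

section FT2

variable {G : Type*} [Group G] [Fintype G] {p : ℕ} [hp : Fact p.Prime] {x : G}

theorem ft_self (x : G) : x ∈ Cen (Subgroup.zpowers x) := ft_mem_cen.2 rfl

/-- The element as a central element of its centralizer. -/
def tx (x : G) : Cen (Subgroup.zpowers x) := ⟨x, ft_self x⟩

theorem tx_center (x : G) : tx x ∈ Subgroup.center (Cen (Subgroup.zpowers x)) := by
  rw [Subgroup.mem_center_iff]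
  intro g
  exact Subtype.ext (ft_mem_cen.1 g.2)

theorem exists_mu_p {C : Type*} [Group C] [Fintype C] (Q : Sylow p C) (hcard : Nat.card (Q : Subgroup C) = p)
    {t : C} (htQ : t ∈ (Q : Subgroup C)) (htc : t ∈ Subgroup.center C) (ht1 : t ≠ 1) :
    ∃ μ : C →* ℂˣ, (∀ c, μ c ^ p = 1) ∧ μ t ≠ 1 := by
  classical
  haveI : NeZero p := ⟨hp.out.ne_zero⟩
  have hexp : ∀ q : (Q : Subgroup C), q ^ p = 1 := by
    intro q
    have h := pow_card_eq_one' (x := q)
    rwa [hcard] at h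
  haveI : Fact (Nat.Prime (Nat.card (Q : Subgroup C))) := ⟨by rw [hcard]; exact hp.out⟩
  haveI hcy : IsCyclic (Q : Subgroup C) := isCyclic_of_prime_card rfl
  letI hcomm : CommGroup (Q : Subgroup C) := IsCyclic.commGroup
  have ht1' : (⟨t, htQ⟩ : (Q : Subgroup C)) ≠ 1 := by
    intro h
    apply ht1
    exact congrArg Subtype.val h
  haveI : NeZero (Monoid.exponent (Q : Subgroup C)) := ⟨Monoid.exponent_ne_zero_of_finite⟩
  obtain ⟨ν, hν⟩ := CommGroup.exists_apply_ne_one_of_hasEnoughRootsOfUnity (Q : Subgroup C) ℂ ht1'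
  have hνp : ∀ q, ν q ^ p = 1 := by
    intro q
    rw [← map_pow, hexp, map_one]
  let ν' : (Q : Subgroup C) →* rootsOfUnity p ℂ := ν.codRestrict (rootsOfUnity p ℂ) (fun q => by
    rw [mem_rootsOfUnity]
    exact hνp q)
  haveI : (Q : Subgroup C).FiniteIndex := inferInstance
  let μ' : C →* rootsOfUnity p ℂ := ν'.transfer
  refine ⟨(rootsOfUnity p ℂ).subtype.comp μ', ?_, ?_⟩
  · intro c
    have := (mem_rootsOfUnity _ _).1 (μ' c).2
    simpa using this
  · intro hμ
    have h1 : μ' t = ν' ⟨t ^ (Q : Subgroup C).index, (Q : Subgroup C).pow_mem htQ _⟩ := by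
      refine MonoidHom.transfer_eq_pow ν' t (fun k g₀ _ => ?_)
      have h2 : t ^ k ∈ Subgroup.center C := Subgroup.pow_mem _ htc _
      have h3 := Subgroup.mem_center_iff.1 h2 g₀
      rw [mul_assoc, ← h3]
      group
    have h2 : μ' t = 1 := by
      apply Subtype.ext
      simpa using hμ
    rw [h2] at h1
    have h3 : ν ⟨t ^ (Q : Subgroup C).index, (Q : Subgroup C).pow_mem htQ _⟩ = 1 := by
      have := congrArg Subtype.val h1.symm
      simpa [ν'] using this
    have h4 : (⟨t ^ (Q : Subgroup C).index, (Q : Subgroup C).pow_mem htQ _⟩ : (Q : Subgroup C)) = (⟨t, htQ⟩ : (Q : Subgroup C)) ^ (Q : Subgroup C).index := rfl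
    rw [h4, map_pow] at h3
    have h5 : orderOf (ν ⟨t, htQ⟩) = p := orderOf_eq_prime (hνp _) hν
    have h6 : p ∣ (Q : Subgroup C).index := by
      have := orderOf_dvd_of_pow_eq_one h3
      rwa [h5] at this
    exact Q.not_dvd_index h6

/-- The local data at an element of order `p`. -/
structure LD (p : ℕ) (x : G) (μ : Cen (Subgroup.zpowers x) →* ℂˣ) : Prop where
  hX : (Nat.card G).factorization p = 1
  hx : orderOf x = p
  hμp : ∀ c, (μ c) ^ p = 1
  hμx : μ (tx x) ≠ 1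

theorem exists_LD (hX : (Nat.card G).factorization p = 1) (hx : orderOf x = p) :
    ∃ μ : Cen (Subgroup.zpowers x) →* ℂˣ, LD p x μ := by
  classical
  have htord : orderOf (tx x) = p := by
    rw [← hx]
    exact Subgroup.orderOf_mk _ _
  have hisp : IsPGroup p (Subgroup.zpowers (tx x)) := ft_isP_zp htord
  obtain ⟨Q, hQ⟩ := IsPGroup.exists_le_sylow hisp
  have h1 : p ∣ Nat.card (Cen (Subgroup.zpowers x)) := by
    rw [← htord]
    exact orderOf_dvd_natCard _
  have h2 : (Nat.card (Cen (Subgroup.zpowers x))).factorization p = 1 := by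
    have h3 : Nat.card (Cen (Subgroup.zpowers x)) ∣ Nat.card G := Subgroup.card_subgroup_dvd_card _
    have h4 : (Nat.card (Cen (Subgroup.zpowers x))).factorization p ≤ (Nat.card G).factorization p :=
      (Nat.factorization_le_iff_dvd (Nat.card_pos).ne' (Nat.card_pos).ne').2 h3 p
    have h5 : 1 ≤ (Nat.card (Cen (Subgroup.zpowers x))).factorization p :=
      (hp.out.dvd_iff_one_le_factorization (Nat.card_pos).ne').1 h1
    omega
  have hcard : Nat.card (Q : Subgroup (Cen (Subgroup.zpowers x))) = p := by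
    rw [Sylow.card_eq_multiplicity, h2, pow_one]
  have hne : tx x ≠ 1 := by
    intro h
    rw [h, orderOf_one] at htord
    exact hp.out.one_lt.ne htord
  obtain ⟨μ, h3, h4⟩ := exists_mu_p Q hcard (hQ (Subgroup.mem_zpowers _)) (tx_center x) hne
  exact ⟨μ, hX, hx, h3, h4⟩

variable {μ : Cen (Subgroup.zpowers x) →* ℂˣ}

/-- The root of unity attached to a residue. -/
noncomputable def ee (μ : Cen (Subgroup.zpowers x) →* ℂˣ) (a : ZMod p) : ℂ := ((μ (tx x) : ℂˣ) : ℂ) ^ a.val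

/-- Twisting by a power of the linear character. -/
noncomputable def tw (μ : Cen (Subgroup.zpowers x) →* ℂˣ) (j : ZMod p) (ξ : IrrCharacter (Cen (Subgroup.zpowers x))) :
    IrrCharacter (Cen (Subgroup.zpowers x)) := twistI (μ ^ j.val) ξ

theorem tw_apply (j : ZMod p) (ξ : IrrCharacter (Cen (Subgroup.zpowers x))) (c : Cen (Subgroup.zpowers x)) :
    (tw μ j ξ : Cen (Subgroup.zpowers x) → ℂ) c = (ξ : Cen (Subgroup.zpowers x) → ℂ) c * ((μ c : ℂˣ) : ℂ) ^ j.val := by
  unfold tw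
  rw [twistI_apply]
  simp

namespace LD

variable (L : LD p x μ)
include L

theorem eps_root : IsPrimitiveRoot ((μ (tx x) : ℂˣ) : ℂ) p := by
  have h2 : orderOf (μ (tx x)) = p := orderOf_eq_prime (L.hμp _) L.hμx
  have h3 : IsPrimitiveRoot (μ (tx x)) p := h2 ▸ IsPrimitiveRoot.orderOf (μ (tx x))
  exact h3.map_of_injective Units.val_injective (f := Units.coeHom ℂ)

theorem ee_nat (n : ℕ) : ee μ (n : ZMod p) = ((μ (tx x) : ℂˣ) : ℂ) ^ n := by
  unfold ee
  rw [ZMod.val_natCast]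
  conv_rhs => rw [← Nat.div_add_mod n p]
  rw [pow_add, pow_mul, L.eps_root.pow_eq_one, one_pow, one_mul]

theorem ee_add (a b : ZMod p) : ee μ (a + b) = ee μ a * ee μ b := by
  have h1 : a + b = ((a.val + b.val : ℕ) : ZMod p) := by
    simp
  rw [h1, L.ee_nat, pow_add]
  rfl

theorem ee_mul (a b : ZMod p) : ee μ (a * b) = ee μ a ^ b.val := by
  have h1 : a * b = ((a.val * b.val : ℕ) : ZMod p) := by
    simp
  rw [h1, L.ee_nat, pow_mul]
  rfl

theorem ee_zero : ee μ (0 : ZMod p) = 1 := by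
  unfold ee
  simp

theorem ee_inj {a b : ZMod p} (h : ee μ a = ee μ b) : a = b := by
  unfold ee at h
  have h1 := L.eps_root.pow_inj (ZMod.val_lt a) (ZMod.val_lt b) h
  exact ZMod.val_injective p h1

theorem ee_ne_zero (a : ZMod p) : ee μ a ≠ 0 := by
  unfold ee
  exact pow_ne_zero _ (Units.ne_zero _)

theorem mu_reg {c : Cen (Subgroup.zpowers x)} (hc : ¬ p ∣ orderOf c) : μ c = 1 := by
  have h1 : (μ c) ^ orderOf c = 1 := by
    rw [← map_pow, pow_orderOf_eq_one, map_one]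
  have h2 : (μ c) ^ p = 1 := L.hμp c
  have h3 : Nat.Coprime p (orderOf c) := (Nat.Prime.coprime_iff_not_dvd hp.out).2 hc
  have h4 := Nat.dvd_gcd (orderOf_dvd_of_pow_eq_one h2) (orderOf_dvd_of_pow_eq_one h1)
  rw [h3.gcd_eq_one] at h4
  exact orderOf_eq_one_iff.1 (Nat.dvd_one.1 h4)

theorem mu_sing {c : Cen (Subgroup.zpowers x)} (hc : p ∣ orderOf c) : μ c ≠ 1 := by
  intro h1
  have hc' : p ∣ orderOf (c : G) := by rwa [Subgroup.orderOf_coe]
  obtain ⟨h2, -⟩ := ft_pow_order L.hX hc'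
  have h3 : ((c : G) ^ (orderOf (c : G) / p)) * x = x * ((c : G) ^ (orderOf (c : G) / p)) := (Commute.pow_left (ft_mem_cen.1 c.2) _).eq
  have h4 := ft_mem_zpowers L.hX L.hx h2 h3
  have h5 := ft_zp_eq L.hx h2 h4
  have h6 : x ∈ Subgroup.zpowers ((c : G) ^ (orderOf (c : G) / p)) := by
    rw [h5]
    exact Subgroup.mem_zpowers x
  obtain ⟨k, hk⟩ := Subgroup.mem_zpowers_iff.1 h6
  apply L.hμx
  have h7 : tx x = (c ^ (orderOf (c : G) / p)) ^ k := by
    apply Subtype.ext
    simpa [tx] using hk.symm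
  rw [h7, map_zpow, map_pow, h1]
  simp

theorem exists_mu_eq (c : Cen (Subgroup.zpowers x)) : ∃ a : ZMod p, ((μ c : ℂˣ) : ℂ) = ee μ a := by
  haveI : NeZero p := ⟨hp.out.ne_zero⟩
  have h1 : ((μ c : ℂˣ) : ℂ) ^ p = 1 := by
    have := congrArg Units.val (L.hμp c)
    simpa using this
  obtain ⟨i, hi, h2⟩ := L.eps_root.eq_pow_of_pow_eq_one h1
  refine ⟨(i : ZMod p), ?_⟩
  rw [L.ee_nat, h2]

theorem exists_om (ξ : IrrCharacter (Cen (Subgroup.zpowers x))) :
    ∃ a : ZMod p, (ξ : Cen (Subgroup.zpowers x) → ℂ) (tx x) = ee μ a * (ξ : Cen (Subgroup.zpowers x) → ℂ) 1 := by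
  haveI : NeZero p := ⟨hp.out.ne_zero⟩
  have h0 : (ξ : Cen (Subgroup.zpowers x) → ℂ) 1 ≠ 0 := map_one_ne_zero_of_irr ξ.2
  have htp : (tx x) ^ p = 1 := by
    apply Subtype.ext
    simp [tx, ← L.hx, pow_orderOf_eq_one]
  have h1 := eps_pow ξ (tx_center x) htp
  obtain ⟨i, hi, h2⟩ := L.eps_root.eq_pow_of_pow_eq_one h1
  refine ⟨(i : ZMod p), ?_⟩
  rw [L.ee_nat, h2]
  field_simp

end LD

/-- The central exponent of an irreducible character of the centralizer. -/
noncomputable def om (p : ℕ) (μ : Cen (Subgroup.zpowers x) →* ℂˣ) (ξ : IrrCharacter (Cen (Subgroup.zpowers x))) : ZMod p := by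
  classical
  exact if h : ∃ a : ZMod p, (ξ : Cen (Subgroup.zpowers x) → ℂ) (tx x) = ee μ a * (ξ : Cen (Subgroup.zpowers x) → ℂ) 1 then h.choose else 0

namespace LD

variable (L : LD p x μ)
include L

theorem om_spec (ξ : IrrCharacter (Cen (Subgroup.zpowers x))) :
    (ξ : Cen (Subgroup.zpowers x) → ℂ) (tx x) = ee μ (om p μ ξ) * (ξ : Cen (Subgroup.zpowers x) → ℂ) 1 := by
  classical
  unfold om
  rw [dif_pos (L.exists_om ξ)]
  exact (L.exists_om ξ).choose_spec

theorem om_eq {ξ : IrrCharacter (Cen (Subgroup.zpowers x))} {a : ZMod p}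
    (h : (ξ : Cen (Subgroup.zpowers x) → ℂ) (tx x) = ee μ a * (ξ : Cen (Subgroup.zpowers x) → ℂ) 1) : om p μ ξ = a := by
  apply L.ee_inj
  have h0 : (ξ : Cen (Subgroup.zpowers x) → ℂ) 1 ≠ 0 := map_one_ne_zero_of_irr ξ.2
  have h1 := L.om_spec ξ
  rw [h] at h1
  exact (mul_right_cancel₀ h0 h1).symm

theorem irr_mul_t (ξ : IrrCharacter (Cen (Subgroup.zpowers x))) (c : Cen (Subgroup.zpowers x)) :
    (ξ : Cen (Subgroup.zpowers x) → ℂ) (c * tx x) = ee μ (om p μ ξ) * (ξ : Cen (Subgroup.zpowers x) → ℂ) c := by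
  have h0 : (ξ : Cen (Subgroup.zpowers x) → ℂ) 1 ≠ 0 := map_one_ne_zero_of_irr ξ.2
  rw [irr_mul_central ξ (tx_center x), L.om_spec ξ]
  field_simp

theorem irr_mul_pow (ξ : IrrCharacter (Cen (Subgroup.zpowers x))) (c : Cen (Subgroup.zpowers x)) (k : ℕ) :
    (ξ : Cen (Subgroup.zpowers x) → ℂ) (c * tx x ^ k) = ee μ (om p μ ξ) ^ k * (ξ : Cen (Subgroup.zpowers x) → ℂ) c := by
  induction k with
  | zero => simp
  | succ k ih =>
    rw [pow_succ, ← mul_assoc, L.irr_mul_t, ih]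
    ring

theorem irr_pow (ξ : IrrCharacter (Cen (Subgroup.zpowers x))) (k : ℕ) :
    (ξ : Cen (Subgroup.zpowers x) → ℂ) (tx x ^ k) = ee μ (om p μ ξ) ^ k * (ξ : Cen (Subgroup.zpowers x) → ℂ) 1 := by
  have := L.irr_mul_pow ξ 1 k
  rwa [one_mul] at this

theorem tw_t (j : ZMod p) (ξ : IrrCharacter (Cen (Subgroup.zpowers x))) :
    (tw μ j ξ : Cen (Subgroup.zpowers x) → ℂ) (tx x) = (ξ : Cen (Subgroup.zpowers x) → ℂ) (tx x) * ee μ j := by
  rw [tw_apply]
  rfl

theorem tw_one (j : ZMod p) (ξ : IrrCharacter (Cen (Subgroup.zpowers x))) :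
    (tw μ j ξ : Cen (Subgroup.zpowers x) → ℂ) 1 = (ξ : Cen (Subgroup.zpowers x) → ℂ) 1 := by
  rw [tw_apply]
  simp

theorem om_tw (j : ZMod p) (ξ : IrrCharacter (Cen (Subgroup.zpowers x))) : om p μ (tw μ j ξ) = om p μ ξ + j := by
  apply L.om_eq
  rw [L.tw_t, L.tw_one, L.om_spec ξ, L.ee_add]
  ring

theorem tw_reg (j : ZMod p) (ξ : IrrCharacter (Cen (Subgroup.zpowers x))) {c : Cen (Subgroup.zpowers x)} (hc : ¬ p ∣ orderOf c) :
    (tw μ j ξ : Cen (Subgroup.zpowers x) → ℂ) c = (ξ : Cen (Subgroup.zpowers x) → ℂ) c := by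
  rw [tw_apply, L.mu_reg hc]
  simp

theorem tw_tw (j k : ZMod p) (ξ : IrrCharacter (Cen (Subgroup.zpowers x))) : tw μ j (tw μ k ξ) = tw μ (j + k) ξ := by
  apply Subtype.ext
  funext c
  rw [tw_apply, tw_apply, tw_apply, mul_assoc]
  congr 1
  obtain ⟨a, ha⟩ := L.exists_mu_eq c
  have h1 : ((μ c : ℂˣ) : ℂ) ^ p = 1 := by
    have := congrArg Units.val (L.hμp c)
    simpa using this
  rw [← pow_add]
  have h2 : (j + k).val = ((j.val + k.val : ℕ) : ZMod p).val := by simp
  rw [add_comm k.val j.val, h2, ZMod.val_natCast]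
  conv_lhs => rw [← Nat.div_add_mod (j.val + k.val) p]
  rw [pow_add, pow_mul, h1, one_pow, one_mul]

theorem tw_zero (ξ : IrrCharacter (Cen (Subgroup.zpowers x))) : tw μ (0 : ZMod p) ξ = ξ := by
  apply Subtype.ext
  funext c
  rw [tw_apply]
  simp

end LD

/-- The multiplier of a normalizing element. -/
noncomputable def sF (x g : G) (p : ℕ) : ZMod p := by
  classical
  exact if h : ∃ a : ZMod p, g⁻¹ * x * g = x ^ a.val then h.choose else 0

/-- Conjugation of irreducible characters of the centralizer. -/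
noncomputable def cjI {g : G} (hg : g ∈ Subgroup.normalizer ((Subgroup.zpowers x : Subgroup G) : Set G))
    (ξ : IrrCharacter (Cen (Subgroup.zpowers x))) : IrrCharacter (Cen (Subgroup.zpowers x)) :=
  mapIrr (nConj (normalizer_le_normalizer_cen hg)) ξ

theorem cjI_coe {g : G} (hg : g ∈ Subgroup.normalizer ((Subgroup.zpowers x : Subgroup G) : Set G))
    (ξ : IrrCharacter (Cen (Subgroup.zpowers x))) : (cjI hg ξ : Cen (Subgroup.zpowers x) → ℂ) = cjF x g ξ := by
  rw [cjF_irr hg]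
  rfl

theorem cjI_apply {g : G} (hg : g ∈ Subgroup.normalizer ((Subgroup.zpowers x : Subgroup G) : Set G))
    (ξ : IrrCharacter (Cen (Subgroup.zpowers x))) (c : Cen (Subgroup.zpowers x)) :
    (cjI hg ξ : Cen (Subgroup.zpowers x) → ℂ) c = (ξ : Cen (Subgroup.zpowers x) → ℂ) ⟨g⁻¹ * c * g, ft_conj_mem hg c⟩ := by
  rw [cjI_coe, cjF_apply hg]

namespace LD

variable (L : LD p x μ)
include L

theorem x_pow_p : x ^ p = 1 := by
  rw [← L.hx]
  exact pow_orderOf_eq_one x

theorem pow_val_inj {a b : ZMod p} (h : x ^ a.val = x ^ b.val) : a = b := by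
  have hinj := pow_injOn_Iio_orderOf (x := x)
  rw [L.hx] at hinj
  have h1 := hinj (Set.mem_Iio.2 (ZMod.val_lt a)) (Set.mem_Iio.2 (ZMod.val_lt b)) h
  exact ZMod.val_injective p h1

theorem sF_spec {g : G} (hg : g ∈ Subgroup.normalizer ((Subgroup.zpowers x : Subgroup G) : Set G)) :
    g⁻¹ * x * g = x ^ (sF x g p).val := by
  classical
  have h1 : ∃ a : ZMod p, g⁻¹ * x * g = x ^ a.val := by
    have h2 := (Subgroup.mem_normalizer_iff.1 ((Subgroup.normalizer ((Subgroup.zpowers x : Subgroup G) : Set G)).inv_mem hg) x).1 (Subgroup.mem_zpowers x)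
    rw [inv_inv] at h2
    have hfin : IsOfFinOrder x := isOfFinOrder_of_finite x
    obtain ⟨k, hk⟩ := (hfin.mem_powers_iff_mem_zpowers).2 h2
    have hk' : x ^ k = g⁻¹ * x * g := hk
    refine ⟨(k : ZMod p), ?_⟩
    rw [ZMod.val_natCast, ← hk']
    conv_lhs => rw [← Nat.div_add_mod k p]
    rw [pow_add, pow_mul, L.x_pow_p, one_pow, one_mul]
  unfold sF
  rw [dif_pos h1]
  exact h1.choose_spec

theorem sF_eq {g : G} (hg : g ∈ Subgroup.normalizer ((Subgroup.zpowers x : Subgroup G) : Set G)) {a : ZMod p}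
    (h : g⁻¹ * x * g = x ^ a.val) : sF x g p = a := by
  apply L.pow_val_inj
  rw [← L.sF_spec hg, h]

theorem sF_one : sF x (1 : G) p = 1 := by
  haveI : Fact (1 < p) := ⟨hp.out.one_lt⟩
  apply L.sF_eq (Subgroup.one_mem _)
  rw [ZMod.val_one]
  simp

theorem sF_mul {g h : G} (hg : g ∈ Subgroup.normalizer ((Subgroup.zpowers x : Subgroup G) : Set G))
    (hh : h ∈ Subgroup.normalizer ((Subgroup.zpowers x : Subgroup G) : Set G)) : sF x (g * h) p = sF x g p * sF x h p := by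
  apply L.sF_eq (Subgroup.mul_mem _ hg hh)
  have h1 : (g * h)⁻¹ * x * (g * h) = h⁻¹ * (g⁻¹ * x * g) * h := by group
  rw [h1, L.sF_spec hg]
  have h2 : h⁻¹ * x ^ (sF x g p).val * h = (h⁻¹ * x * h) ^ (sF x g p).val := by
    have := conj_pow (a := h⁻¹) (b := x) (i := (sF x g p).val)
    simpa using this.symm
  rw [h2, L.sF_spec hh, ← pow_mul]
  have h3 : (sF x g p * sF x h p).val = ((sF x h p).val * (sF x g p).val) % p := by
    rw [ZMod.val_mul]
    rw [mul_comm]
  rw [h3]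
  conv_lhs => rw [← Nat.div_add_mod ((sF x h p).val * (sF x g p).val) p]
  rw [pow_add, pow_mul, L.x_pow_p, one_pow, one_mul]

theorem sF_mul_inv {g : G} (hg : g ∈ Subgroup.normalizer ((Subgroup.zpowers x : Subgroup G) : Set G)) :
    sF x g p * sF x g⁻¹ p = 1 := by
  rw [← L.sF_mul hg (Subgroup.inv_mem _ hg), mul_inv_cancel, L.sF_one]

theorem sF_ne_zero {g : G} (hg : g ∈ Subgroup.normalizer ((Subgroup.zpowers x : Subgroup G) : Set G)) : sF x g p ≠ 0 := by
  intro h
  have h2 := L.sF_mul_inv hg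
  rw [h, zero_mul] at h2
  haveI : Fact (1 < p) := ⟨hp.out.one_lt⟩
  exact zero_ne_one h2

theorem sF_eq_one_iff {g : G} (hg : g ∈ Subgroup.normalizer ((Subgroup.zpowers x : Subgroup G) : Set G)) :
    sF x g p = 1 ↔ g ∈ Cen (Subgroup.zpowers x) := by
  haveI : Fact (1 < p) := ⟨hp.out.one_lt⟩
  constructor
  · intro h
    have h1 := L.sF_spec hg
    rw [h, ZMod.val_one, pow_one] at h1
    rw [ft_mem_cen]
    have h2 : x * g = g * x := by
      have : g * (g⁻¹ * x * g) = g * x := by rw [h1]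
      simpa [mul_assoc] using this
    exact h2.symm
  · intro h
    apply L.sF_eq hg
    rw [ZMod.val_one, pow_one]
    have h1 := ft_mem_cen.1 h
    have : g⁻¹ * x * g = g⁻¹ * (x * g) := by group
    rw [this, ← h1]
    group

theorem tx_conj {g : G} (hg : g ∈ Subgroup.normalizer ((Subgroup.zpowers x : Subgroup G) : Set G)) :
    (⟨g⁻¹ * (tx x : G) * g, ft_conj_mem hg (tx x)⟩ : Cen (Subgroup.zpowers x)) = tx x ^ (sF x g p).val := by
  apply Subtype.ext
  simpa [tx] using L.sF_spec hg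

theorem om_cj {g : G} (hg : g ∈ Subgroup.normalizer ((Subgroup.zpowers x : Subgroup G) : Set G))
    (ξ : IrrCharacter (Cen (Subgroup.zpowers x))) : om p μ (cjI hg ξ) = om p μ ξ * sF x g p := by
  apply L.om_eq
  rw [cjI_apply, cjI_apply, L.tx_conj hg, L.irr_pow, L.ee_mul]
  have h1 : (⟨g⁻¹ * ((1 : Cen (Subgroup.zpowers x)) : G) * g, ft_conj_mem hg 1⟩ : Cen (Subgroup.zpowers x)) = 1 := by
    apply Subtype.ext
    simp
  rw [h1]

theorem cjI_of_mem {g : G} (hg : g ∈ Subgroup.normalizer ((Subgroup.zpowers x : Subgroup G) : Set G))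
    (hc : g ∈ Cen (Subgroup.zpowers x)) (ξ : IrrCharacter (Cen (Subgroup.zpowers x))) : cjI hg ξ = ξ := by
  apply Subtype.ext
  funext c
  rw [cjI_apply]
  have h1 := IsCharacter.isClassFunction (IsIrrCharacter.isCharacter ξ.2) c (⟨g, hc⟩ : Cen (Subgroup.zpowers x))⁻¹
  have h2 : (⟨g⁻¹ * c * g, ft_conj_mem hg c⟩ : Cen (Subgroup.zpowers x)) = (⟨g, hc⟩ : Cen (Subgroup.zpowers x))⁻¹ * c * ((⟨g, hc⟩ : Cen (Subgroup.zpowers x))⁻¹)⁻¹ := by
    apply Subtype.ext
    simp
  rw [h2]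
  exact h1

end LD

end FT2

end Cfsg.Agent.Lib.FF
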