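import Cfsg.Agent.Lib.FF.FT2
import Cfsg.Agent.Lib.Char.Coherent

/-!
# Groups whose order is divisible exactly once by `p`: local structure at an element of order `p`
-/

set_option autoImplicit false
set_option linter.unusedSectionVars false
set_option linter.unusedVariables false
set_option maxSynthPendingDepth 3
set_option linter.style.haveILetI false
set_option linter.unusedSimpArgs false
set_option linter.unnecessarySimpa false

open scoped ComplexConjugate Pointwise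
open Module Cfsg Cfsg.Agent.Lib.Block Cfsg.Agent.Lib.Char Cfsg.Agent.Lib.CharExtra Cfsg.Agent.Lib.BPair

namespace Cfsg.Agent.Lib.FF

attribute [local instance] Cfsg.Agent.Lib.BPair.subFintype


section FT3

variable {G : Type*} [Group G] [Fintype G] {p : ℕ} [hp : Fact p.Prime] {x : G} {μ : Cen (Subgroup.zpowers x) →* ℂˣ}

local notation "CX" => Cen (Subgroup.zpowers x)
local notation "NX" => Subgroup.normalizer ((Subgroup.zpowers x : Subgroup G) : Set G)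

open Classical in
/-- The Mackey form on the centralizer. -/
noncomputable def TT (x : G) (f f' : Cen (Subgroup.zpowers x) → ℂ) : ℂ :=
  (Nat.card (Cen (Subgroup.zpowers x)) : ℂ)⁻¹ * ∑ g : G, if g ∈ Subgroup.normalizer ((Subgroup.zpowers x : Subgroup G) : Set G) then classInner f (cjF x g f') else 0

theorem TT_sub (ξ₁ ξ₂ ξ₃ ξ₄ : CX → ℂ) :
    TT x (ξ₁ - ξ₂) (ξ₃ - ξ₄) = TT x ξ₁ ξ₃ - TT x ξ₁ ξ₄ - TT x ξ₂ ξ₃ + TT x ξ₂ ξ₄ := by
  classical
  unfold TT
  have h : ∀ g : G, (if g ∈ NX then classInner (ξ₁ - ξ₂) (cjF x g (ξ₃ - ξ₄)) else 0) =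
      (if g ∈ NX then classInner ξ₁ (cjF x g ξ₃) else 0) - (if g ∈ NX then classInner ξ₁ (cjF x g ξ₄) else 0) -
      (if g ∈ NX then classInner ξ₂ (cjF x g ξ₃) else 0) + (if g ∈ NX then classInner ξ₂ (cjF x g ξ₄) else 0) := by
    intro g
    split_ifs with hg
    · rw [cjF_sub _ _ _ hg, classInner_sub_left, classInner_sub_right, classInner_sub_right]
      ring
    · simp
  simp only [h]
  rw [Finset.sum_add_distrib, Finset.sum_sub_distrib, Finset.sum_sub_distrib]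
  ring

theorem TT_zero {ξ ξ' : IrrCharacter CX} (h : ∀ (g : G) (hg : g ∈ NX), cjI hg ξ' ≠ ξ) :
    TT x (ξ : CX → ℂ) (ξ' : CX → ℂ) = 0 := by
  classical
  unfold TT
  apply mul_eq_zero_of_right
  refine Finset.sum_eq_zero fun g _ => ?_
  split_ifs with hg
  · rw [← cjI_coe hg]
    exact classInner_irr_of_ne ξ.2 (cjI hg ξ').2 (fun h' => h g hg (Subtype.ext h'.symm))
  · rfl

namespace LD

variable (L : LD p x μ)
include L

theorem TT_self {ξ : IrrCharacter CX} (hω : om p μ ξ ≠ 0) : TT x (ξ : CX → ℂ) (ξ : CX → ℂ) = 1 := by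
  classical
  unfold TT
  have hC0 : (Nat.card CX : ℂ) ≠ 0 := by
    exact_mod_cast (Nat.card_pos (α := CX)).ne'
  have h : ∀ g : G, (if g ∈ NX then classInner (ξ : CX → ℂ) (cjF x g (ξ : CX → ℂ)) else 0) = if g ∈ CX then (1 : ℂ) else 0 := by
    intro g
    by_cases hg : g ∈ NX
    · rw [if_pos hg, ← cjI_coe hg]
      by_cases hc : g ∈ CX
      · rw [if_pos hc, L.cjI_of_mem hg hc]
        exact classInner_irr_self ξ.2
      · rw [if_neg hc]
        apply classInner_irr_of_ne ξ.2 (cjI hg ξ).2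
        intro h'
        have h2 : cjI hg ξ = ξ := (Subtype.ext h').symm
        have h3 := L.om_cj hg ξ
        rw [h2] at h3
        have h4 : om p μ ξ * (sF x g p - 1) = 0 := by
          linear_combination -h3
        rcases mul_eq_zero.1 h4 with h5 | h5
        · exact hω h5
        · exact hc ((L.sF_eq_one_iff hg).1 (sub_eq_zero.1 h5))
    · rw [if_neg hg, if_neg (fun hc => hg (centralizer_le_normalizer_self _ hc))]
  simp only [h]
  rw [Finset.sum_boole]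
  have h2 : ((Finset.univ.filter fun g : G => g ∈ CX).card : ℂ) = (Nat.card CX : ℂ) := by
    rw [Nat.card_eq_fintype_card, Fintype.card_subtype]
  rw [h2, inv_mul_cancel₀ hC0]

theorem vanish_sub (j : ZMod p) (ξ : IrrCharacter CX) (c : CX) (hc : ¬ p ∣ orderOf c) :
    ((ξ : CX → ℂ) - (tw μ j ξ : CX → ℂ)) c = 0 := by
  simp only [Pi.sub_apply]
  rw [L.tw_reg j ξ hc, sub_self]

end LD

/-- The restriction of a character to the centralizer. -/
noncomputable def rs (x : G) (ζ : G → ℂ) : Cen (Subgroup.zpowers x) → ℂ := fun c => ζ c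

theorem rs_isChar {ζ : G → ℂ} (h : IsCharacter G ζ) : IsCharacter CX (rs x ζ) := IsCharacter.restrict CX h

theorem exists_mm (ζ : IrrCharacter G) (ξ : IrrCharacter CX) : ∃ n : ℕ, classInner (rs x (ζ : G → ℂ)) (ξ : CX → ℂ) = n :=
  classInner_isCharacter_nat (rs_isChar (IsIrrCharacter.isCharacter ζ.2)) (IsIrrCharacter.isCharacter ξ.2)

/-- The multiplicity of an irreducible character of the centralizer in the restriction. -/
noncomputable def mm (ζ : IrrCharacter G) (ξ : IrrCharacter (Cen (Subgroup.zpowers x))) : ℕ := (exists_mm ζ ξ).choose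

theorem mm_spec (ζ : IrrCharacter G) (ξ : IrrCharacter CX) : classInner (rs x (ζ : G → ℂ)) (ξ : CX → ℂ) = mm ζ ξ :=
  (exists_mm ζ ξ).choose_spec

theorem inner_rs_left (ζ : IrrCharacter G) (ξ : IrrCharacter CX) : classInner (ξ : CX → ℂ) (rs x (ζ : G → ℂ)) = mm ζ ξ := by
  rw [← conj_classInner, mm_spec, Complex.conj_natCast]

theorem rs_eq_sum (ζ : IrrCharacter G) (c : CX) : (ζ : G → ℂ) c = ∑ ξ : IrrCharacter CX, (mm ζ ξ : ℂ) * (ξ : CX → ℂ) c := by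
  have h := congrFun (classFunction_eq_sum (rs x (ζ : G → ℂ)) (IsCharacter.isClassFunction (rs_isChar (IsIrrCharacter.isCharacter ζ.2)))) c
  rw [Finset.sum_apply] at h
  refine h.trans ?_
  refine Finset.sum_congr rfl fun ξ _ => ?_
  rw [Pi.smul_apply, mm_spec, smul_eq_mul]

theorem degree_eq_sum (ζ : IrrCharacter G) :
    charDegree (ζ : G → ℂ) = ∑ ξ : IrrCharacter CX, mm ζ ξ * charDegree (ξ : CX → ℂ) := by
  have h := rs_eq_sum ζ (1 : CX)
  rw [Subgroup.coe_one, map_one_eq_charDegree (IsIrrCharacter.isCharacter ζ.2)] at h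
  have h2 : ∀ ξ : IrrCharacter CX, (ξ : CX → ℂ) 1 = charDegree (ξ : CX → ℂ) := fun ξ =>
    map_one_eq_charDegree (IsIrrCharacter.isCharacter ξ.2)
  simp only [h2] at h
  exact_mod_cast h

theorem card_supp_le (ζ : IrrCharacter G) (s : Finset (IrrCharacter CX)) (hs : ∀ ξ ∈ s, mm ζ ξ ≠ 0) :
    s.card ≤ charDegree (ζ : G → ℂ) := by
  classical
  rw [degree_eq_sum (x := x) ζ]
  calc s.card = ∑ _ξ ∈ s, 1 := by simp
    _ ≤ ∑ ξ ∈ s, mm ζ ξ * charDegree (ξ : CX → ℂ) := by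
      refine Finset.sum_le_sum fun ξ hξ => ?_
      have h1 := Nat.pos_of_ne_zero (hs ξ hξ)
      have h2 := charDegree_pos_of_irr ξ.2
      exact Nat.mul_pos h1 h2
    _ ≤ _ := Finset.sum_le_sum_of_subset (Finset.subset_univ _)

theorem inner_rs_cj {g : G} (hg : g ∈ NX) (ζ : IrrCharacter G) (ξ : IrrCharacter CX) : mm ζ (cjI hg ξ) = mm ζ ξ := by
  have h : classInner (rs x (ζ : G → ℂ)) (cjI hg ξ : CX → ℂ) = classInner (rs x (ζ : G → ℂ)) (ξ : CX → ℂ) := by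
    rw [classInner_def, classInner_def]
    congr 1
    refine Fintype.sum_equiv (nConj (normalizer_le_normalizer_cen hg)).symm.toEquiv _ _ fun c => ?_
    show (ζ : G → ℂ) c * conj ((cjI hg ξ : CX → ℂ) c) = (ζ : G → ℂ) (g⁻¹ * c * g) * conj ((ξ : CX → ℂ) (nConj (normalizer_le_normalizer_cen hg) |>.symm c))
    rw [cjI_apply]
    have h1 := IsCharacter.isClassFunction (IsIrrCharacter.isCharacter ζ.2) (c : G) g⁻¹
    simp only [inv_inv] at h1
    rw [h1]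
    rfl
  rw [mm_spec, mm_spec] at h
  exact_mod_cast h

/-- Norm two implies a difference. -/
theorem norm_two_sub {F : G → ℂ} (hF : IsGeneralizedCharacter G F) (hn : classInner F F = 2) (h1 : F 1 = 0)
    (ζ : IrrCharacter G) {m : ℕ} (hm : classInner F (ζ : G → ℂ) = m) (hm0 : m ≠ 0) :
    m = 1 ∧ ∃ ζ' : IrrCharacter G, ζ' ≠ ζ ∧ F = (ζ : G → ℂ) - (ζ' : G → ℂ) := by
  classical
  obtain ⟨c, hc⟩ := generalized_eq_sum hF
  have hsum : ∑ χ, c χ ^ 2 = 2 := by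
    have h2 := hn
    rw [hc, classInner_self_eq_sum_int] at h2
    exact_mod_cast h2
  have hcζ : c ζ = m := by
    have h2 := hm
    rw [hc, classInner_sum_left, Finset.sum_eq_single ζ] at h2
    · rw [classInner_smul_left, classInner_irr_self ζ.2, mul_one] at h2
      exact_mod_cast h2
    · intro χ _ hne
      rw [classInner_smul_left, classInner_irr_of_ne χ.2 ζ.2 (fun h => hne (Subtype.ext h)), mul_zero]
    · intro h
      exact absurd (Finset.mem_univ _) h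
  have hm1 : m = 1 := by
    have h3 : c ζ ^ 2 ≤ ∑ χ, c χ ^ 2 := Finset.single_le_sum (f := fun χ => c χ ^ 2) (fun χ _ => sq_nonneg _) (Finset.mem_univ ζ)
    rw [hsum, hcζ] at h3
    have h4 : (m : ℤ) ≤ 1 := by
      by_contra h5
      push Not at h5
      nlinarith
    have h5 : m ≤ 1 := by exact_mod_cast h4
    omega
  refine ⟨hm1, ?_⟩
  subst hm1
  have hnorm : classInner (F - (ζ : G → ℂ)) (F - (ζ : G → ℂ)) = 1 := by
    rw [classInner_sub_left, classInner_sub_right, classInner_sub_right, hn, hm, classInner_irr_self ζ.2,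
      ← conj_classInner, hm]
    simp
    norm_num
  have hgen : IsGeneralizedCharacter G (F - (ζ : G → ℂ)) :=
    IsGeneralizedCharacter.sub hF (IsGeneralizedCharacter.of_isCharacter (IsIrrCharacter.isCharacter ζ.2))
  obtain ⟨ψ, hψ, h2 | h2⟩ := exists_irr_of_norm_one hgen hnorm
  · exfalso
    have h3 := congrFun h2 1
    simp only [Pi.sub_apply, h1, zero_sub] at h3
    rw [map_one_eq_charDegree (IsIrrCharacter.isCharacter ζ.2), map_one_eq_charDegree (IsIrrCharacter.isCharacter hψ)] at h3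
    have h4 := charDegree_pos_of_irr ζ.2
    have h5 := charDegree_pos_of_irr hψ
    have h6 : ((charDegree (ζ : G → ℂ) + charDegree ψ : ℕ) : ℂ) = 0 := by
      push_cast
      linear_combination -h3
    have h7 : charDegree (ζ : G → ℂ) + charDegree ψ = 0 := by exact_mod_cast h6
    omega
  · refine ⟨⟨ψ, hψ⟩, ?_, ?_⟩
    · intro h3
      have h4 : ψ = (ζ : G → ℂ) := congrArg Subtype.val h3
      rw [h4] at h2
      have h5 : F = 0 := by
        funext y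
        have := congrFun h2 y
        simp only [Pi.sub_apply, Pi.neg_apply, Pi.zero_apply] at this ⊢
        linear_combination this
      rw [h5] at hn
      rw [classInner_def] at hn
      simp at hn
    · funext y
      have := congrFun h2 y
      simp only [Pi.sub_apply, Pi.neg_apply] at this ⊢
      linear_combination this

namespace LD

variable (L : LD p x μ)
include L

/-- The value of the generalized character attached to a pair. -/
theorem exists_diff (ζ : IrrCharacter G) {ξ₀ : IrrCharacter CX} (hm : mm ζ ξ₀ ≠ 0) (hω : om p μ ξ₀ ≠ 0) {j : ZMod p}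
    (hη : mm ζ (tw μ j ξ₀) = 0) (hη0 : om p μ (tw μ j ξ₀) ≠ 0) (hab : ∀ (g : G) (_ : g ∈ NX), om p μ ξ₀ * sF x g p ≠ om p μ (tw μ j ξ₀)) :
    mm ζ ξ₀ = 1 ∧ ∃ ζ' : IrrCharacter G, ζ' ≠ ζ ∧ indFun CX ((ξ₀ : CX → ℂ) - (tw μ j ξ₀ : CX → ℂ)) = (ζ : G → ℂ) - (ζ' : G → ℂ) := by
  classical
  have hvan := L.vanish_sub j ξ₀
  have hgen : IsGeneralizedCharacter CX ((ξ₀ : CX → ℂ) - (tw μ j ξ₀ : CX → ℂ)) :=
    IsGeneralizedCharacter.sub (IsGeneralizedCharacter.of_isCharacter (IsIrrCharacter.isCharacter ξ₀.2))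
      (IsGeneralizedCharacter.of_isCharacter (IsIrrCharacter.isCharacter (tw μ j ξ₀).2))
  have hn : classInner (indFun CX ((ξ₀ : CX → ℂ) - (tw μ j ξ₀ : CX → ℂ))) (indFun CX ((ξ₀ : CX → ℂ) - (tw μ j ξ₀ : CX → ℂ))) = 2 := by
    rw [ft_inner_ind L.hX L.hx _ _ hvan]
    show TT x _ _ = 2
    rw [TT_sub, L.TT_self hω, L.TT_self hη0]
    have h1 : TT x (ξ₀ : CX → ℂ) (tw μ j ξ₀ : CX → ℂ) = 0 := by
      apply TT_zero
      intro g hg h2
      have h3 := L.om_cj hg (tw μ j ξ₀)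
      rw [h2] at h3
      apply hab g⁻¹ (Subgroup.inv_mem _ hg)
      rw [h3, mul_assoc, L.sF_mul_inv hg, mul_one]
    have h2 : TT x (tw μ j ξ₀ : CX → ℂ) (ξ₀ : CX → ℂ) = 0 := by
      apply TT_zero
      intro g hg h2
      have h3 := L.om_cj hg ξ₀
      rw [h2] at h3
      exact hab g hg h3.symm
    rw [h1, h2]
    norm_num
  have h1 : indFun CX ((ξ₀ : CX → ℂ) - (tw μ j ξ₀ : CX → ℂ)) 1 = 0 := by
    rw [indFun_one]
    apply mul_eq_zero_of_right
    simp only [Pi.sub_apply]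
    rw [L.tw_one, sub_self]
  have hm2 : classInner (indFun CX ((ξ₀ : CX → ℂ) - (tw μ j ξ₀ : CX → ℂ))) (ζ : G → ℂ) = (mm ζ ξ₀ : ℕ) := by
    rw [frobenius_reciprocity _ _ _ (IsCharacter.isClassFunction (IsIrrCharacter.isCharacter ζ.2))]
    show classInner _ (rs x (ζ : G → ℂ)) = _
    rw [classInner_sub_left, inner_rs_left, inner_rs_left, hη]
    simp
  exact norm_two_sub (indFun_isGeneralized CX hgen) hn h1 ζ hm2 hm

theorem cjI_mul {g h : G} (hg : g ∈ NX) (hh : h ∈ NX) (ξ : IrrCharacter CX) :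
    cjI (Subgroup.mul_mem _ hg hh) ξ = cjI hg (cjI hh ξ) := by
  apply Subtype.ext
  funext c
  rw [cjI_apply, cjI_apply, cjI_apply]
  apply congrArg
  apply Subtype.ext
  simp only [mul_inv_rev]
  group

theorem cjI_one (ξ : IrrCharacter CX) : cjI (Subgroup.one_mem NX) ξ = ξ :=
  L.cjI_of_mem _ (Subgroup.one_mem _) ξ

theorem cjI_inv {g : G} (hg : g ∈ NX) (ξ : IrrCharacter CX) : cjI (Subgroup.inv_mem _ hg) (cjI hg ξ) = ξ := by
  have h1 := L.cjI_mul (Subgroup.inv_mem _ hg) hg ξ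
  rw [← h1]
  apply L.cjI_of_mem
  rw [inv_mul_cancel]
  exact Subgroup.one_mem _

open Classical in
/-- The characters with nonzero central exponent in the restriction. -/
noncomputable def Sp (μ : Cen (Subgroup.zpowers x) →* ℂˣ) (ζ : IrrCharacter G) : Finset (IrrCharacter (Cen (Subgroup.zpowers x))) :=
  Finset.univ.filter fun ξ => mm ζ ξ ≠ 0 ∧ om p μ ξ ≠ 0

omit L in
open Classical in
theorem mem_Sp {ζ : IrrCharacter G} {ξ : IrrCharacter CX} : ξ ∈ Sp (p := p) μ ζ ↔ mm ζ ξ ≠ 0 ∧ om p μ ξ ≠ 0 := by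
  simp [Sp]

theorem exists_mem_Sp (ζ : IrrCharacter G) (hfaith : ∀ g, (ζ : G → ℂ) g = (ζ : G → ℂ) 1 → g = 1) :
    ∃ ξ, ξ ∈ Sp (p := p) μ ζ := by
  classical
  by_contra hcon
  push Not at hcon
  apply hp.out.one_lt.ne
  rw [← L.hx]
  have h1 : x = 1 := by
    apply hfaith
    have h2 := rs_eq_sum ζ (tx x)
    have h3 := rs_eq_sum ζ (1 : CX)
    have h4 : ((tx x : CX) : G) = x := rfl
    rw [h4] at h2
    rw [Subgroup.coe_one] at h3
    rw [h2, h3]
    refine Finset.sum_congr rfl fun ξ _ => ?_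
    by_cases hm : mm ζ ξ = 0
    · rw [hm]
      simp
    · have h5 : om p μ ξ = 0 := by
        by_contra h6
        exact hcon ξ (mem_Sp.2 ⟨hm, h6⟩)
      rw [L.om_spec ξ, h5, L.ee_zero, one_mul]
  rw [h1, orderOf_one]

/-- The first part of the key lemma. -/
theorem part1 (ζ : IrrCharacter G) (hfaith : ∀ g, (ζ : G → ℂ) g = (ζ : G → ℂ) 1 → g = 1)
    (hdeg : 2 * charDegree (ζ : G → ℂ) + 1 < p) :
    ∃ (ξ₀ : IrrCharacter CX) (b : ZMod p) (ζ' : IrrCharacter G), om p μ ξ₀ ≠ 0 ∧ mm ζ ξ₀ = 1 ∧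
      (∀ ξ, mm ζ ξ ≠ 0 → om p μ ξ ≠ 0 → mm ζ ξ = 1 ∧ ∃ (g : G) (hg : g ∈ NX), cjI hg ξ₀ = ξ) ∧ ζ' ≠ ζ ∧
      indFun CX ((ξ₀ : CX → ℂ) - (tw μ (b - om p μ ξ₀) ξ₀ : CX → ℂ)) = (ζ : G → ℂ) - (ζ' : G → ℂ) ∧ b ≠ 0 ∧
      (∀ (g : G) (_ : g ∈ NX) (ξ : IrrCharacter CX), om p μ ξ = b * sF x g p → mm ζ ξ = 0) := by
  classical
  haveI : NeZero p := ⟨hp.out.ne_zero⟩
  obtain ⟨S, hS⟩ : ∃ S : Finset (ZMod p), S = (Sp (p := p) μ ζ).image (om p μ) := ⟨_, rfl⟩
  have hmemS : ∀ {a : ZMod p}, a ∈ S ↔ ∃ ξ, mm ζ ξ ≠ 0 ∧ om p μ ξ ≠ 0 ∧ om p μ ξ = a := by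
    intro a
    rw [hS, Finset.mem_image]
    constructor
    · rintro ⟨ξ, hξ, rfl⟩
      exact ⟨ξ, (mem_Sp.1 hξ).1, (mem_Sp.1 hξ).2, rfl⟩
    · rintro ⟨ξ, h1, h2, h3⟩
      exact ⟨ξ, mem_Sp.2 ⟨h1, h2⟩, h3⟩
  have hS0 : ∀ a ∈ S, a ≠ 0 := by
    intro a ha
    obtain ⟨ξ, -, h2, rfl⟩ := hmemS.1 ha
    exact h2
  have hScard : S.card ≤ charDegree (ζ : G → ℂ) := by
    rw [hS]
    refine Finset.card_image_le.trans (card_supp_le ζ _ ?_)
    intro ξ hξ
    exact (mem_Sp.1 hξ).1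
  have hSinv : ∀ {a : ZMod p} {g : G}, a ∈ S → g ∈ NX → a * sF x g p ∈ S := by
    intro a g ha hg
    obtain ⟨ξ, h1, h2, rfl⟩ := hmemS.1 ha
    refine hmemS.2 ⟨cjI hg ξ, ?_, ?_, L.om_cj hg ξ⟩
    · rwa [inner_rs_cj]
    · rw [L.om_cj hg ξ]
      exact mul_ne_zero h2 (L.sF_ne_zero hg)
  have hSinv' : ∀ {a : ZMod p} {g : G}, a ∉ S → g ∈ NX → a * sF x g p ∉ S := by
    intro a g ha hg h1
    apply ha
    have h2 := hSinv h1 (Subgroup.inv_mem _ hg)
    rwa [mul_assoc, L.sF_mul_inv hg, mul_one] at h2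
  obtain ⟨ξ₀, hξ₀⟩ := L.exists_mem_Sp ζ hfaith
  obtain ⟨hm0, hω0⟩ := mem_Sp.1 hξ₀
  obtain ⟨Q, hQ⟩ : ∃ Q : Finset (ZMod p), Q = (Finset.univ.filter fun g : G => g ∈ NX).image (fun g => sF x g p) := ⟨_, rfl⟩
  have hmemQ : ∀ {s : ZMod p}, s ∈ Q ↔ ∃ g, g ∈ NX ∧ sF x g p = s := by
    intro s
    rw [hQ]
    simp
  have hQcard : Q.card ≤ S.card := by
    have h1 : (Q.image (fun s => om p μ ξ₀ * s)).card = Q.card :=
      Finset.card_image_of_injective _ (mul_right_injective₀ hω0)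
    rw [← h1]
    apply Finset.card_le_card
    intro y hy
    obtain ⟨s, hs, rfl⟩ := Finset.mem_image.1 hy
    obtain ⟨g, hg, rfl⟩ := hmemQ.1 hs
    exact hSinv (hmemS.2 ⟨ξ₀, hm0, hω0, rfl⟩) hg
  obtain ⟨B₁, hB₁⟩ : ∃ B₁ : Finset (ZMod p), B₁ = Finset.univ \ (S ∪ {0}) := ⟨_, rfl⟩
  have hB₁mem : ∀ {b : ZMod p}, b ∈ B₁ ↔ b ∉ S ∧ b ≠ 0 := by
    intro b
    rw [hB₁]
    simp
    exact and_comm
  have hB₁card : p - S.card - 1 ≤ B₁.card := by
    have h1 : B₁.card = Fintype.card (ZMod p) - (S ∪ {0}).card := by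
      rw [hB₁, Finset.card_sdiff_of_subset (Finset.subset_univ _), Finset.card_univ]
    rw [h1, ZMod.card]
    have h2 : (S ∪ {0}).card ≤ S.card + 1 := Finset.card_union_le _ _ |>.trans (by simp)
    omega
  have hB₁pos : Q.card < B₁.card := by omega
  obtain ⟨b₀, hb₀⟩ : B₁.Nonempty := Finset.card_pos.1 (by omega)
  obtain ⟨hb₀S, hb₀0⟩ := hB₁mem.1 hb₀
  have himg : (Q.image (fun s => b₀ * s)).card < B₁.card := lt_of_le_of_lt Finset.card_image_le hB₁pos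
  obtain ⟨b₁, hb₁, hb₁Q⟩ := Finset.exists_mem_notMem_of_card_lt_card himg
  obtain ⟨hb₁S, hb₁0⟩ := hB₁mem.1 hb₁
  have hb₁ne : ∀ g (hg : g ∈ NX), b₁ * sF x g p ≠ b₀ := by
    intro g hg h1
    apply hb₁Q
    refine Finset.mem_image.2 ⟨sF x g⁻¹ p, hmemQ.2 ⟨g⁻¹, Subgroup.inv_mem _ hg, rfl⟩, ?_⟩
    rw [← h1, mul_assoc, L.sF_mul_inv hg, mul_one]
  have hnotin : ∀ {b : ZMod p}, b ∉ S → ∀ ξ, om p μ ξ = b → b ≠ 0 → mm ζ ξ = 0 := by
    intro b hb ξ hξ hb0
    by_contra h1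
    exact hb (hmemS.2 ⟨ξ, h1, hξ ▸ hb0, hξ⟩)
  have hdiff : ∀ (ξ : IrrCharacter CX) (b : ZMod p), mm ζ ξ ≠ 0 → om p μ ξ ≠ 0 → b ∉ S → b ≠ 0 →
      mm ζ ξ = 1 ∧ ∃ ζ' : IrrCharacter G, ζ' ≠ ζ ∧ indFun CX ((ξ : CX → ℂ) - (tw μ (b - om p μ ξ) ξ : CX → ℂ)) = (ζ : G → ℂ) - (ζ' : G → ℂ) := by
    intro ξ b h1 h2 h3 h4
    have h5 : om p μ (tw μ (b - om p μ ξ) ξ) = b := by
      rw [L.om_tw]
      ring
    refine L.exists_diff ζ h1 h2 (hnotin h3 _ h5 h4) (by rwa [h5]) ?_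
    intro g hg h6
    rw [h5] at h6
    exact h3 (h6 ▸ hSinv (hmemS.2 ⟨ξ, h1, h2, rfl⟩) hg)
  obtain ⟨hm1, ζ₀', hζ₀ne, hζ₀⟩ := hdiff ξ₀ b₀ hm0 hω0 hb₀S hb₀0
  refine ⟨ξ₀, b₀, ζ₀', hω0, hm1, ?_, hζ₀ne, hζ₀, hb₀0, ?_⟩
  · intro ξ₁ hm hω
    obtain ⟨hm2, ζ₁', hζ₁ne, hζ₁⟩ := hdiff ξ₁ b₁ hm hω hb₁S hb₁0
    refine ⟨hm2, ?_⟩
    by_contra hcon
    push Not at hcon
    have hinner : classInner ((ζ : G → ℂ) - (ζ₀' : G → ℂ)) ((ζ : G → ℂ) - (ζ₁' : G → ℂ)) = 0 := by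
      rw [← hζ₀, ← hζ₁, ft_inner_ind L.hX L.hx _ _ (L.vanish_sub _ ξ₁)]
      show TT x _ _ = 0
      rw [TT_sub]
      have hom0 : om p μ (tw μ (b₀ - om p μ ξ₀) ξ₀) = b₀ := by
        rw [L.om_tw]
        ring
      have hom1 : om p μ (tw μ (b₁ - om p μ ξ₁) ξ₁) = b₁ := by
        rw [L.om_tw]
        ring
      have h1 : TT x (ξ₀ : CX → ℂ) (ξ₁ : CX → ℂ) = 0 := by
        apply TT_zero
        intro g hg h2
        apply hcon g⁻¹ (Subgroup.inv_mem _ hg)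
        rw [← h2, L.cjI_inv]
      have h2 : TT x (ξ₀ : CX → ℂ) (tw μ (b₁ - om p μ ξ₁) ξ₁ : CX → ℂ) = 0 := by
        apply TT_zero
        intro g hg h2
        have h3 := L.om_cj hg (tw μ (b₁ - om p μ ξ₁) ξ₁)
        rw [h2, hom1] at h3
        apply hSinv' hb₁S hg
        rw [← h3]
        exact hmemS.2 ⟨ξ₀, hm0, hω0, rfl⟩
      have h3 : TT x (tw μ (b₀ - om p μ ξ₀) ξ₀ : CX → ℂ) (ξ₁ : CX → ℂ) = 0 := by
        apply TT_zero
        intro g hg h2
        have h3 := L.om_cj hg ξ₁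
        rw [h2, hom0] at h3
        apply hb₀S
        rw [h3]
        exact hSinv (hmemS.2 ⟨ξ₁, hm, hω, rfl⟩) hg
      have h4 : TT x (tw μ (b₀ - om p μ ξ₀) ξ₀ : CX → ℂ) (tw μ (b₁ - om p μ ξ₁) ξ₁ : CX → ℂ) = 0 := by
        apply TT_zero
        intro g hg h2
        have h3 := L.om_cj hg (tw μ (b₁ - om p μ ξ₁) ξ₁)
        rw [h2, hom0, hom1] at h3
        exact hb₁ne g hg h3.symm
      rw [h1, h2, h3, h4]
      ring
    rw [classInner_sub_left, classInner_sub_right, classInner_sub_right, classInner_irr_self ζ.2,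
      classInner_irr_of_ne ζ.2 ζ₁'.2 (fun h => hζ₁ne (Subtype.ext h).symm),
      classInner_irr_of_ne ζ₀'.2 ζ.2 (fun h => hζ₀ne (Subtype.ext h))] at hinner
    by_cases he : ζ₀' = ζ₁'
    · rw [he, classInner_irr_self ζ₁'.2] at hinner
      norm_num at hinner
    · rw [classInner_irr_of_ne ζ₀'.2 ζ₁'.2 (fun h => he (Subtype.ext h))] at hinner
      norm_num at hinner
  · intro g hg ξ hξ
    by_contra h1
    have hne : b₀ * sF x g p ≠ 0 := mul_ne_zero hb₀0 (L.sF_ne_zero hg)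
    exact hSinv' hb₀S hg (hmemS.2 ⟨ξ, h1, hξ ▸ hne, hξ⟩)

end LD

end FT3

end Cfsg.Agent.Lib.FF
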