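import Cfsg.Agent.Lib.FF.FT3

/-!
# Groups whose order is divisible exactly once by `p`: local structure at an element of order `p`
-/

set_option autoImplicit false
set_option linter.unusedSectionVars false
set_option linter.unusedVariables false
set_option maxSynthPendingDepth 3
set_option linter.style.haveILetI false
set_option linter.unusedSimpArgs false
set_option linter.unnecessarySimpa false

open scoped ComplexConjugate Pointwise
open Module Cfsg Cfsg.Agent.Lib.Block Cfsg.Agent.Lib.Char Cfsg.Agent.Lib.CharExtra Cfsg.Agent.Lib.BPair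

namespace Cfsg.Agent.Lib.FF

attribute [local instance] Cfsg.Agent.Lib.BPair.subFintype

section PB

variable {X : Type*} [Group X] [Fintype X] {p : ℕ} [hp : Fact p.Prime] {M : Ideal AlgInt} {B : Set (IrrCharacter X)}

/-- The data of a block with a defect group of order `p`. -/
structure PB (p : ℕ) [Fact p.Prime] (M : Ideal AlgInt) (B : Set (IrrCharacter X)) (XS YS : Finset (IrrCharacter X)) (δ : IrrCharacter X → ℤ) (δ₀ : ℤ) : Prop where
  hM : IsPModular p M
  hBb : IsPBlock M B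
  hB : ∀ χ, χ ∈ B ↔ χ ∈ XS ∨ χ ∈ YS
  hdis : Disjoint XS YS
  hpos : 0 < XS.card
  hmul : XS.card * YS.card = p - 1
  hrank : blockRank p B = XS.card
  hδ : ∀ χ ∈ XS, δ χ = 1 ∨ δ χ = -1
  hδ₀ : δ₀ = 1 ∨ δ₀ = -1
  hrel : ∀ ψ ∈ YS, ∀ g : X, ¬ p ∣ orderOf g → (δ₀ : ℂ) * (ψ : X → ℂ) g + ∑ χ ∈ XS, (δ χ : ℂ) * (χ : X → ℂ) g = 0

namespace PB

variable {XS YS : Finset (IrrCharacter X)} {δ : IrrCharacter X → ℤ} {δ₀ : ℤ}



theorem del_sq (D : PB p M B XS YS δ δ₀) {χ : IrrCharacter X} (h : χ ∈ XS) : (δ χ : ℂ) * (δ χ : ℂ) = 1 := by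
  rcases D.hδ χ h with h | h <;> rw [h] <;> simp

theorem del0_sq (D : PB p M B XS YS δ δ₀) : (δ₀ : ℂ) * (δ₀ : ℂ) = 1 := by
  rcases D.hδ₀ with h | h <;> rw [h] <;> simp

open Classical in
theorem indep (D : PB p M B XS YS δ δ₀) (a : IrrCharacter X → ℂ)
    (h : ∀ y : X, ¬ p ∣ orderOf y → ∑ χ ∈ XS, a χ * (χ : X → ℂ) y = 0) : ∀ χ ∈ XS, a χ = 0 := by
  let f : XS → (X → ℂ) := fun χ => pRegularPart p ((χ : IrrCharacter X) : X → ℂ)
  have hspan : Submodule.span ℂ (Set.range f) = regSpan p B := by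
    apply le_antisymm
    · rw [Submodule.span_le]
      rintro _ ⟨χ, rfl⟩
      exact Submodule.subset_span ⟨χ, (D.hB _).2 (Or.inl χ.2), rfl⟩
    · refine Submodule.span_le.2 ?_
      rintro _ ⟨χ, hχ, rfl⟩
      rcases (D.hB χ).1 hχ with h1 | h1
      · exact Submodule.subset_span ⟨⟨χ, h1⟩, rfl⟩
      · show pRegularPart p (χ : X → ℂ) ∈ _
        have h2 : pRegularPart p (χ : X → ℂ) = ∑ τ : XS, (-(δ₀ : ℂ) * (δ (τ : IrrCharacter X) : ℂ)) • f τ := by
          funext y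
          rw [Finset.sum_apply]
          by_cases hy : p ∣ orderOf y
          · rw [pRegularPart_eq_zero_of_dvd _ hy]
            symm
            refine Finset.sum_eq_zero fun τ _ => ?_
            simp only [Pi.smul_apply, f, pRegularPart_eq_zero_of_dvd _ hy, smul_zero]
          · rw [pRegularPart_eq_of_regular _ hy]
            have h3 := D.hrel χ h1 y hy
            have h4 : (∑ τ : XS, (-(δ₀ : ℂ) * (δ (τ : IrrCharacter X) : ℂ)) • f τ) y =
                -(δ₀ : ℂ) * ∑ τ ∈ XS, (δ τ : ℂ) * (τ : X → ℂ) y := by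
              rw [Finset.sum_apply, Finset.mul_sum, ← Finset.sum_coe_sort XS]
              refine Finset.sum_congr rfl fun τ _ => ?_
              simp only [Pi.smul_apply, f, pRegularPart_eq_of_regular _ hy, smul_eq_mul]
              ring
            rw [← Finset.sum_apply, h4]
            have h5 : ∑ τ ∈ XS, (δ τ : ℂ) * (τ : X → ℂ) y = -((δ₀ : ℂ) * (χ : X → ℂ) y) := by
              rw [eq_neg_iff_add_eq_zero, add_comm]
              exact h3
            rw [h5]
            have h6 := D.del0_sq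
            linear_combination (-(χ : X → ℂ) y) * h6
        rw [h2]
        exact Submodule.sum_mem _ fun τ _ => Submodule.smul_mem _ _ (Submodule.subset_span ⟨τ, rfl⟩)
  have hli : LinearIndependent ℂ f := by
    rw [linearIndependent_iff_card_eq_finrank_span]
    rw [Set.finrank, hspan]
    have h1 := D.hrank
    unfold blockRank at h1
    have h2 : Fintype.card XS = XS.card := Fintype.card_coe XS
    rw [h2, ← h1]
  have h1 := Fintype.linearIndependent_iff.1 hli (fun τ => a τ) (by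
    funext y
    rw [Finset.sum_apply]
    by_cases hy : p ∣ orderOf y
    · refine Finset.sum_eq_zero fun τ _ => ?_
      simp only [Pi.smul_apply, f, pRegularPart_eq_zero_of_dvd _ hy, smul_zero]
    · have h2 := h y hy
      rw [← Finset.sum_coe_sort XS] at h2
      rw [Pi.zero_apply, ← h2]
      refine Finset.sum_congr rfl fun τ _ => ?_
      simp only [Pi.smul_apply, f, pRegularPart_eq_of_regular _ hy, smul_eq_mul])
  intro χ hχ
  exact h1 ⟨χ, hχ⟩

open Classical in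
theorem coeff_zero (D : PB p M B XS YS δ δ₀) (a : IrrCharacter X → ℂ)
    (h1 : ∀ τ, τ ∉ B → a τ = 0)
    (h2 : ∀ y : X, ¬ p ∣ orderOf y → ∑ τ : IrrCharacter X, a τ * (τ : X → ℂ) y = 0)
    (h3 : ∀ ψ ∈ YS, (δ₀ : ℂ) * a ψ + ∑ χ ∈ XS, (δ χ : ℂ) * a χ = 0) : ∀ τ, a τ = 0 := by
  have hsplit : ∀ y : X, ∑ τ : IrrCharacter X, a τ * (τ : X → ℂ) y =
      ∑ χ ∈ XS, a χ * (χ : X → ℂ) y + ∑ ψ ∈ YS, a ψ * (ψ : X → ℂ) y := by
    intro y
    rw [← Finset.sum_union D.hdis]
    symm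
    refine Finset.sum_subset (Finset.subset_univ _) fun τ _ hτ => ?_
    rw [h1 τ (fun h => hτ (Finset.mem_union.2 ((D.hB τ).1 h))), zero_mul]
  obtain ⟨A, hA⟩ : ∃ A, A = ∑ ψ ∈ YS, a ψ := ⟨_, rfl⟩
  have h4 : ∀ χ ∈ XS, a χ = (δ₀ : ℂ) * A * (δ χ : ℂ) := by
    intro χ hχ
    have h5 := D.indep (fun χ => a χ - (δ₀ : ℂ) * A * (δ χ : ℂ)) (by
      intro y hy
      have h6 := h2 y hy
      rw [hsplit] at h6
      have h7 : ∀ ψ ∈ YS, a ψ * (ψ : X → ℂ) y = - (a ψ * (δ₀ : ℂ) * ∑ τ ∈ XS, (δ τ : ℂ) * (τ : X → ℂ) y) := by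
        intro ψ hψ
        have h8 := D.hrel ψ hψ y hy
        have h9 := D.del0_sq
        linear_combination (a ψ * (δ₀ : ℂ)) * h8 - (a ψ * (ψ : X → ℂ) y) * h9
      rw [Finset.sum_congr rfl h7, Finset.sum_neg_distrib, ← Finset.sum_mul, ← Finset.sum_mul, ← hA] at h6
      simp only [sub_mul, Finset.sum_sub_distrib]
      have h10 : ∑ χ ∈ XS, (δ₀ : ℂ) * A * (δ χ : ℂ) * (χ : X → ℂ) y = A * (δ₀ : ℂ) * ∑ τ ∈ XS, (δ τ : ℂ) * (τ : X → ℂ) y := by
        rw [Finset.mul_sum]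
        refine Finset.sum_congr rfl fun τ _ => ?_
        ring
      rw [h10]
      linear_combination h6) χ hχ
    exact sub_eq_zero.1 h5
  have h5 : ∀ ψ ∈ YS, a ψ = - (A * (XS.card : ℂ)) := by
    intro ψ hψ
    have h6 := h3 ψ hψ
    have h7 : ∑ χ ∈ XS, (δ χ : ℂ) * a χ = (δ₀ : ℂ) * A * (XS.card : ℂ) := by
      have : ((XS.card : ℕ) : ℂ) = ∑ _x ∈ XS, (1 : ℂ) := by simp
      rw [this, Finset.mul_sum]
      refine Finset.sum_congr rfl fun χ hχ => ?_
      rw [h4 χ hχ]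
      have h8 := D.del_sq hχ
      linear_combination ((δ₀ : ℂ) * A) * h8
    rw [h7] at h6
    have h9 := D.del0_sq
    linear_combination (δ₀ : ℂ) * h6 - (a ψ + A * (XS.card : ℂ)) * h9
  have hA0 : A = 0 := by
    have h6 : A = ∑ ψ ∈ YS, - (A * (XS.card : ℂ)) := hA.trans (Finset.sum_congr rfl h5)
    rw [Finset.sum_const, nsmul_eq_mul] at h6
    have h7 : A * ((XS.card : ℂ) * (YS.card : ℂ) + 1) = 0 := by
      linear_combination h6
    have h8 : ((XS.card : ℂ) * (YS.card : ℂ) + 1) = (p : ℂ) := by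
      have h9 : XS.card * YS.card + 1 = p := by
        have := D.hmul
        have := hp.out.two_le
        omega
      exact_mod_cast h9
    rw [h8] at h7
    exact (mul_eq_zero.1 h7).resolve_right (by exact_mod_cast hp.out.ne_zero)
  intro τ
  by_cases hτ : τ ∈ B
  · rcases (D.hB τ).1 hτ with h | h
    · rw [h4 τ h, hA0]
      simp
    · rw [h5 τ h, hA0]
      simp
  · exact h1 τ hτ






theorem inner_phi_irr_of_notMem (D : PB p M B XS YS δ δ₀) {χ₀ τ : IrrCharacter X} (h0 : χ₀ ∈ XS) (hτ : τ ∉ B) :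
    classInner (phiP YS δ δ₀ χ₀) (τ : X → ℂ) = 0 := by
  rw [PD.phi_eq, classInner_sub_left, classInner_smul_left, classInner_smul_left, classInner_sum_left]
  have h1 : classInner (χ₀ : X → ℂ) (τ : X → ℂ) = 0 := classInner_irr_of_ne χ₀.2 τ.2 (fun h => hτ ((D.hB τ).2 (Or.inl (by
    have : χ₀ = τ := Subtype.ext h
    rwa [← this]))))
  have h2 : ∀ ψ ∈ YS, classInner (ψ : X → ℂ) (τ : X → ℂ) = 0 := fun ψ hψ =>
    classInner_irr_of_ne ψ.2 τ.2 (fun h => hτ ((D.hB τ).2 (Or.inr (by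
      have : ψ = τ := Subtype.ext h
      rwa [← this]))))
  rw [h1, Finset.sum_eq_zero h2]
  simp


theorem pReg_phi_mem (D : PB p M B XS YS δ δ₀) {χ₀ : IrrCharacter X} (h0 : χ₀ ∈ XS) :
    pRegularPart p (phiP YS δ δ₀ χ₀) ∈ regSpan p B := by
  rw [PD.pReg_phi]
  refine Submodule.sub_mem _ (Submodule.smul_mem _ _ (Submodule.subset_span ⟨χ₀, (D.hB _).2 (Or.inl h0), rfl⟩)) ?_
  refine Submodule.smul_mem _ _ (Submodule.sum_mem _ fun ψ hψ => Submodule.subset_span ⟨ψ, (D.hB _).2 (Or.inr hψ), rfl⟩)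

/-- The inner product of two members of `XS ∪ YS`. -/
theorem inner_X_rel (D : PB p M B XS YS δ δ₀) {χ₀ ψ' : IrrCharacter X} (h0 : χ₀ ∈ XS) (hψ' : ψ' ∈ YS) :
    classInner (χ₀ : X → ℂ) (fun y => (δ₀ : ℂ) * (ψ' : X → ℂ) y + ∑ χ ∈ XS, (δ χ : ℂ) * (χ : X → ℂ) y) = (δ χ₀ : ℂ) := by
  classical
  have e : (fun y => (δ₀ : ℂ) * (ψ' : X → ℂ) y + ∑ χ ∈ XS, (δ χ : ℂ) * (χ : X → ℂ) y) =
      (δ₀ : ℂ) • (ψ' : X → ℂ) + ∑ χ ∈ XS, (δ χ : ℂ) • (χ : X → ℂ) := by
    funext y
    simp [Finset.sum_apply]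
  rw [e, classInner_add_right, classInner_smul_right, classInner_sum_right]
  have h1 : classInner (χ₀ : X → ℂ) (ψ' : X → ℂ) = 0 := classInner_irr_of_ne χ₀.2 ψ'.2 (fun h => by
    have : χ₀ = ψ' := Subtype.ext h
    rw [this] at h0
    exact Finset.disjoint_left.1 D.hdis h0 hψ')
  rw [h1, mul_zero, zero_add, Finset.sum_eq_single χ₀]
  · rw [classInner_smul_right, classInner_irr_self χ₀.2, mul_one, map_intCast]
  · intro χ hχ hne
    rw [classInner_smul_right, classInner_irr_of_ne χ₀.2 χ.2 (fun h => hne (Subtype.ext h).symm), mul_zero]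
  · intro h
    exact absurd h0 h

theorem inner_Y_rel (D : PB p M B XS YS δ δ₀) {ψ ψ' : IrrCharacter X} (hψ : ψ ∈ YS) (hψ' : ψ' ∈ YS) :
    classInner (ψ : X → ℂ) (fun y => (δ₀ : ℂ) * (ψ' : X → ℂ) y + ∑ χ ∈ XS, (δ χ : ℂ) * (χ : X → ℂ) y) =
      if ψ = ψ' then (δ₀ : ℂ) else 0 := by
  classical
  have e : (fun y => (δ₀ : ℂ) * (ψ' : X → ℂ) y + ∑ χ ∈ XS, (δ χ : ℂ) * (χ : X → ℂ) y) =
      (δ₀ : ℂ) • (ψ' : X → ℂ) + ∑ χ ∈ XS, (δ χ : ℂ) • (χ : X → ℂ) := by
    funext y
    simp [Finset.sum_apply]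
  rw [e, classInner_add_right, classInner_smul_right, classInner_sum_right]
  rw [Finset.sum_eq_zero, add_zero]
  · by_cases h : ψ = ψ'
    · subst h
      rw [classInner_irr_self ψ.2, mul_one, if_pos rfl, map_intCast]
    · rw [classInner_irr_of_ne ψ.2 ψ'.2 (fun h' => h (Subtype.ext h')), mul_zero, if_neg h]
  · intro χ hχ
    rw [classInner_smul_right, classInner_irr_of_ne ψ.2 χ.2 (fun h => by
      have : ψ = χ := Subtype.ext h
      rw [this] at hψ
      exact Finset.disjoint_left.1 D.hdis hχ hψ), mul_zero]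

/-- The combination vanishes on the singular elements. -/
theorem phi_vanish (D : PB p M B XS YS δ δ₀) {χ₀ : IrrCharacter X} (h0 : χ₀ ∈ XS) {c : X} (hc : p ∣ orderOf c) :
    phiP YS δ δ₀ χ₀ c = 0 := by
  classical
  obtain ⟨g, hg⟩ : ∃ g, g = phiP YS δ δ₀ χ₀ := ⟨_, rfl⟩
  obtain ⟨h, hh⟩ : ∃ h, h = g - pRegularPart p g := ⟨_, rfl⟩
  have hgc : IsClassFunction X g := by
    rw [hg]
    exact PD.phi_cf _ _ _ _
  have hcf : IsClassFunction X h := by
    rw [hh]
    intro a b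
    simp only [Pi.sub_apply]
    rw [hgc a b, isClassFunction_pRegularPart hgc a b]
  have hreg : ∀ y : X, ¬ p ∣ orderOf y → h y = 0 := by
    intro y hy
    rw [hh]
    simp [pRegularPart_eq_of_regular _ hy]
  have hexp := classFunction_eq_sum h hcf
  have hall := D.coeff_zero (fun τ => classInner h (τ : X → ℂ))
    (by
      intro τ hτ
      rw [hh, classInner_sub_left, hg, D.inner_phi_irr_of_notMem h0 hτ,
        classInner_regSpan_of_notMem D.hM D.hBb (D.pReg_phi_mem h0) hτ, sub_zero])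
    (by
      intro y hy
      have h1 := congrFun hexp y
      rw [Finset.sum_apply] at h1
      rw [hreg y hy] at h1
      simp only [Pi.smul_apply, smul_eq_mul] at h1
      exact h1.symm)
    (by
      intro ψ' hψ'
      obtain ⟨r, hr⟩ : ∃ r : X → ℂ, r = (fun y => (δ₀ : ℂ) * (ψ' : X → ℂ) y + ∑ χ ∈ XS, (δ χ : ℂ) * (χ : X → ℂ) y) := ⟨_, rfl⟩
      have e : r = (δ₀ : ℂ) • (ψ' : X → ℂ) + ∑ χ ∈ XS, (δ χ : ℂ) • (χ : X → ℂ) := by
        rw [hr]
        funext y
        simp [Finset.sum_apply]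
      have h1 : classInner h r = (δ₀ : ℂ) * classInner h (ψ' : X → ℂ) + ∑ χ ∈ XS, (δ χ : ℂ) * classInner h (χ : X → ℂ) := by
        rw [e, classInner_add_right, classInner_smul_right, classInner_sum_right, map_intCast]
        congr 1
        refine Finset.sum_congr rfl fun χ _ => ?_
        rw [classInner_smul_right, map_intCast]
      rw [← h1, hh, classInner_sub_left]
      have h2 : classInner (pRegularPart p g) r = 0 := by
        rw [classInner_def]
        refine mul_eq_zero_of_right _ (Finset.sum_eq_zero fun y _ => ?_)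
        by_cases hy : p ∣ orderOf y
        · rw [pRegularPart_eq_zero_of_dvd _ hy, zero_mul]
        · have h3 := D.hrel ψ' hψ' y hy
          rw [hr]
          simp only
          rw [h3, map_zero, mul_zero]
      have h3 : classInner g r = 0 := by
        rw [hg, PD.phi_eq, classInner_sub_left, classInner_smul_left, classInner_smul_left, classInner_sum_left, hr,
          D.inner_X_rel h0 hψ', Finset.sum_congr rfl (fun ψ hψ => D.inner_Y_rel hψ hψ'), Finset.sum_ite_eq' YS ψ',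
          if_pos hψ', D.del_sq h0, D.del0_sq, sub_self]
      rw [h2, h3, sub_zero])
  have h1 : h = 0 := by
    rw [hexp]
    exact Finset.sum_eq_zero fun τ _ => by
      rw [hall τ, zero_smul]
  have h2 := congrFun h1 c
  rw [hh] at h2
  simp only [Pi.sub_apply, Pi.zero_apply, pRegularPart_eq_zero_of_dvd _ hc, sub_zero] at h2
  rw [← hg]
  exact h2


theorem agree (D : PB p M B XS YS δ δ₀) {ψ ψ' : IrrCharacter X} (h : ψ ∈ YS) (h' : ψ' ∈ YS) {g : X} (hg : ¬ p ∣ orderOf g) :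
    (ψ : X → ℂ) g = (ψ' : X → ℂ) g := by
  have h1 := D.hrel ψ h g hg
  have h2 := D.hrel ψ' h' g hg
  have h3 := D.del0_sq
  linear_combination ((δ₀ : ℂ)) * h1 - ((δ₀ : ℂ)) * h2 - ((ψ : X → ℂ) g - (ψ' : X → ℂ) g) * h3

/-- The norm of the regular part of a member of `YS`. -/
theorem norm_reg (D : PB p M B XS YS δ δ₀) {ψ : IrrCharacter X} (hψ : ψ ∈ YS) :
    (p : ℂ) * classInner (pRegularPart p (ψ : X → ℂ)) (pRegularPart p (ψ : X → ℂ)) = XS.card := by
  classical
  have hsum : (fun y => (p : ℂ) * pRegularPart p (ψ : X → ℂ) y) = ∑ χ ∈ XS, (-(δ₀ : ℂ)) • phiP YS δ δ₀ χ := by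
    funext y
    rw [Finset.sum_apply]
    by_cases hy : p ∣ orderOf y
    · rw [pRegularPart_eq_zero_of_dvd _ hy, mul_zero]
      symm
      refine Finset.sum_eq_zero fun χ hχ => ?_
      rw [Pi.smul_apply, D.phi_vanish hχ hy, smul_zero]
    · rw [pRegularPart_eq_of_regular _ hy]
      have h1 : ∀ χ ∈ XS, ((-(δ₀ : ℂ)) • phiP YS δ δ₀ χ) y = -(δ₀ : ℂ) * ((δ χ : ℂ) * (χ : X → ℂ) y) + (δ₀ : ℂ) * (δ₀ : ℂ) * ∑ ψ' ∈ YS, (ψ' : X → ℂ) y := by
        intro χ _
        simp only [Pi.smul_apply, smul_eq_mul, phiP]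
        ring
      rw [Finset.sum_congr rfl h1, Finset.sum_add_distrib, ← Finset.mul_sum, Finset.sum_const, D.del0_sq, one_mul]
      have h2 : ∑ ψ' ∈ YS, (ψ' : X → ℂ) y = (YS.card : ℂ) * (ψ : X → ℂ) y := by
        rw [Finset.sum_congr rfl (fun ψ' hψ' => D.agree hψ' hψ hy), Finset.sum_const, nsmul_eq_mul]
      rw [h2]
      have h3 := D.hrel ψ hψ y hy
      have h4 : ∑ χ ∈ XS, (δ χ : ℂ) * (χ : X → ℂ) y = -((δ₀ : ℂ) * (ψ : X → ℂ) y) := by
        rw [eq_neg_iff_add_eq_zero, add_comm]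
        exact h3
      rw [h4, nsmul_eq_mul]
      have h5 : (p : ℂ) = (XS.card : ℂ) * (YS.card : ℂ) + 1 := by
        have h6 : XS.card * YS.card + 1 = p := by
          have := D.hmul
          have := hp.out.two_le
          omega
        exact_mod_cast h6.symm
      have h6 := D.del0_sq
      rw [h5]
      linear_combination (-(ψ : X → ℂ) y) * h6
  have h1 : classInner (pRegularPart p (ψ : X → ℂ)) (pRegularPart p (ψ : X → ℂ)) = classInner (pRegularPart p (ψ : X → ℂ)) (ψ : X → ℂ) := by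
    rw [classInner_def, classInner_def]
    congr 1
    refine Finset.sum_congr rfl fun y _ => ?_
    by_cases hy : p ∣ orderOf y
    · rw [pRegularPart_eq_zero_of_dvd _ hy, zero_mul, zero_mul]
    · rw [pRegularPart_eq_of_regular _ hy]
  rw [h1]
  have h2 : (p : ℂ) * classInner (pRegularPart p (ψ : X → ℂ)) (ψ : X → ℂ) = classInner (fun y => (p : ℂ) * pRegularPart p (ψ : X → ℂ) y) (ψ : X → ℂ) := by
    have : (fun y => (p : ℂ) * pRegularPart p (ψ : X → ℂ) y) = (p : ℂ) • pRegularPart p (ψ : X → ℂ) := by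
      funext y
      rfl
    rw [this, classInner_smul_left]
  rw [h2, hsum, classInner_sum_left]
  have h3 : ∀ χ ∈ XS, classInner ((-(δ₀ : ℂ)) • phiP YS δ δ₀ χ) (ψ : X → ℂ) = 1 := by
    intro χ hχ
    rw [classInner_smul_left, PD.phi_eq, classInner_sub_left, classInner_smul_left, classInner_smul_left, classInner_sum_left,
      classInner_irr_of_ne χ.2 ψ.2 (fun h => by
        have : χ = ψ := Subtype.ext h
        rw [this] at hχ
        exact Finset.disjoint_left.1 D.hdis hχ hψ), Finset.sum_eq_single ψ, classInner_irr_self ψ.2]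
    · have h6 := D.del0_sq
      linear_combination h6
    · intro ψ' _ hne
      exact classInner_irr_of_ne ψ'.2 ψ.2 (fun h => hne (Subtype.ext h))
    · intro h
      exact absurd hψ h
  rw [Finset.sum_congr rfl h3, Finset.sum_const, nsmul_eq_mul, mul_one]

/-- Distinct members of `XS` differ on the regular elements. -/
theorem X_inj (D : PB p M B XS YS δ δ₀) {χ₁ χ₂ : IrrCharacter X} (h1 : χ₁ ∈ XS) (h2 : χ₂ ∈ XS)
    (h : ∀ y : X, ¬ p ∣ orderOf y → (χ₁ : X → ℂ) y = (χ₂ : X → ℂ) y) : χ₁ = χ₂ := by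
  classical
  by_contra hne
  have h3 := D.indep (fun χ => (if χ = χ₁ then 1 else 0) - (if χ = χ₂ then 1 else 0)) (by
    intro y hy
    simp only [sub_mul, Finset.sum_sub_distrib, ite_mul, one_mul, zero_mul]
    rw [Finset.sum_ite_eq' XS χ₁, Finset.sum_ite_eq' XS χ₂, if_pos h1, if_pos h2, h y hy, sub_self]) χ₁ h1
  simp only [if_true, if_neg hne, sub_zero] at h3
  exact one_ne_zero h3

/-- If a member of `XS` agrees with a member of `YS` on the regular elements, then `XS` is a singleton. -/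
theorem exists_Y_of_agree (D : PB p M B XS YS δ δ₀) {ζ ζ' : IrrCharacter X} (h1 : ζ ∈ B) (h2 : ζ' ∈ B) (hne : ζ ≠ ζ')
    (h : ∀ y : X, ¬ p ∣ orderOf y → (ζ : X → ℂ) y = (ζ' : X → ℂ) y) : ζ ∈ YS ∨ ζ' ∈ YS := by
  rcases (D.hB ζ).1 h1 with h3 | h3
  · rcases (D.hB ζ').1 h2 with h4 | h4
    · exact absurd (D.X_inj h3 h4 h) hne
    · exact Or.inr h4
  · exact Or.inl h3

end PB

section PBex

variable {G : Type*} [Group G] [Fintype G] {p : ℕ} [hp : Fact p.Prime] {M : Ideal AlgInt} {B : Set (IrrCharacter G)}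

open Classical in
theorem exists_pb (hM : IsPModular p M) (hB : IsPBlock M B) {D : Subgroup G} (hDc : Nat.card D = p)
    (hBD : IsDefectGroup p M B D) {c : Set (IrrCharacter (Cen D))} (hind : IsInducedBlock M (Cen D) c B) {T : Subgroup G}
    (hT : ∀ g, g ∈ T ↔ g ∈ Subgroup.normalizer (D : Set G) ∧ StabilizesBlock (Cen D) c g) :
    ∃ (XS YS : Finset (IrrCharacter G)) (δ : IrrCharacter G → ℤ) (δ₀ : ℤ), PB p M B XS YS δ δ₀ ∧ XS.card = (Cen D).relIndex T := by
  have hP : Nat.card D = p ^ (0 + 1) := by simpa using hDc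
  have hcyc : IsCyclic D := by
    haveI : Fact (Nat.Prime (Nat.card D)) := ⟨by
      rw [hDc]
      exact hp.out⟩
    exact isCyclic_of_prime_card rfl
  obtain ⟨h1, h2, h3, A, Y, hAY, hdis, hA, hY, h6, δ, δ₀, hδ, hδ₀, hrel, h7, h8⟩ :=
    cyc_main hM hB hcyc hP hBD hind hT rfl
  have hAf : A.Finite := Set.toFinite _
  have hYf : Y.Finite := Set.toFinite _
  have h9 : hAf.toFinset.card = (Cen D).relIndex T := by
    rw [← hA, Nat.card_eq_card_finite_toFinset hAf]
  have h10 : hYf.toFinset.card = (p ^ (0 + 1) - 1) / (Cen D).relIndex T := by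
    rw [← hY, Nat.card_eq_card_finite_toFinset hYf]
  refine ⟨hAf.toFinset, hYf.toFinset, δ, δ₀, ⟨hM, hB, ?_, ?_, ?_, ?_, ?_, ?_, hδ₀, ?_⟩, h9⟩
  · intro χ
    rw [hAY]
    simp
  · rw [Finset.disjoint_left]
    intro a ha hb
    simp only [Set.Finite.mem_toFinset] at ha hb
    exact Set.disjoint_left.1 hdis ha hb
  · rw [h9]
    exact Nat.pos_of_ne_zero (by
      intro h0
      have : p - 1 = 0 := by
        obtain ⟨k, hk⟩ := h1
        rw [hk, h0, zero_mul]
      have := hp.out.two_le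
      omega)
  · rw [h9, h10, zero_add, pow_one]
    exact Nat.mul_div_cancel' h1
  · rw [h9]
    exact h3
  · intro χ hχ
    exact hδ χ (by simpa using hχ)
  · intro ψ hψ g hg
    have h9 := hrel ψ (by simpa using hψ) g hg
    have h10 : ∑ᶠ χ ∈ A, (δ χ : ℂ) * (χ : G → ℂ) g = ∑ χ ∈ hAf.toFinset, (δ χ : ℂ) * (χ : G → ℂ) g := by
      conv_lhs => rw [show A = ↑hAf.toFinset from (Set.Finite.coe_toFinset hAf).symm]
      rw [finsum_mem_coe_finset]
    rw [← h10]
    exact h9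

end PBex

end PB

end Cfsg.Agent.Lib.FF
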