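import Cfsg.Agent.Lib.FF.FT4

/-!
# Groups whose order is divisible exactly once by `p`: local structure at an element of order `p`
-/

set_option autoImplicit false
set_option linter.unusedSectionVars false
set_option linter.unusedVariables false
set_option maxSynthPendingDepth 3
set_option linter.style.haveILetI false
set_option linter.unusedSimpArgs false
set_option linter.unnecessarySimpa false

open scoped ComplexConjugate Pointwise
open Module Cfsg Cfsg.Agent.Lib.Block Cfsg.Agent.Lib.Char Cfsg.Agent.Lib.CharExtra Cfsg.Agent.Lib.BPair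

namespace Cfsg.Agent.Lib.FF

attribute [local instance] Cfsg.Agent.Lib.BPair.subFintype


section FT5

variable {G : Type*} [Group G] [Fintype G] {p : ℕ} [hp : Fact p.Prime] {x : G} {μ : Cen (Subgroup.zpowers x) →* ℂˣ} {M : Ideal AlgInt}

local notation "CX" => Cen (Subgroup.zpowers x)
local notation "NX" => Subgroup.normalizer ((Subgroup.zpowers x : Subgroup G) : Set G)

theorem root_sub_one_mem (hM : IsPModular p M) {ν : ℂ} (hl : MemLocalRing M ν) (hν : ν ^ p = 1) : MemLocalIdeal M (ν - 1) := by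
  have := isPModular_isPrime hM
  have hl' : MemLocalRing M (ν - 1) := memLocalRing_sub hl memLocalRing_one
  apply memLocalIdeal_of_pow hl' (n := p)
  have h1 := memLocalIdeal_add_pow_prime_sub hM hl (memLocalRing_neg memLocalRing_one)
  have h2 : ν + -1 = ν - 1 := by ring
  rw [h2, hν] at h1
  rcases hp.out.eq_two_or_odd' with h3 | h3
  · subst h3
    have h4 := memLocalIdeal_p hM
    have h5 := memLocalIdeal_add h1 h4
    convert h5 using 1
    push_cast
    ring
  · rw [h3.neg_one_pow] at h1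
    simpa using h1

theorem tw_sameBlock (L : LD p x μ) (hM : IsPModular p M) (j : ZMod p) (ξ : IrrCharacter CX) :
    tw μ j ξ ∈ blockOf M (ξ : CX → ℂ) := by
  have := isPModular_isPrime hM
  rw [mem_blockOf_iff]
  intro g
  unfold tw
  rw [centralChar_twistI]
  have h1 : MemLocalIdeal M (((μ ^ j.val) g : ℂˣ) - 1 : ℂ) := by
    apply root_sub_one_mem hM (memLocalRing_unit_hom _ g)
    have h2 := L.hμp g
    have h3 : (((μ ^ j.val) g : ℂˣ) : ℂ) ^ p = 1 := by
      have h4 : ((μ ^ j.val) g) ^ p = 1 := by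
        rw [MonoidHom.pow_apply, ← pow_mul, mul_comm, pow_mul, h2, one_pow]
      have := congrArg Units.val h4
      simpa using this
    exact h3
  have h5 := memLocalIdeal_mul_left (memLocalRing_centralChar ξ.2 g) h1
  have h6 := memLocalIdeal_neg h5
  convert h6 using 1
  ring

theorem ft_cen_of_mem (hx : orderOf x = p) {u : G} (hu : u ∈ Subgroup.zpowers x) (hu' : orderOf u = p) :
    CX = Subgroup.centralizer ({u} : Set G) := by
  have h1 := ft_zp_eq hx hu' hu
  rw [← h1]
  exact ft_cen_eq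

theorem bp_zero (hM : IsPModular p M) {u : G} (hu : ∃ k, orderOf u = p ^ k) (H : Subgroup G)
    (hH : H = Subgroup.centralizer ({u} : Set G)) {b : Set (IrrCharacter H)} {B : Set (IrrCharacter G)} (hind : IsInducedBlock M H b B)
    {χ : IrrCharacter G} (hχ : χ ∉ B) : blockProj p b (fun c : H => (χ : G → ℂ) (u * c)) = 0 := by
  subst hH
  exact secF_eq_zero_of_notMem hM hu hind hχ

namespace LD

variable (L : LD p x μ)
include L

/-- The restriction of the translated function. -/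
theorem inner_section (ζ : IrrCharacter G) (ξ : IrrCharacter CX) (k : ℕ) :
    classInner (fun c : CX => (ζ : G → ℂ) (x ^ k * c)) (ξ : CX → ℂ) = (mm ζ ξ : ℂ) * ee μ (om p μ ξ) ^ k := by
  classical
  have h1 : (fun c : CX => (ζ : G → ℂ) (x ^ k * c)) = ∑ ξ' : IrrCharacter CX, ((mm ζ ξ' : ℂ) * ee μ (om p μ ξ') ^ k) • (ξ' : CX → ℂ) := by
    funext c
    rw [Finset.sum_apply]
    have h2 : x ^ k * (c : G) = ((c * tx x ^ k : CX) : G) := by
      have h3 : Commute (c : G) (x ^ k) := (Commute.pow_right (ft_mem_cen.1 c.2) k)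
      simp [tx, h3.eq]
    rw [h2, rs_eq_sum]
    refine Finset.sum_congr rfl fun ξ' _ => ?_
    rw [L.irr_mul_pow, Pi.smul_apply, smul_eq_mul]
    ring
  rw [h1, classInner_sum_left, Finset.sum_eq_single ξ]
  · rw [classInner_smul_left, classInner_irr_self ξ.2, mul_one]
  · intro ξ' _ hne
    rw [classInner_smul_left, classInner_irr_of_ne ξ'.2 ξ.2 (fun h => hne (Subtype.ext h)), mul_zero]
  · intro h
    exact absurd (Finset.mem_univ _) h

open Classical in
/-- The block of `ξ₀` induces the block of `ζ`. -/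
theorem block_induced (hM : IsPModular p M) (ζ : IrrCharacter G) {ξ₀ : IrrCharacter CX} {j : ZMod p} (hm : mm ζ ξ₀ ≠ 0)
    (hη : mm ζ (tw μ j ξ₀) = 0) : IsInducedBlock M CX (blockOf M (ξ₀ : CX → ℂ)) (blockOf M (ζ : G → ℂ)) := by
  have := isPModular_isPrime hM
  have hcb : IsPBlock M (blockOf M (ξ₀ : CX → ℂ)) := isPBlock_blockOf ξ₀
  have hU : IsPGroup p (Subgroup.zpowers x) := ft_isP_zp L.hx
  obtain ⟨B', hind⟩ := inducedBlockDefined_of_normalizer hM hU (zpowers_le_cen x) le_rfl (centralizer_le_normalizer_self _) hcb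
  by_cases hζ : ζ ∈ B'
  · have h1 := blockOf_eq_of_mem hind.2.1 hζ
    rw [← h1]
    exact hind
  · exfalso
    obtain ⟨F, hF⟩ : ∃ F : CX → ℂ, F = ∑ ξ : IrrCharacter CX, if ξ ∈ blockOf M (ξ₀ : CX → ℂ) then (mm ζ ξ : ℂ) • (ξ : CX → ℂ) else 0 := ⟨_, rfl⟩
    have hFval : ∀ k : CX, F k = ∑ ξ : IrrCharacter CX, if ξ ∈ blockOf M (ξ₀ : CX → ℂ) then (mm ζ ξ : ℂ) * (ξ : CX → ℂ) k else 0 := by
      intro k
      rw [hF, Finset.sum_apply]
      refine Finset.sum_congr rfl fun ξ _ => ?_
      split_ifs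
      · rfl
      · rfl
    have hFin : ∀ θ ∈ blockOf M (ξ₀ : CX → ℂ), classInner F (θ : CX → ℂ) = mm ζ θ := by
      intro θ hθ
      rw [hF, classInner_sum_left, Finset.sum_eq_single θ]
      · rw [if_pos hθ, classInner_smul_left, classInner_irr_self θ.2, mul_one]
      · intro ξ _ hne
        split_ifs
        · rw [classInner_smul_left, classInner_irr_of_ne ξ.2 θ.2 (fun h => hne (Subtype.ext h)), mul_zero]
        · rw [classInner_def]
          simp
      · intro h
        exact absurd (Finset.mem_univ _) h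
    have hsing : ∀ k : CX, p ∣ orderOf k → F k = 0 := by
      intro k hk
      obtain ⟨a, ha⟩ := L.exists_mu_eq k
      have ha0 : a ≠ 0 := by
        intro h0
        apply L.mu_sing hk
        apply Units.ext
        rw [ha, h0, L.ee_zero]
        rfl
      obtain ⟨y, hy⟩ : ∃ y : CX, y = k * (tx x ^ a.val)⁻¹ := ⟨_, rfl⟩
      have hky : k = y * tx x ^ a.val := by
        rw [hy]
        group
      have hyμ : μ y = 1 := by
        apply Units.ext
        rw [hy, map_mul, map_inv, map_pow, Units.val_mul, ha, Units.val_inv_eq_inv_val, Units.val_pow_eq_pow_val]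
        unfold ee
        exact mul_inv_cancel₀ (pow_ne_zero _ (Units.ne_zero _))
      have hyreg : ¬ p ∣ orderOf y := fun h => L.mu_sing h hyμ
      have hxord : orderOf (x ^ a.val) = p := by
        rw [orderOf_pow' _ (fun h => ha0 ((ZMod.val_eq_zero a).1 h)), L.hx]
        have h1 : Nat.gcd p a.val = 1 := by
          refine (Nat.Prime.coprime_iff_not_dvd hp.out).2 (fun h => ?_)
          have h2 : a.val ≠ 0 := fun h => ha0 ((ZMod.val_eq_zero a).1 h)
          have h3 := Nat.le_of_dvd (Nat.pos_of_ne_zero h2) h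
          have h4 := ZMod.val_lt a
          omega
        rw [h1, Nat.div_one]
      have hcen : CX = Subgroup.centralizer ({x ^ a.val} : Set G) :=
        ft_cen_of_mem L.hx (Subgroup.npow_mem_zpowers x a.val) hxord
      have h1 := bp_zero hM (u := x ^ a.val) ⟨1, by rw [hxord, pow_one]⟩ CX hcen hind hζ
      rw [blockProj_apply] at h1
      have h2 := congrFun h1 y
      rw [Finset.sum_apply] at h2
      rw [hFval, hky]
      have h3 : ∀ ξ : IrrCharacter CX, (if ξ ∈ blockOf M (ξ₀ : CX → ℂ) then classInner (fun c : CX => (ζ : G → ℂ) (x ^ a.val * c)) (ξ : CX → ℂ) • pRegularPart p (ξ : CX → ℂ) else 0) y =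
          if ξ ∈ blockOf M (ξ₀ : CX → ℂ) then (mm ζ ξ : ℂ) * (ξ : CX → ℂ) (y * tx x ^ a.val) else 0 := by
        intro ξ
        split_ifs
        · rw [Pi.smul_apply, smul_eq_mul, L.inner_section, pRegularPart_eq_of_regular _ hyreg, L.irr_mul_pow]
          ring
        · rfl
      simp only [h3] at h2
      exact h2
    have h1 := hFin _ (mem_blockOf_self ξ₀)
    have h2 := hFin _ (tw_sameBlock L hM j ξ₀)
    have h3 : classInner F (tw μ j ξ₀ : CX → ℂ) = classInner F (ξ₀ : CX → ℂ) := by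
      rw [classInner_def, classInner_def]
      congr 1
      refine Finset.sum_congr rfl fun k _ => ?_
      by_cases hk : p ∣ orderOf k
      · rw [hsing k hk, zero_mul, zero_mul]
      · rw [L.tw_reg j ξ₀ hk]
    rw [h1, h2, hη] at h3
    apply hm
    exact_mod_cast h3.symm

/-- A block containing a character of degree prime to `p` has defect group the subgroup of order `p`. -/
theorem defect_of_deg (hM : IsPModular p M) (ζ : IrrCharacter G) (hd : ¬ p ∣ charDegree (ζ : G → ℂ)) :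
    IsDefectGroup p M (blockOf M (ζ : G → ℂ)) (Subgroup.zpowers x) := by
  classical
  have := isPModular_isPrime hM
  have hB : IsPBlock M (blockOf M (ζ : G → ℂ)) := isPBlock_blockOf ζ
  obtain ⟨D₀, hD₀⟩ := CharExtra.exists_isDefectGroup hM hB
  have h1 := pow_dvd_degree_of_defect hM hB hD₀ (mem_blockOf_self ζ)
  have h2 : D₀.index.factorization p = 0 := by
    by_contra h3
    apply hd
    exact (dvd_pow_self p h3).trans h1
  have h3 : IsPGroup p D₀ := isPGroup_of_isDefectGroup hD₀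
  obtain ⟨n, hn⟩ := IsPGroup.iff_card.1 h3
  have h4 : Nat.card D₀ * D₀.index = Nat.card G := Subgroup.card_mul_index D₀
  have h5 : (Nat.card G).factorization p = n + D₀.index.factorization p := by
    rw [← h4, hn, Nat.factorization_mul (pow_ne_zero _ hp.out.ne_zero) (Subgroup.index_ne_zero_of_finite)]
    simp [hp.out.factorization_self]
  have h6 : n = 1 := by
    have := L.hX
    omega
  have h7 : Nat.card D₀ = p ^ (Nat.card G).factorization p := by
    rw [hn, L.hX, h6]
  have h8 : Nat.card (Subgroup.zpowers x) = p ^ (Nat.card G).factorization p := by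
    rw [Nat.card_zpowers, L.hx, L.hX, pow_one]
  obtain ⟨g, hg⟩ := MulAction.exists_smul_eq G (Sylow.ofCard D₀ h7) (Sylow.ofCard (Subgroup.zpowers x) h8)
  have h9 := isDefectGroup_conj hD₀ g
  convert h9 using 1
  have h10 : (MulAut.conj g • D₀ : Subgroup G) = Subgroup.zpowers x := by
    exact congrArg Sylow.toSubgroup hg
  rw [← h10]
  rfl

theorem cjI_congr {g g' : G} (h : g = g') (hg : g ∈ NX) (hg' : g' ∈ NX) (ξ : IrrCharacter CX) : cjI hg ξ = cjI hg' ξ := by
  subst h
  rfl

open Classical in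
/-- The number of characters in the orbit. -/
theorem card_Sp (ζ : IrrCharacter G) {ξ₀ : IrrCharacter CX} (hm : mm ζ ξ₀ ≠ 0) (hω : om p μ ξ₀ ≠ 0)
    (hob : ∀ ξ, mm ζ ξ ≠ 0 → om p μ ξ ≠ 0 → ∃ (g : G) (hg : g ∈ NX), cjI hg ξ₀ = ξ) :
    (Sp (p := p) μ ζ).card * Nat.card CX = Nat.card NX := by
  obtain ⟨F, hF⟩ : ∃ F : G → IrrCharacter CX, F = fun g => if hg : g ∈ NX then cjI hg ξ₀ else ξ₀ := ⟨_, rfl⟩
  have hFN : ∀ {g : G} (hg : g ∈ NX), F g = cjI hg ξ₀ := by
    intro g hg
    rw [hF]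
    simp only
    rw [dif_pos hg]
  have hmaps : ∀ g ∈ Finset.univ.filter (fun g : G => g ∈ NX), F g ∈ Sp (p := p) μ ζ := by
    intro g hg
    have hg' : g ∈ NX := (Finset.mem_filter.1 hg).2
    rw [hFN hg', mem_Sp]
    refine ⟨by rwa [inner_rs_cj], ?_⟩
    rw [L.om_cj hg']
    exact mul_ne_zero hω (L.sF_ne_zero hg')
  have h1 := Finset.card_eq_sum_card_fiberwise hmaps
  have h2 : ∀ ξ ∈ Sp (p := p) μ ζ, ((Finset.univ.filter (fun g : G => g ∈ NX)).filter (fun g => F g = ξ)).card = Nat.card CX := by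
    intro ξ hξ
    obtain ⟨hm1, hω1⟩ := mem_Sp.1 hξ
    obtain ⟨h, hh, rfl⟩ := hob ξ hm1 hω1
    rw [Nat.card_eq_fintype_card, Fintype.card_subtype]
    refine Finset.card_bij (fun g _ => h⁻¹ * g) ?_ ?_ ?_
    · intro g hg
      simp only [Finset.mem_filter, Finset.mem_univ, true_and] at hg ⊢
      obtain ⟨hg1, hg2⟩ := hg
      rw [hFN hg1] at hg2
      have hin : h⁻¹ * g ∈ NX := Subgroup.mul_mem _ (Subgroup.inv_mem _ hh) hg1
      rw [← L.sF_eq_one_iff hin]
      have h3 : cjI hin ξ₀ = ξ₀ := by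
        rw [L.cjI_mul (Subgroup.inv_mem _ hh) hg1, hg2, L.cjI_inv]
      have h4 := L.om_cj hin ξ₀
      rw [h3] at h4
      have h5 : om p μ ξ₀ * (sF x (h⁻¹ * g) p - 1) = 0 := by
        linear_combination -h4
      exact sub_eq_zero.1 ((mul_eq_zero.1 h5).resolve_left hω)
    · intro g _ g' _ hgg
      exact mul_left_cancel hgg
    · intro c hc
      have hc' : c ∈ CX := (Finset.mem_filter.1 hc).2
      have hcN : c ∈ NX := centralizer_le_normalizer_self _ hc'
      refine ⟨h * c, ?_, by group⟩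
      simp only [Finset.mem_filter, Finset.mem_univ, true_and]
      have hin : h * c ∈ NX := Subgroup.mul_mem _ hh hcN
      refine ⟨hin, ?_⟩
      rw [hFN hin, L.cjI_mul hh hcN, L.cjI_of_mem hcN hc']
  rw [Finset.sum_congr rfl h2, Finset.sum_const, smul_eq_mul] at h1
  rw [← h1, Nat.card_eq_fintype_card, Fintype.card_subtype]

open Classical in
/-- The number of twists lying in the orbit is bounded by the inertial index. -/
theorem J_le (hM : IsPModular p M) (ζ : IrrCharacter G) {ξ₀ : IrrCharacter CX}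
    (hob : ∀ ξ, mm ζ ξ ≠ 0 → om p μ ξ ≠ 0 → ∃ (g : G) (hg : g ∈ NX), cjI hg ξ₀ = ξ) {T : Subgroup G}
    (hT : ∀ g, g ∈ T ↔ g ∈ Subgroup.normalizer ((Subgroup.zpowers x : Subgroup G) : Set G) ∧ StabilizesBlock CX (blockOf M (ξ₀ : CX → ℂ)) g)
    {ξ : IrrCharacter CX} (hξ : ξ ∈ Sp (p := p) μ ζ) :
    (Finset.univ.filter (fun j : ZMod p => tw μ j ξ ∈ Sp (p := p) μ ζ)).card ≤ Subgroup.relIndex CX T := by
  have := isPModular_isPrime hM
  haveI : NeZero p := ⟨hp.out.ne_zero⟩
  obtain ⟨hm1, hω1⟩ := mem_Sp.1 hξ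
  obtain ⟨h, hh, hhe⟩ := hob ξ hm1 hω1
  have hc : IsPBlock M (blockOf M (ξ₀ : CX → ℂ)) := isPBlock_blockOf ξ₀
  have hex : ∀ j : {j : ZMod p // tw μ j ξ ∈ Sp (p := p) μ ζ}, ∃ (g : G) (hg : g ∈ NX), cjI hg ξ₀ = tw μ j.1 ξ := by
    rintro ⟨j, hj⟩
    obtain ⟨h1, h2⟩ := mem_Sp.1 hj
    exact hob _ h1 h2
  choose g hg hge using hex
  have hhi : h⁻¹ ∈ NX := Subgroup.inv_mem _ hh
  have ht : ∀ j, h⁻¹ * g j ∈ T := by
    intro j
    have htN : h⁻¹ * g j ∈ NX := Subgroup.mul_mem _ hhi (hg j)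
    rw [hT]
    refine ⟨htN, (stabilizes_iff hc).2 ⟨normalizer_le_normalizer_cen htN, ?_⟩⟩
    have hmem1 : cjI htN ξ₀ ∈ blockOf M (ξ₀ : CX → ℂ) := by
      rw [L.cjI_mul hhi (hg j), hge j]
      have hblk : IsPBlock M (mapBlock (nConj (normalizer_le_normalizer_cen hhi)) (blockOf M (ξ : CX → ℂ))) := isPBlock_mapBlock _ (isPBlock_blockOf ξ)
      have hin1 : cjI hhi ξ ∈ mapBlock (nConj (normalizer_le_normalizer_cen hhi)) (blockOf M (ξ : CX → ℂ)) :=
        mapIrr_mem_mapBlock.2 (mem_blockOf_self ξ)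
      have hin2 : cjI hhi (tw μ j.1 ξ) ∈ mapBlock (nConj (normalizer_le_normalizer_cen hhi)) (blockOf M (ξ : CX → ℂ)) :=
        mapIrr_mem_mapBlock.2 (tw_sameBlock L hM j.1 ξ)
      have he : cjI hhi ξ = ξ₀ := by
        rw [← hhe, L.cjI_inv]
      rw [he] at hin1
      have h5 := blockOf_eq_of_mem hblk hin1
      rw [← h5]
      exact hin2
    apply blocks_eq_or_disjoint (isPBlock_mapBlock _ hc) hc (θ := cjI htN ξ₀) _ hmem1
    exact mapIrr_mem_mapBlock.2 (mem_blockOf_self ξ₀)
  let f : {j : ZMod p // tw μ j ξ ∈ Sp (p := p) μ ζ} → (T ⧸ (Subgroup.subgroupOf CX T)) := fun j => QuotientGroup.mk ⟨h⁻¹ * g j, ht j⟩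
  have hinj : Function.Injective f := by
    intro j k hjk
    have h1 := QuotientGroup.eq.1 hjk
    rw [Subgroup.mem_subgroupOf] at h1
    have h2 : (g j)⁻¹ * g k ∈ CX := by
      have h3 : ((⟨h⁻¹ * g j, ht j⟩ : T)⁻¹ * ⟨h⁻¹ * g k, ht k⟩ : T).1 = (g j)⁻¹ * g k := by
        simp only [Subgroup.coe_mul, InvMemClass.coe_inv]
        group
      rw [← h3]
      exact h1
    have h4 : g k = g j * ((g j)⁻¹ * g k) := by group
    have h5 : (g j)⁻¹ * g k ∈ NX := Subgroup.mul_mem _ (Subgroup.inv_mem _ (hg j)) (hg k)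
    have h6 : cjI (hg k) ξ₀ = cjI (hg j) ξ₀ := by
      rw [L.cjI_congr h4 (hg k) (Subgroup.mul_mem _ (hg j) h5), L.cjI_mul (hg j) h5, L.cjI_of_mem h5 h2]
    rw [hge, hge] at h6
    have h7 := congrArg (om p μ) h6
    rw [L.om_tw, L.om_tw] at h7
    apply Subtype.ext
    exact (add_left_cancel h7).symm
  have h1 := Nat.card_le_card_of_injective f hinj
  have h2 : Nat.card (T ⧸ (Subgroup.subgroupOf CX T)) = Subgroup.relIndex CX T := rfl
  rw [h2] at h1
  refine le_trans (le_of_eq ?_) h1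
  rw [Nat.card_eq_fintype_card, Fintype.card_subtype]

end LD

end FT5

end Cfsg.Agent.Lib.FF
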