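import Cfsg.Agent.Lib.FF.FT5

/-!
# Groups whose order is divisible exactly once by `p`: local structure at an element of order `p`
-/

set_option autoImplicit false
set_option linter.unusedSectionVars false
set_option linter.unusedVariables false
set_option maxSynthPendingDepth 3
set_option linter.style.haveILetI false
set_option linter.unusedSimpArgs false
set_option linter.unnecessarySimpa false

open scoped ComplexConjugate Pointwise
open Module Cfsg Cfsg.Agent.Lib.Block Cfsg.Agent.Lib.Char Cfsg.Agent.Lib.CharExtra Cfsg.Agent.Lib.BPair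

namespace Cfsg.Agent.Lib.FF

attribute [local instance] Cfsg.Agent.Lib.BPair.subFintype


section FT6

variable {G : Type*} [Group G] [Fintype G] {p : ℕ} [hp : Fact p.Prime] {x : G} {μ : Cen (Subgroup.zpowers x) →* ℂˣ} {M : Ideal AlgInt}

local notation "CX" => Cen (Subgroup.zpowers x)
local notation "NX" => Subgroup.normalizer ((Subgroup.zpowers x : Subgroup G) : Set G)

instance neZeroFT : NeZero p := ⟨hp.out.ne_zero⟩

theorem sum_zmod_val (f : ℕ → ℂ) : ∑ j : ZMod p, f j.val = ∑ i ∈ Finset.range p, f i := by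
  refine Finset.sum_nbij' (fun j => j.val) (fun i => (i : ZMod p)) ?_ ?_ ?_ ?_ ?_
  · intro j _
    exact Finset.mem_range.2 (ZMod.val_lt j)
  · intro i _
    exact Finset.mem_univ _
  · intro j _
    exact ZMod.natCast_zmod_val j
  · intro i hi
    exact ZMod.val_cast_of_lt (Finset.mem_range.1 hi)
  · intro j _
    rfl

/-- The sum over twists. -/
noncomputable def EE (μ : Cen (Subgroup.zpowers x) →* ℂˣ) (a b : IrrCharacter (Cen (Subgroup.zpowers x)) → ℕ) : ℕ :=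
  ∑ j : ZMod p, ∑ ξ, a ξ * b (tw μ j ξ)

/-- The part with trivial central exponent. -/
noncomputable def m0 (p : ℕ) (μ : Cen (Subgroup.zpowers x) →* ℂˣ) (ζ : IrrCharacter G) (ξ : IrrCharacter (Cen (Subgroup.zpowers x))) : ℕ := by
  classical
  exact if om p μ ξ = 0 then mm ζ ξ else 0

/-- The part with nontrivial central exponent. -/
noncomputable def m1 (p : ℕ) (μ : Cen (Subgroup.zpowers x) →* ℂˣ) (ζ : IrrCharacter G) (ξ : IrrCharacter (Cen (Subgroup.zpowers x))) : ℕ := by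
  classical
  exact if om p μ ξ = 0 then 0 else mm ζ ξ

theorem m0_of_ne {ζ : IrrCharacter G} {ξ : IrrCharacter CX} (h : om p μ ξ ≠ 0) : m0 p μ ζ ξ = 0 := by
  classical
  unfold m0
  exact if_neg h

theorem m0_of_eq {ζ : IrrCharacter G} {ξ : IrrCharacter CX} (h : om p μ ξ = 0) : m0 p μ ζ ξ = mm ζ ξ := by
  classical
  unfold m0
  exact if_pos h

theorem m1_of_eq {ζ : IrrCharacter G} {ξ : IrrCharacter CX} (h : om p μ ξ = 0) : m1 p μ ζ ξ = 0 := by
  classical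
  unfold m1
  exact if_pos h

theorem m1_of_ne {ζ : IrrCharacter G} {ξ : IrrCharacter CX} (h : om p μ ξ ≠ 0) : m1 p μ ζ ξ = mm ζ ξ := by
  classical
  unfold m1
  exact if_neg h

theorem mm_eq (ζ : IrrCharacter G) (ξ : IrrCharacter CX) : mm ζ ξ = m0 p μ ζ ξ + m1 p μ ζ ξ := by
  classical
  unfold m0 m1
  split_ifs <;> simp

theorem m0_mul_m1 (ζ : IrrCharacter G) (ξ : IrrCharacter CX) : m0 p μ ζ ξ * m1 p μ ζ ξ = 0 := by
  classical
  unfold m0 m1
  split_ifs <;> simp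

theorem EE_split (ζ : IrrCharacter G) :
    EE (p := p) μ (mm ζ) (mm ζ) = EE (p := p) μ (m1 p μ ζ) (m1 p μ ζ) + EE (p := p) μ (m1 p μ ζ) (m0 p μ ζ) +
      EE (p := p) μ (m0 p μ ζ) (m1 p μ ζ) + EE (p := p) μ (m0 p μ ζ) (m0 p μ ζ) := by
  unfold EE
  have h : ∀ (j : ZMod p) (ξ : IrrCharacter CX), mm ζ ξ * mm ζ (tw μ j ξ) =
      m1 p μ ζ ξ * m1 p μ ζ (tw μ j ξ) + m1 p μ ζ ξ * m0 p μ ζ (tw μ j ξ) + m0 p μ ζ ξ * m1 p μ ζ (tw μ j ξ) + m0 p μ ζ ξ * m0 p μ ζ (tw μ j ξ) := by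
    intro j ξ
    rw [mm_eq (p := p) (μ := μ) ζ ξ, mm_eq (p := p) (μ := μ) ζ (tw μ j ξ)]
    ring
  simp only [h, Finset.sum_add_distrib]

namespace LD

variable (L : LD p x μ)
include L

/-- Twisting as a permutation. -/
noncomputable def twE (L : LD p x μ) (j : ZMod p) : IrrCharacter CX ≃ IrrCharacter CX where
  toFun := tw μ j
  invFun := tw μ (-j)
  left_inv ξ := by
    rw [L.tw_tw, neg_add_cancel, L.tw_zero]
  right_inv ξ := by
    rw [L.tw_tw, add_neg_cancel, L.tw_zero]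

theorem EE_symm (a b : IrrCharacter CX → ℕ) : EE (p := p) μ a b = EE (p := p) μ b a := by
  unfold EE
  have h1 : ∀ j : ZMod p, ∑ ξ, a ξ * b (tw μ j ξ) = ∑ ξ, b ξ * a (tw μ (-j) ξ) := by
    intro j
    refine Fintype.sum_equiv (L.twE j) _ _ fun ξ => ?_
    show a ξ * b (tw μ j ξ) = b (tw μ j ξ) * a (tw μ (-j) (tw μ j ξ))
    rw [L.tw_tw, neg_add_cancel, L.tw_zero, mul_comm]
  simp only [h1]
  exact Fintype.sum_equiv (Equiv.neg (ZMod p)) _ _ fun j => rfl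

theorem EE_00 (ζ : IrrCharacter G) : EE (p := p) μ (m0 p μ ζ) (m0 p μ ζ) = ∑ ξ, m0 p μ ζ ξ ^ 2 := by
  classical
  unfold EE
  rw [Finset.sum_comm]
  refine Finset.sum_congr rfl fun ξ _ => ?_
  rw [Finset.sum_eq_single (0 : ZMod p)]
  · rw [L.tw_zero, pow_two]
  · intro j _ hj
    by_cases hξ : om p μ ξ = 0
    · have h1 : m0 p μ ζ (tw μ j ξ) = 0 := by
        apply m0_of_ne
        rw [L.om_tw, hξ, zero_add]
        exact hj
      rw [h1, mul_zero]
    · rw [m0_of_ne hξ, zero_mul]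
  · intro h
    exact absurd (Finset.mem_univ _) h

theorem m0_le (ζ : IrrCharacter G) (ξ : IrrCharacter CX) : m0 p μ ζ ξ ≤ ∑ ξ, m0 p μ ζ ξ ^ 2 := by
  calc m0 p μ ζ ξ ≤ m0 p μ ζ ξ ^ 2 := Nat.le_self_pow (by norm_num) _
    _ ≤ _ := Finset.single_le_sum (f := fun ξ => m0 p μ ζ ξ ^ 2) (fun _ _ => Nat.zero_le _) (Finset.mem_univ ξ)

theorem EE_10 (ζ : IrrCharacter G) (hm1 : ∀ ξ, ξ ∈ Sp (p := p) μ ζ → mm ζ ξ = 1) :
    EE (p := p) μ (m1 p μ ζ) (m0 p μ ζ) ≤ (Sp (p := p) μ ζ).card * ∑ ξ, m0 p μ ζ ξ ^ 2 := by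
  classical
  unfold EE
  rw [Finset.sum_comm]
  have h1 : ∀ ξ : IrrCharacter CX, ∑ j : ZMod p, m1 p μ ζ ξ * m0 p μ ζ (tw μ j ξ) ≤ if ξ ∈ Sp (p := p) μ ζ then ∑ ξ, m0 p μ ζ ξ ^ 2 else 0 := by
    intro ξ
    split_ifs with hξ
    · obtain ⟨h2, h3⟩ := mem_Sp.1 hξ
      rw [m1_of_ne h3, hm1 ξ hξ]
      simp only [one_mul]
      rw [Finset.sum_eq_single (-om p μ ξ)]
      · exact L.m0_le ζ _
      · intro j _ hj
        apply m0_of_ne
        rw [L.om_tw]
        intro h4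
        exact hj (eq_neg_of_add_eq_zero_right h4)
      · intro h
        exact absurd (Finset.mem_univ _) h
    · have h2 : m1 p μ ζ ξ = 0 := by
        by_cases h3 : om p μ ξ = 0
        · exact m1_of_eq h3
        · rw [m1_of_ne h3]
          by_contra h4
          exact hξ (mem_Sp.2 ⟨h4, h3⟩)
      simp [h2]
  refine (Finset.sum_le_sum fun ξ _ => h1 ξ).trans ?_
  rw [← Finset.sum_filter, Finset.filter_mem_eq_inter, Finset.univ_inter, Finset.sum_const, smul_eq_mul]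

theorem EE_11 (ζ : IrrCharacter G) (hm1 : ∀ ξ, ξ ∈ Sp (p := p) μ ζ → mm ζ ξ = 1) {e : ℕ}
    (he : ∀ ξ, ξ ∈ Sp (p := p) μ ζ → (Finset.univ.filter (fun j : ZMod p => tw μ j ξ ∈ Sp (p := p) μ ζ)).card ≤ e) :
    EE (p := p) μ (m1 p μ ζ) (m1 p μ ζ) ≤ (Sp (p := p) μ ζ).card * e := by
  classical
  unfold EE
  rw [Finset.sum_comm]
  have hm1' : ∀ ξ, m1 p μ ζ ξ = if ξ ∈ Sp (p := p) μ ζ then 1 else 0 := by
    intro ξ
    split_ifs with hξ
    · rw [m1_of_ne (mem_Sp.1 hξ).2, hm1 ξ hξ]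
    · by_cases h3 : om p μ ξ = 0
      · exact m1_of_eq h3
      · rw [m1_of_ne h3]
        by_contra h4
        exact hξ (mem_Sp.2 ⟨h4, h3⟩)
  have h1 : ∀ ξ : IrrCharacter CX, ∑ j : ZMod p, m1 p μ ζ ξ * m1 p μ ζ (tw μ j ξ) ≤ if ξ ∈ Sp (p := p) μ ζ then e else 0 := by
    intro ξ
    split_ifs with hξ
    · rw [hm1' ξ, if_pos hξ]
      simp only [one_mul]
      simp only [hm1']
      rw [Finset.sum_boole]
      exact he ξ hξ
    · rw [hm1' ξ, if_neg hξ]
      simp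
  refine (Finset.sum_le_sum fun ξ _ => h1 ξ).trans ?_
  rw [← Finset.sum_filter, Finset.filter_mem_eq_inter, Finset.univ_inter, Finset.sum_const, smul_eq_mul]

/-- The bound for the sum over twists. -/
theorem EE_le (ζ : IrrCharacter G) (hm1 : ∀ ξ, ξ ∈ Sp (p := p) μ ζ → mm ζ ξ = 1) {e : ℕ}
    (he : ∀ ξ, ξ ∈ Sp (p := p) μ ζ → (Finset.univ.filter (fun j : ZMod p => tw μ j ξ ∈ Sp (p := p) μ ζ)).card ≤ e) :
    EE (p := p) μ (mm ζ) (mm ζ) ≤ (Sp (p := p) μ ζ).card * e + 2 * ((Sp (p := p) μ ζ).card * ∑ ξ, m0 p μ ζ ξ ^ 2) + ∑ ξ, m0 p μ ζ ξ ^ 2 := by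
  rw [EE_split, L.EE_symm (m0 p μ ζ) (m1 p μ ζ), L.EE_00]
  have h1 := L.EE_11 ζ hm1 he
  have h2 := L.EE_10 ζ hm1
  omega

theorem sum_mu (c : CX) : ∑ j : ZMod p, conj (((μ c : ℂˣ) : ℂ) ^ j.val) = if ¬ p ∣ orderOf c then (p : ℂ) else 0 := by
  rw [sum_zmod_val (fun i => conj (((μ c : ℂˣ) : ℂ) ^ i))]
  by_cases hc' : ¬ p ∣ orderOf c
  · rw [if_pos hc', L.mu_reg hc']
    simp
  · rw [if_neg hc']
    have hc : p ∣ orderOf c := not_not.1 hc'
    have h1 : ((μ c : ℂˣ) : ℂ) ≠ 1 := by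
      intro h
      exact L.mu_sing hc (Units.ext h)
    have h2 : ((μ c : ℂˣ) : ℂ) ^ p = 1 := by
      have := congrArg Units.val (L.hμp c)
      simpa using this
    rw [← map_sum, geom_sum_eq h1, h2]
    simp

/-- The sum over the regular elements of the centralizer. -/
theorem E_formula (ζ : IrrCharacter G) :
    (p : ℂ) * ((Nat.card CX : ℂ)⁻¹ * ∑ c : CX, if ¬ p ∣ orderOf c then (ζ : G → ℂ) c * conj ((ζ : G → ℂ) c) else 0) =
      (EE (p := p) μ (mm ζ) (mm ζ) : ℕ) := by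
  classical
  have hφ : ∀ j : ZMod p, classInner (fun c : CX => (ζ : G → ℂ) c * conj (((μ c : ℂˣ) : ℂ) ^ j.val)) (rs x (ζ : G → ℂ)) =
      ((∑ ξ : IrrCharacter CX, mm ζ ξ * mm ζ (tw μ j ξ) : ℕ) : ℂ) := by
    intro j
    rw [classInner_eq_sum_irr _ _ (by
      intro c h
      have h1 := IsCharacter.isClassFunction (IsIrrCharacter.isCharacter ζ.2) (c : G) (h : G)
      simp only
      have h2 : ((h * c * h⁻¹ : CX) : G) = (h : G) * c * (h : G)⁻¹ := by simp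
      rw [h2, h1]
      have h3 : μ (h * c * h⁻¹) = μ c := by
        rw [map_mul, map_mul, map_inv, mul_comm (μ h), mul_assoc, mul_inv_cancel, mul_one]
      rw [h3]), Nat.cast_sum]
    refine Finset.sum_congr rfl fun ξ _ => ?_
    have h1 : classInner (fun c : CX => (ζ : G → ℂ) c * conj (((μ c : ℂˣ) : ℂ) ^ j.val)) (ξ : CX → ℂ) = mm ζ (tw μ j ξ) := by
      rw [← mm_spec, classInner_def, classInner_def]
      congr 1
      refine Finset.sum_congr rfl fun c _ => ?_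
      rw [tw_apply, map_mul]
      show _ = (ζ : G → ℂ) c * _
      ring
    rw [h1, mm_spec, Complex.conj_natCast]
    push_cast
    ring
  have h2 : (p : ℂ) * ((Nat.card CX : ℂ)⁻¹ * ∑ c : CX, if ¬ p ∣ orderOf c then (ζ : G → ℂ) c * conj ((ζ : G → ℂ) c) else 0) =
      ∑ j : ZMod p, classInner (fun c : CX => (ζ : G → ℂ) c * conj (((μ c : ℂˣ) : ℂ) ^ j.val)) (rs x (ζ : G → ℂ)) := by
    simp only [classInner_def]
    rw [← Finset.mul_sum, mul_left_comm]
    congr 1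
    rw [Finset.mul_sum, Finset.sum_comm]
    refine Finset.sum_congr rfl fun c _ => ?_
    have h3 := L.sum_mu c
    have h4 : ∑ j : ZMod p, (ζ : G → ℂ) c * conj (((μ c : ℂˣ) : ℂ) ^ j.val) * conj (rs x (ζ : G → ℂ) c) =
        (ζ : G → ℂ) c * conj ((ζ : G → ℂ) c) * ∑ j : ZMod p, conj (((μ c : ℂˣ) : ℂ) ^ j.val) := by
      rw [Finset.mul_sum]
      refine Finset.sum_congr rfl fun j _ => ?_
      show _ * conj ((ζ : G → ℂ) c) = _
      ring
    rw [h4, h3]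
    by_cases hc : ¬ p ∣ orderOf c
    · rw [if_pos hc, if_pos hc]
      ring
    · rw [if_neg hc, if_neg hc, mul_zero, mul_zero]
  rw [h2, Finset.sum_congr rfl (fun j _ => hφ j)]
  unfold EE
  push_cast
  rfl

omit L in
theorem ind_van {f : CX → ℂ} (hf : ∀ c : CX, ¬ p ∣ orderOf c → f c = 0) {y : G} (hy : ¬ p ∣ orderOf y) : indFun CX f y = 0 := by
  rw [indFun_apply]
  apply mul_eq_zero_of_right
  refine Finset.sum_eq_zero fun g _ => ?_
  by_cases hm : g⁻¹ * y * g ∈ CX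
  · rw [extendByZero_of_mem _ _ hm]
    apply hf
    have hord : orderOf (g⁻¹ * y * g) = orderOf y := by
      have := MulEquiv.orderOf_eq (MulAut.conj g⁻¹) y
      simpa using this
    rw [← Subgroup.orderOf_coe]
    show ¬ p ∣ orderOf (g⁻¹ * y * g)
    rwa [hord]
  · exact extendByZero_of_not_mem _ _ hm

/-- The second part of the key lemma: the restriction to the centralizer has no constituent with trivial central exponent. -/
theorem part2 (hM : IsPModular p M) (ζ : IrrCharacter G) (hdeg : 2 * charDegree (ζ : G → ℂ) + 1 < p) {ξ₀ : IrrCharacter CX} {b : ZMod p}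
    {ζ' : IrrCharacter G} (hω : om p μ ξ₀ ≠ 0) (hm : mm ζ ξ₀ = 1)
    (hob : ∀ ξ, mm ζ ξ ≠ 0 → om p μ ξ ≠ 0 → mm ζ ξ = 1 ∧ ∃ (g : G) (hg : g ∈ NX), cjI hg ξ₀ = ξ) (hne : ζ' ≠ ζ)
    (hD : indFun CX ((ξ₀ : CX → ℂ) - (tw μ (b - om p μ ξ₀) ξ₀ : CX → ℂ)) = (ζ : G → ℂ) - (ζ' : G → ℂ)) (hb0 : b ≠ 0)
    (hbS : ∀ (g : G) (_ : g ∈ NX) (ξ : IrrCharacter CX), om p μ ξ = b * sF x g p → mm ζ ξ = 0) {q : ℕ}
    (hq : Nat.card NX = q * Nat.card CX) :
    (∀ ξ, om p μ ξ = 0 → mm ζ ξ = 0) ∧ (Sp (p := p) μ ζ).card = q := by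
  classical
  have := isPModular_isPrime hM
  have hCpos : 0 < Nat.card CX := Nat.card_pos
  have hob' : ∀ ξ, mm ζ ξ ≠ 0 → om p μ ξ ≠ 0 → ∃ (g : G) (hg : g ∈ NX), cjI hg ξ₀ = ξ := fun ξ h1 h2 => (hob ξ h1 h2).2
  have hm0 : mm ζ ξ₀ ≠ 0 := by omega
  have hSpq : (Sp (p := p) μ ζ).card = q := by
    have h1 := L.card_Sp ζ hm0 hω hob'
    rw [hq] at h1
    exact Nat.eq_of_mul_eq_mul_right hCpos h1
  refine ⟨?_, hSpq⟩
  have hm1 : ∀ ξ, ξ ∈ Sp (p := p) μ ζ → mm ζ ξ = 1 := fun ξ hξ => (hob ξ (mem_Sp.1 hξ).1 (mem_Sp.1 hξ).2).1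
  have hqn : q ≤ charDegree (ζ : G → ℂ) := by
    rw [← hSpq]
    exact card_supp_le ζ _ fun ξ hξ => (mem_Sp.1 hξ).1
  have hq0 : q ≠ 0 := by
    intro h
    rw [h, zero_mul] at hq
    exact (Nat.card_pos (α := NX)).ne' hq
  have hd : ¬ p ∣ charDegree (ζ : G → ℂ) := by
    intro h
    have h1 := Nat.le_of_dvd (charDegree_pos_of_irr ζ.2) h
    omega
  obtain ⟨j, hj⟩ : ∃ j, j = b - om p μ ξ₀ := ⟨_, rfl⟩
  have hη : mm ζ (tw μ j ξ₀) = 0 := by
    apply hbS 1 (Subgroup.one_mem _)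
    rw [L.om_tw, L.sF_one, hj]
    ring
  have hind := L.block_induced hM ζ hm0 hη
  have hBD := L.defect_of_deg hM ζ hd
  have hBb : IsPBlock M (blockOf M (ζ : G → ℂ)) := isPBlock_blockOf ζ
  obtain ⟨T, hT⟩ := exists_pairT (isPBlock_blockOf (M := M) ξ₀)
  obtain ⟨XS, YS, δ, δ₀, D, hXc⟩ := exists_pb hM hBb (by rw [Nat.card_zpowers, L.hx]) hBD hind hT
  -- agreement on the regular elements
  have hvan : ∀ c : CX, ¬ p ∣ orderOf c → ((ξ₀ : CX → ℂ) - (tw μ (b - om p μ ξ₀) ξ₀ : CX → ℂ)) c = 0 := L.vanish_sub _ ξ₀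
  have hag : ∀ y : G, ¬ p ∣ orderOf y → (ζ : G → ℂ) y = (ζ' : G → ℂ) y := by
    intro y hy
    have h1 := congrFun hD y
    rw [ind_van hvan hy] at h1
    simp only [Pi.sub_apply] at h1
    exact sub_eq_zero.1 h1.symm
  -- the regular part
  obtain ⟨R, hR⟩ : ∃ R, R = pRegularPart p (ζ : G → ℂ) := ⟨_, rfl⟩
  have hRreg : ∀ {y : G}, ¬ p ∣ orderOf y → R y = (ζ : G → ℂ) y := by
    intro y hy
    rw [hR, pRegularPart_eq_of_regular _ hy]
  have hRsing : ∀ {y : G}, p ∣ orderOf y → R y = 0 := by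
    intro y hy
    rw [hR, pRegularPart_eq_zero_of_dvd _ hy]
  have hRR : classInner R R ≠ 0 := by
    intro h0
    have h1 := classInner_self_eq_zero.1 h0
    have h2 := congrFun h1 1
    rw [hRreg (by simp [hp.out.one_lt.ne'])] at h2
    exact map_one_ne_zero_of_irr ζ.2 h2
  have hζ'B : ζ' ∈ blockOf M (ζ : G → ℂ) := by
    by_contra hcon
    have h1 := classInner_regSpan_of_notMem hM hBb (w := R) (by
      rw [hR]
      exact Submodule.subset_span ⟨ζ, mem_blockOf_self ζ, rfl⟩) hcon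
    apply hRR
    rw [← h1, classInner_def, classInner_def]
    congr 1
    refine Finset.sum_congr rfl fun y _ => ?_
    by_cases hy : p ∣ orderOf y
    · rw [hRsing hy, zero_mul, zero_mul]
    · rw [hRreg hy, hag y hy]
  have hnorm : (p : ℂ) * classInner R R = XS.card := by
    rcases D.exists_Y_of_agree (mem_blockOf_self ζ) hζ'B hne.symm hag with h1 | h1
    · rw [hR]
      exact D.norm_reg h1
    · have h2 : R = pRegularPart p (ζ' : G → ℂ) := by
        funext y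
        by_cases hy : p ∣ orderOf y
        · rw [hRsing hy, pRegularPart_eq_zero_of_dvd _ hy]
        · rw [hRreg hy, pRegularPart_eq_of_regular _ hy, hag y hy]
      rw [h2]
      exact D.norm_reg h1
  -- the averaging formula
  obtain ⟨f₁, hf₁⟩ : ∃ f₁, f₁ = (ζ : G → ℂ) - R := ⟨_, rfl⟩
  have hζcf : IsClassFunction G (ζ : G → ℂ) := IsCharacter.isClassFunction (IsIrrCharacter.isCharacter ζ.2)
  have hRcf : IsClassFunction G R := by
    rw [hR]
    exact isClassFunction_pRegularPart hζcf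
  have hf₁cf : IsClassFunction G f₁ := by
    rw [hf₁]
    intro a b
    simp only [Pi.sub_apply]
    rw [hζcf a b, hRcf a b]
  have hf₁reg : ∀ g, ¬ p ∣ orderOf g → f₁ g = 0 := by
    intro g hg
    rw [hf₁]
    simp only [Pi.sub_apply]
    rw [hRreg hg, sub_self]
  have hT1 := ft_T1_inner L.hX L.hx f₁ f₁ hf₁cf hf₁cf hf₁reg hq0 hq
  have hRζ : classInner R (ζ : G → ℂ) = classInner R R := by
    rw [classInner_def, classInner_def]
    congr 1
    refine Finset.sum_congr rfl fun y _ => ?_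
    by_cases hy : p ∣ orderOf y
    · rw [hRsing hy, zero_mul, zero_mul]
    · rw [hRreg hy]
  have hζR : classInner (ζ : G → ℂ) R = classInner R R := by
    rw [classInner_def, classInner_def]
    congr 1
    refine Finset.sum_congr rfl fun y _ => ?_
    by_cases hy : p ∣ orderOf y
    · rw [hRsing hy, map_zero, mul_zero, mul_zero]
    · rw [hRreg hy]
  have h1 : classInner f₁ f₁ = 1 - classInner R R := by
    rw [hf₁, classInner_sub_left, classInner_sub_right, classInner_sub_right, classInner_irr_self ζ.2, hRζ, hζR]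
    ring
  obtain ⟨Reg, hReg⟩ : ∃ Reg : ℂ, Reg = (Nat.card CX : ℂ)⁻¹ * ∑ c : CX, if ¬ p ∣ orderOf c then (ζ : G → ℂ) c * conj ((ζ : G → ℂ) c) else 0 := ⟨_, rfl⟩
  have h2 : classInner (fun c : CX => f₁ c) (fun c : CX => f₁ c) = classInner (rs x (ζ : G → ℂ)) (rs x (ζ : G → ℂ)) - Reg := by
    rw [hReg, classInner_def, classInner_def, ← mul_sub, ← Finset.sum_sub_distrib]
    congr 1
    refine Finset.sum_congr rfl fun c _ => ?_
    by_cases hc : ¬ p ∣ orderOf c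
    · rw [if_pos hc]
      have hc' : ¬ p ∣ orderOf (c : G) := by rwa [Subgroup.orderOf_coe]
      rw [hf₁reg _ hc']
      show _ = (ζ : G → ℂ) c * conj ((ζ : G → ℂ) c) - _
      simp
    · rw [if_neg hc]
      have hc' : p ∣ orderOf (c : G) := by
        rw [Subgroup.orderOf_coe]
        exact not_not.1 hc
      have h3 : f₁ c = (ζ : G → ℂ) c := by
        rw [hf₁]
        simp only [Pi.sub_apply]
        rw [hRsing hc', sub_zero]
      rw [h3, sub_zero]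
      rfl
  have h3 := L.E_formula ζ
  rw [← hReg] at h3
  -- the norm of the restriction
  obtain ⟨y₂, hy₂⟩ : ∃ y₂, y₂ = ∑ ξ, m0 p μ ζ ξ ^ 2 := ⟨_, rfl⟩
  have h4 : classInner (rs x (ζ : G → ℂ)) (rs x (ζ : G → ℂ)) = (q : ℂ) + y₂ := by
    rw [classInner_eq_sum_irr _ _ (IsCharacter.isClassFunction (rs_isChar (IsIrrCharacter.isCharacter ζ.2)))]
    have h5 : ∀ ξ : IrrCharacter CX, classInner (rs x (ζ : G → ℂ)) (ξ : CX → ℂ) * conj (classInner (rs x (ζ : G → ℂ)) (ξ : CX → ℂ)) =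
        (if ξ ∈ Sp (p := p) μ ζ then (1 : ℂ) else 0) + ((m0 p μ ζ ξ ^ 2 : ℕ) : ℂ) := by
      intro ξ
      rw [mm_spec, Complex.conj_natCast]
      by_cases h6 : om p μ ξ = 0
      · rw [if_neg (fun h => (mem_Sp.1 h).2 h6), m0_of_eq h6]
        push_cast
        ring
      · rw [m0_of_ne h6]
        by_cases h7 : mm ζ ξ = 0
        · rw [if_neg (fun h => (mem_Sp.1 h).1 h7), h7]
          simp
        · rw [if_pos (mem_Sp.2 ⟨h7, h6⟩), hm1 ξ (mem_Sp.2 ⟨h7, h6⟩)]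
          simp
    rw [Finset.sum_congr rfl fun ξ _ => h5 ξ, Finset.sum_add_distrib, Finset.sum_boole, Finset.filter_mem_eq_inter, Finset.univ_inter, hSpq, hy₂]
    push_cast
    rfl
  obtain ⟨E, hE⟩ : ∃ E, E = EE (p := p) μ (mm ζ) (mm ζ) := ⟨_, rfl⟩
  rw [← hE] at h3
  have hp0 : (p : ℂ) ≠ 0 := by exact_mod_cast hp.out.ne_zero
  have hstar : (E : ℂ) = (p : ℂ) * y₂ + (q : ℂ) * (XS.card : ℂ) := by
    rw [h1, h2, h4] at hT1
    rw [← h3, ← hnorm]
    linear_combination (p : ℂ) * hT1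
  have hstar' : E = p * y₂ + q * XS.card := by exact_mod_cast hstar
  have hbound := L.EE_le ζ hm1 (e := XS.card) (by
    intro ξ hξ
    rw [hXc]
    exact L.J_le hM ζ hob' hT hξ)
  rw [← hE, hSpq, ← hy₂, hstar'] at hbound
  have hy0 : y₂ = 0 := by
    by_contra h5
    have h6 : 0 < y₂ := Nat.pos_of_ne_zero h5
    have h7 : p * y₂ ≤ (2 * q + 1) * y₂ := by nlinarith
    have h8 := Nat.le_of_mul_le_mul_right h7 h6
    omega
  intro ξ hξ
  have h6 := L.m0_le ζ ξ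
  rw [← hy₂, hy0, m0_of_eq hξ] at h6
  omega

end LD

end FT6

end Cfsg.Agent.Lib.FF
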