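import Cfsg.Agent.Lib.FF.FT6

/-!
# Groups whose order is divisible exactly once by `p`: local structure at an element of order `p`
-/

set_option autoImplicit false
set_option linter.unusedSectionVars false
set_option linter.unusedVariables false
set_option maxSynthPendingDepth 3
set_option linter.style.haveILetI false
set_option linter.unusedSimpArgs false
set_option linter.unnecessarySimpa false

open scoped ComplexConjugate Pointwise
open Module Cfsg Cfsg.Agent.Lib.Block Cfsg.Agent.Lib.Char Cfsg.Agent.Lib.CharExtra Cfsg.Agent.Lib.BPair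

namespace Cfsg.Agent.Lib.FF

attribute [local instance] Cfsg.Agent.Lib.BPair.subFintype



theorem ft_arith {ι : Type*} [DecidableEq ι] (XS YS : Finset ι) (o : ι) (ho : o ∈ XS) (hY : YS.Nonempty)
    (p q E : ℕ) (hp0 : 1 ≤ p) (hq2 : 2 ≤ q) (h3q : 3 * q ≤ p - 1) (hcard : XS.card = q) (hEq : E ≤ q ^ 2)
    (d n A A' : ι → ℕ) (δ : ι → ℤ) (δ₀ : ℤ)
    (hδ : ∀ χ ∈ XS, δ χ = 1 ∨ δ χ = -1) (hδ₀ : δ₀ = 1 ∨ δ₀ = -1) (hδo : δ o = 1) (hA'o : A' o = 0) (hdo : d o = 1)
    (hdX : ∀ χ ∈ XS, 0 < d χ) (hdY : ∀ ψ ∈ YS, 0 < d ψ) (hperf : ∀ χ ∈ XS, d χ = 1 → χ = o)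
    (I1 : ∀ χ ∈ XS, (d χ : ℤ) + ((p : ℤ) - 1) * δ χ = p * n χ) (I2 : ∀ χ ∈ XS, (A χ : ℤ) - A' χ = δ χ)
    (I3 : ∀ τ, A' τ ≠ 0 → n τ = 0)
    (I4 : ∀ ψ ∈ YS, (d ψ : ℤ) + q * δ₀ = p * n ψ) (I6 : ∀ ψ ∈ YS, δ₀ * d ψ + ∑ χ ∈ XS, δ χ * d χ = 0)
    (E1 : -(E : ℤ) = ((p : ℤ) - 1) * ∑ χ ∈ XS, δ χ * A' χ + q * δ₀ * ∑ ψ ∈ YS, (A' ψ : ℤ))
    (E2 : (p : ℤ) * q - E = ((p : ℤ) - 1) * ∑ χ ∈ XS, δ χ * A χ + q * δ₀ * ∑ ψ ∈ YS, (A ψ : ℤ)) : False := by
  classical
  have hp3 : 1 ≤ p := hp0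
  have hpZ : ((p : ℤ) - 1) ≥ 3 * q := by
    have : 3 * q + 1 ≤ p := by omega
    have h : (3 * (q : ℤ) + 1) ≤ p := by exact_mod_cast this
    linarith
  have hqpos : (0 : ℤ) < q := by
    have : 0 < q := by omega
    exact_mod_cast this
  have hq2Z : (2 : ℤ) ≤ q := by exact_mod_cast hq2
  have hpZ0 : (0 : ℤ) < p := by linarith
  -- the indicator functions
  obtain ⟨e, he⟩ : ∃ e : ι → ℤ, e = fun χ => if δ χ = -1 then 1 else 0 := ⟨_, rfl⟩
  obtain ⟨v, hv⟩ : ∃ v : ι → ℤ, v = fun χ => if δ χ = 1 ∧ χ ≠ o then 1 else 0 := ⟨_, rfl⟩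
  have hsq : ∀ χ ∈ XS, δ χ * δ χ = 1 := by
    intro χ hχ
    rcases hδ χ hχ with h | h <;> rw [h] <;> norm_num
  -- the partition
  have hpart : ∀ χ ∈ XS, (1 : ℤ) = (if χ = o then 1 else 0) + e χ + v χ := by
    intro χ hχ
    rw [he, hv]
    by_cases h1 : χ = o
    · subst h1
      simp [hδo]
    · rcases hδ χ hχ with h | h <;> simp [h1, h]
  have hqW : (q : ℤ) = 1 + ∑ χ ∈ XS, e χ + ∑ χ ∈ XS, v χ := by
    have h1 : ((XS.card : ℕ) : ℤ) = ∑ χ ∈ XS, (1 : ℤ) := by simp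
    rw [← hcard, h1, Finset.sum_congr rfl hpart, Finset.sum_add_distrib, Finset.sum_add_distrib, Finset.sum_ite_eq' XS o, if_pos ho]
  have he0 : ∀ χ, 0 ≤ e χ := by
    intro χ
    rw [he]
    dsimp only
    split_ifs <;> norm_num
  have hv0 : ∀ χ, 0 ≤ v χ := by
    intro χ
    rw [hv]
    dsimp only
    split_ifs <;> norm_num
  -- pointwise analysis
  have hK : ∀ χ ∈ XS, v χ - e χ ≤ δ χ * n χ - 1 := by
    intro χ hχ
    have h1 := I1 χ hχ
    by_cases h : χ = o
    · subst h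
      rw [hdo, hδo] at h1
      have h2 : (n χ : ℤ) = 1 := by
        have h3 : (p : ℤ) * (n χ : ℤ) = p * 1 := by push_cast at h1; linarith
        exact mul_left_cancel₀ hpZ0.ne' h3
      rw [he, hv]
      simp [hδo, h2]
    · rcases hδ χ hχ with h' | h'
      · have h3 : (2 : ℤ) ≤ n χ := by
          rw [h'] at h1
          have h4 : 2 ≤ d χ := by
            have h5 := hdX χ hχ
            have h6 : d χ ≠ 1 := fun h7 => h (hperf χ hχ h7)
            omega
          have h4' : (2 : ℤ) ≤ d χ := by exact_mod_cast h4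
          by_contra hcon
          have h5 : (n χ : ℤ) ≤ 1 := by omega
          have h6 : (p : ℤ) * n χ ≤ p * 1 := mul_le_mul_of_nonneg_left h5 hpZ0.le
          linarith
        rw [he, hv]
        simp [h, h']
        omega
      · have h3 : A' χ ≠ 0 := by
          have h4 := I2 χ hχ
          rw [h'] at h4
          intro h5
          rw [h5] at h4
          have h6 : (0 : ℤ) ≤ A χ := by positivity
          simp at h4
        have h4 := I3 χ h3
        rw [he, hv]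
        simp [h', h4]
  have hT : ∀ χ ∈ XS, e χ ≤ - (δ χ * A' χ) := by
    intro χ hχ
    have h1 := I1 χ hχ
    by_cases h : χ = o
    · subst h
      rw [he]
      simp [hδo, hA'o]
    · rcases hδ χ hχ with h' | h'
      · have h3 : n χ ≠ 0 := by
          rw [h'] at h1
          intro h4
          rw [h4] at h1
          have h5 := hdX χ hχ
          have h5' : (0 : ℤ) < d χ := by exact_mod_cast h5
          have h6 : (p : ℤ) ≥ 1 := by linarith
          push_cast at h1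
          linarith
        have h4 : A' χ = 0 := by
          by_contra h5
          exact h3 (I3 χ h5)
        rw [he]
        simp [h', h4]
      · have h3 : A' χ ≠ 0 := by
          have h4 := I2 χ hχ
          rw [h'] at h4
          intro h5
          rw [h5] at h4
          have h6 : (0 : ℤ) ≤ A χ := by positivity
          simp at h4
        have h5 : (1 : ℤ) ≤ A' χ := by
          have : 1 ≤ A' χ := Nat.one_le_iff_ne_zero.2 h3
          exact_mod_cast this
        rw [he]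
        simp [h']
        exact Nat.one_le_iff_ne_zero.2 h3
  obtain ⟨W, hW⟩ : ∃ W, W = ∑ χ ∈ XS, e χ := ⟨_, rfl⟩
  obtain ⟨V, hV⟩ : ∃ V, V = ∑ χ ∈ XS, v χ := ⟨_, rfl⟩
  obtain ⟨K, hKd⟩ : ∃ K, K = ∑ χ ∈ XS, (δ χ * n χ - 1) := ⟨_, rfl⟩
  obtain ⟨T', hT'⟩ : ∃ T', T' = ∑ χ ∈ XS, (δ χ * A' χ) := ⟨_, rfl⟩
  obtain ⟨B, hB⟩ : ∃ B, B = ∑ ψ ∈ YS, (A' ψ : ℤ) := ⟨_, rfl⟩
  obtain ⟨B', hB'⟩ : ∃ B', B' = ∑ ψ ∈ YS, (A ψ : ℤ) := ⟨_, rfl⟩
  rw [← hW, ← hV] at hqW
  rw [← hT', ← hB] at E1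
  rw [← hB'] at E2
  have hW0 : 0 ≤ W := by
    rw [hW]
    exact Finset.sum_nonneg fun χ _ => he0 χ
  have hV0 : 0 ≤ V := by
    rw [hV]
    exact Finset.sum_nonneg fun χ _ => hv0 χ
  have hVK : V - W ≤ K := by
    rw [hV, hW, hKd, ← Finset.sum_sub_distrib]
    exact Finset.sum_le_sum hK
  have hWT : W ≤ - T' := by
    rw [hW, hT', ← Finset.sum_neg_distrib]
    exact Finset.sum_le_sum hT
  have hB0 : 0 ≤ B := by
    rw [hB]
    exact Finset.sum_nonneg fun χ _ => by positivity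
  have hB'0 : 0 ≤ B' := by
    rw [hB']
    exact Finset.sum_nonneg fun χ _ => by positivity
  -- the difference of the two equations
  have hdiff : ∑ χ ∈ XS, δ χ * (A χ : ℤ) - T' = q := by
    rw [hT', ← Finset.sum_sub_distrib]
    have h1 : ∀ χ ∈ XS, δ χ * (A χ : ℤ) - δ χ * (A' χ : ℤ) = 1 := by
      intro χ hχ
      have h2 := I2 χ hχ
      have h3 := hsq χ hχ
      calc δ χ * (A χ : ℤ) - δ χ * (A' χ : ℤ) = δ χ * ((A χ : ℤ) - A' χ) := by ring
        _ = 1 := by rw [h2, h3]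
    rw [Finset.sum_congr rfl h1]
    simp [hcard]
  have hone : δ₀ * (B' - B) = 1 := by
    have h1 : (q : ℤ) * (δ₀ * (B' - B)) = q * 1 := by
      have h2 : ∑ χ ∈ XS, δ χ * (A χ : ℤ) = q + T' := by linarith
      rw [h2] at E2
      linear_combination E1 - E2
    exact mul_left_cancel₀ hqpos.ne' h1
  -- the values at the exceptional characters
  have hsum : ∑ χ ∈ XS, δ χ * (d χ : ℤ) = p * K + q := by
    have h1 : ∀ χ ∈ XS, δ χ * (d χ : ℤ) = p * (δ χ * n χ - 1) + 1 := by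
      intro χ hχ
      have h2 := I1 χ hχ
      have h3 := hsq χ hχ
      linear_combination (δ χ) * h2 - (p - 1 : ℤ) * h3
    rw [Finset.sum_congr rfl h1, Finset.sum_add_distrib, ← Finset.mul_sum, ← hKd]
    simp [hcard]
  have hψ : ∀ ψ ∈ YS, δ₀ * (n ψ : ℤ) = - K := by
    intro ψ hψ
    have h1 := I4 ψ hψ
    have h2 := I6 ψ hψ
    rw [hsum] at h2
    have h3 : δ₀ * δ₀ = 1 := by
      rcases hδ₀ with h | h <;> rw [h] <;> norm_num
    have h4 : (p : ℤ) * (δ₀ * (n ψ : ℤ)) = p * (-K) := by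
      linear_combination (-δ₀) * h1 + h2 + (q : ℤ) * h3
    exact mul_left_cancel₀ hpZ0.ne' h4
  obtain ⟨ψ₀, hψ₀⟩ := hY
  rcases hδ₀ with h0 | h0
  · -- the positive case
    rw [h0] at hone E1
    have hnψ := hψ ψ₀ hψ₀
    rw [h0, one_mul] at hnψ
    have hnn : (1 : ℤ) ≤ n ψ₀ := by
      have h1 := I4 ψ₀ hψ₀
      rw [h0] at h1
      have h2 := hdY ψ₀ hψ₀
      have h2' : (0 : ℤ) < d ψ₀ := by exact_mod_cast h2
      by_contra hcon
      have h3 : (n ψ₀ : ℤ) ≤ 0 := by omega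
      have h4 : (p : ℤ) * n ψ₀ ≤ 0 := mul_nonpos_of_nonneg_of_nonpos hpZ0.le h3
      push_cast at h1
      linarith
    have hBz : B = 0 := by
      rw [hB]
      refine Finset.sum_eq_zero fun ψ hh => ?_
      have h1 := hψ ψ hh
      rw [h0, one_mul] at h1
      have h2 : n ψ ≠ 0 := by
        intro h3
        rw [h3] at h1
        rw [hnψ] at hnn
        simp at h1
        linarith
      have h3 : A' ψ = 0 := by
        by_contra h4
        exact h2 (I3 ψ h4)
      rw [h3]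
      rfl
    rw [hBz] at E1
    have h1 : (E : ℤ) = ((p : ℤ) - 1) * (- T') := by linarith
    have h2 : (E : ℤ) ≤ q ^ 2 := by exact_mod_cast hEq
    have h3 : V ≤ W - 1 := by linarith
    have h4 : (q : ℤ) ≤ 2 * W := by linarith
    have h5 : 3 * (q : ℤ) * W ≤ ((p : ℤ) - 1) * (- T') := by
      have h6 : 3 * (q : ℤ) * W ≤ ((p : ℤ) - 1) * W := mul_le_mul_of_nonneg_right hpZ hW0
      have h7 : ((p : ℤ) - 1) * W ≤ ((p : ℤ) - 1) * (- T') := mul_le_mul_of_nonneg_left hWT (by linarith)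
      linarith
    have h6 : (q : ℤ) * (3 * W) ≤ q * q := by
      have e1 : (q : ℤ) * (3 * W) = 3 * (q : ℤ) * W := by ring
      have e2 : (q : ℤ) * q = q ^ 2 := by ring
      rw [e1, e2]
      linarith
    have h7 : 3 * W ≤ q := le_of_mul_le_mul_left h6 hqpos
    have h8 : W ≤ 0 := by linarith
    linarith
  · rw [h0] at hone E1
    have hB1 : 1 ≤ B := by linarith
    have hex : ∃ ψ ∈ YS, A' ψ ≠ 0 := by
      by_contra hcon
      push Not at hcon
      have : B = 0 := by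
        rw [hB]
        refine Finset.sum_eq_zero fun ψ hh => ?_
        rw [hcon ψ hh]
        rfl
      linarith
    obtain ⟨ψ₁, hψ₁, hA1⟩ := hex
    have hn1 := I3 ψ₁ hA1
    have hK0 := hψ ψ₁ hψ₁
    rw [hn1] at hK0
    simp only [Nat.cast_zero, mul_zero] at hK0
    have hK0' : K = 0 := by linarith
    have h1 : (E : ℤ) = ((p : ℤ) - 1) * (- T') + q * B := by linarith
    have h2 : (E : ℤ) ≤ q ^ 2 := by exact_mod_cast hEq
    have h3 : V ≤ W := by linarith
    have h4 : (q : ℤ) ≤ 1 + 2 * W := by linarith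
    have h5 : 3 * (q : ℤ) * W ≤ ((p : ℤ) - 1) * (- T') := by
      have h6 : 3 * (q : ℤ) * W ≤ ((p : ℤ) - 1) * W := mul_le_mul_of_nonneg_right hpZ hW0
      have h7 : ((p : ℤ) - 1) * W ≤ ((p : ℤ) - 1) * (- T') := mul_le_mul_of_nonneg_left hWT (by linarith)
      linarith
    have h9 : (q : ℤ) * 1 ≤ q * B := mul_le_mul_of_nonneg_left hB1 hqpos.le
    have h6 : (q : ℤ) * (3 * W + 1) ≤ q * q := by
      have e1 : (q : ℤ) * (3 * W + 1) = 3 * (q : ℤ) * W + q * 1 := by ring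
      have e2 : (q : ℤ) * q = q ^ 2 := by ring
      rw [e1, e2]
      linarith
    have h7 : 3 * W + 1 ≤ q := le_of_mul_le_mul_left h6 hqpos
    have h8 : W ≤ 0 := by linarith
    linarith


section PBnorm

variable {X : Type*} [Group X] [Fintype X] {p : ℕ} [hp : Fact p.Prime] {M : Ideal AlgInt} {B : Set (IrrCharacter X)}
  {XS YS : Finset (IrrCharacter X)} {δ : IrrCharacter X → ℤ} {δ₀ : ℤ}

namespace PB

theorem normalize (D : PB p M B XS YS δ δ₀) {χ₀ : IrrCharacter X} (h0 : χ₀ ∈ XS) :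
    PB p M B XS YS (fun τ => δ χ₀ * δ τ) (δ χ₀ * δ₀) := by
  refine ⟨D.hM, D.hBb, D.hB, D.hdis, D.hpos, D.hmul, D.hrank, ?_, ?_, ?_⟩
  · intro χ hχ
    rcases D.hδ χ₀ h0 with h | h <;> rcases D.hδ χ hχ with h' | h' <;> simp [h, h']
  · rcases D.hδ χ₀ h0 with h | h <;> rcases D.hδ₀ with h' | h' <;> simp [h, h']
  · intro ψ hψ g hg
    have h := D.hrel ψ hψ g hg
    push_cast
    have h2 : ∑ χ ∈ XS, ((δ χ₀ : ℂ) * (δ χ : ℂ)) * (χ : X → ℂ) g = (δ χ₀ : ℂ) * ∑ χ ∈ XS, (δ χ : ℂ) * (χ : X → ℂ) g := by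
      rw [Finset.mul_sum]
      refine Finset.sum_congr rfl fun χ _ => by ring
    rw [h2]
    linear_combination (δ χ₀ : ℂ) * h

theorem sing_Y (D : PB p M B XS YS δ δ₀) (h1 : oneIrr X ∈ XS) (hd : δ (oneIrr X) = 1) {c : X} (hc : p ∣ orderOf c) :
    (δ₀ : ℂ) * ∑ ψ ∈ YS, (ψ : X → ℂ) c = 1 := by
  have h := D.phi_vanish h1 hc
  simp only [phiP, hd, oneIrr_coe] at h
  push_cast at h
  linear_combination -h

theorem sing_X (D : PB p M B XS YS δ δ₀) (h1 : oneIrr X ∈ XS) (hd : δ (oneIrr X) = 1) {χ : IrrCharacter X} (hχ : χ ∈ XS) {c : X}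
    (hc : p ∣ orderOf c) : (χ : X → ℂ) c = δ χ := by
  have h := D.phi_vanish hχ hc
  simp only [phiP] at h
  have h2 := D.sing_Y h1 hd hc
  have h3 := D.del_sq hχ
  linear_combination (-((χ : X → ℂ) c)) * h3 + (δ χ : ℂ) * h + (δ χ : ℂ) * h2

open Classical in
theorem indicator (D : PB p M B XS YS δ δ₀) (h1 : oneIrr X ∈ XS) (hd : δ (oneIrr X) = 1) (g : X) :
    (p : ℂ) * (if p ∣ orderOf g then 1 else 0) =
      (YS.card : ℂ) * ∑ χ ∈ XS, (δ χ : ℂ) * (χ : X → ℂ) g + (δ₀ : ℂ) * ∑ ψ ∈ YS, (ψ : X → ℂ) g := by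
  by_cases hg : p ∣ orderOf g
  · rw [if_pos hg, D.sing_Y h1 hd hg]
    have h2 : ∑ χ ∈ XS, (δ χ : ℂ) * (χ : X → ℂ) g = XS.card := by
      rw [Finset.sum_congr rfl (fun χ hχ => by rw [D.sing_X h1 hd hχ hg, D.del_sq hχ])]
      simp
    rw [h2]
    have h3 : ((XS.card * YS.card + 1 : ℕ) : ℂ) = p := by
      rw [D.hmul]
      congr 1
      have := hp.out.pos
      omega
    push_cast at h3
    rw [← h3]
    ring
  · rw [if_neg hg, mul_zero]
    have h2 : ∀ ψ ∈ YS, (ψ : X → ℂ) g * (δ₀ : ℂ) = - ∑ χ ∈ XS, (δ χ : ℂ) * (χ : X → ℂ) g := fun ψ hψ => by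
      linear_combination D.hrel ψ hψ g hg
    rw [mul_comm (δ₀ : ℂ), Finset.sum_mul, Finset.sum_congr rfl h2]
    simp

end PB

end PBnorm


section FT7

variable {G : Type*} [Group G] [Fintype G] {p : ℕ} [hp : Fact p.Prime] {x : G} {μ : Cen (Subgroup.zpowers x) →* ℂˣ} {M : Ideal AlgInt}

local notation "CX" => Cen (Subgroup.zpowers x)
local notation "NX" => Subgroup.normalizer ((Subgroup.zpowers x : Subgroup G) : Set G)

theorem reg_mem_core (hX : (Nat.card G).factorization p = 1) {u : G} (hu : orderOf u = p) {v : G} (hv : ¬ p ∣ orderOf v) (hc : v * u = u * v) :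
    v ∈ centralizerPPrimeCore p u := by
  classical
  obtain ⟨μ', L'⟩ := exists_LD (x := u) hX hu
  have hle : Subgroup.centralizer ({u} : Set G) ≤ Cen (Subgroup.zpowers u) := by
    rw [ft_cen_eq]
  let ν : Subgroup.centralizer ({u} : Set G) →* ℂˣ := μ'.comp (Subgroup.inclusion hle)
  have hN : (Nat.card ν.ker).Coprime p := by
    refine Nat.Coprime.symm ((Nat.Prime.coprime_iff_not_dvd hp.out).2 ?_)
    intro hd
    obtain ⟨y, hy⟩ := exists_prime_orderOf_dvd_card' p hd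
    have h1 : ν y = 1 := y.2
    have h2 : orderOf (Subgroup.inclusion hle (y : Subgroup.centralizer ({u} : Set G))) = p := by
      have h3 : orderOf (Subgroup.inclusion hle (y : Subgroup.centralizer ({u} : Set G))) = orderOf ((y : Subgroup.centralizer ({u} : Set G)) : G) := by
        rw [← Subgroup.orderOf_coe]
        rfl
      rw [h3, Subgroup.orderOf_coe, Subgroup.orderOf_coe, hy]
    apply L'.mu_sing (c := Subgroup.inclusion hle (y : Subgroup.centralizer ({u} : Set G))) (by rw [h2])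
    exact h1
  have hvmem : v ∈ Subgroup.centralizer ({u} : Set G) := by
    rw [Subgroup.mem_centralizer_singleton_iff]
    exact hc
  have hreg : ¬ p ∣ orderOf (Subgroup.inclusion hle (⟨v, hvmem⟩ : Subgroup.centralizer ({u} : Set G))) := by
    have h3 : orderOf (Subgroup.inclusion hle (⟨v, hvmem⟩ : Subgroup.centralizer ({u} : Set G))) = orderOf v := by
      rw [← Subgroup.orderOf_coe]
      rfl
    rwa [h3]
  have hker : (⟨v, hvmem⟩ : Subgroup.centralizer ({u} : Set G)) ∈ ν.ker := by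
    rw [MonoidHom.mem_ker]
    exact L'.mu_reg hreg
  exact ⟨⟨v, hvmem⟩, Cfsg.Agent.Lib.Core.le_pPrimeCore (MonoidHom.normal_ker ν) hN hker, rfl⟩

namespace LD

variable (L : LD p x μ)
include L

/-- Characters in the principal block are constant on the sections. -/
theorem sec_princ (hM : IsPModular p M) {χ : IrrCharacter G} (hχ : χ ∈ principalBlock M G) {c : CX} {a : ZMod p} (ha : a ≠ 0)
    (hμ : ((μ c : ℂˣ) : ℂ) = ee μ a) : (χ : G → ℂ) c = (χ : G → ℂ) (x ^ a.val) := by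
  obtain ⟨y, hy⟩ : ∃ y : CX, y = c * (tx x ^ a.val)⁻¹ := ⟨_, rfl⟩
  have hcy : c = y * tx x ^ a.val := by
    rw [hy]
    group
  have hyμ : μ y = 1 := by
    apply Units.ext
    rw [hy, map_mul, map_inv, map_pow, Units.val_mul, hμ, Units.val_inv_eq_inv_val, Units.val_pow_eq_pow_val]
    unfold ee
    exact mul_inv_cancel₀ (pow_ne_zero _ (Units.ne_zero _))
  have hyreg : ¬ p ∣ orderOf y := fun h => L.mu_sing h hyμ
  have hyreg' : ¬ p ∣ orderOf (y : G) := by rwa [Subgroup.orderOf_coe]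
  have hxord : orderOf (x ^ a.val) = p := by
    rw [orderOf_pow' _ (fun h => ha ((ZMod.val_eq_zero a).1 h)), L.hx]
    have h1 : Nat.gcd p a.val = 1 := by
      refine (Nat.Prime.coprime_iff_not_dvd hp.out).2 (fun h => ?_)
      have h2 : a.val ≠ 0 := fun h => ha ((ZMod.val_eq_zero a).1 h)
      have h3 := Nat.le_of_dvd (Nat.pos_of_ne_zero h2) h
      have h4 := ZMod.val_lt a
      omega
    rw [h1, Nat.div_one]
  have hcomm : (y : G) * x ^ a.val = x ^ a.val * (y : G) := (Commute.pow_right (ft_mem_cen.1 y.2) _).eq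
  have h1 := irr_mul_of_principal hM (u := x ^ a.val) ⟨1, by rw [hxord, pow_one]⟩ (reg_mem_core L.hX hxord hyreg' hcomm) χ hχ
  rw [← h1]
  rw [hcy]
  simp only [Subgroup.coe_mul, Subgroup.coe_pow]
  rw [show ((tx x : CX) : G) = x from rfl, hcomm]

open Classical in
/-- The average over the singular elements of functions factoring through the linear character. -/
theorem sum_sing (F : CX → ℂ) (r : ZMod p → ℂ) (hF : ∀ (c : CX) (a : ZMod p), a ≠ 0 → ((μ c : ℂˣ) : ℂ) = ee μ a → F c = r a) :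
    (p : ℂ) * ((Nat.card CX : ℂ)⁻¹ * ∑ c : CX, if p ∣ orderOf c then F c else 0) = ∑ a : ZMod p, if a = 0 then 0 else r a := by
  choose lg hlg using L.exists_mu_eq
  have hC0 : (Nat.card CX : ℂ) ≠ 0 := by
    exact_mod_cast (Nat.card_pos (α := CX)).ne'
  have hp0 : (p : ℂ) ≠ 0 := by exact_mod_cast hp.out.ne_zero
  obtain ⟨v, hv⟩ : ∃ v, v = (Finset.univ.filter fun c : CX => lg c = 0).card := ⟨_, rfl⟩
  have hfib : ∀ a : ZMod p, (Finset.univ.filter fun c : CX => lg c = a).card = v := by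
    intro a
    rw [hv]
    refine Finset.card_bij (fun c _ => (tx x ^ a.val)⁻¹ * c) ?_ ?_ ?_
    · intro c hc
      simp only [Finset.mem_filter, Finset.mem_univ, true_and] at hc ⊢
      apply L.ee_inj
      rw [← hlg, L.ee_zero]
      rw [map_mul, map_inv, map_pow, Units.val_mul, hlg c, hc, Units.val_inv_eq_inv_val, Units.val_pow_eq_pow_val]
      unfold ee
      exact inv_mul_cancel₀ (pow_ne_zero _ (Units.ne_zero _))
    · intro c _ c' _ h
      exact mul_left_cancel h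
    · intro c hc
      simp only [Finset.mem_filter, Finset.mem_univ, true_and] at hc
      refine ⟨tx x ^ a.val * c, ?_, by group⟩
      simp only [Finset.mem_filter, Finset.mem_univ, true_and]
      apply L.ee_inj
      rw [← hlg, map_mul, map_pow, Units.val_mul, hlg c, hc, L.ee_zero, mul_one, Units.val_pow_eq_pow_val]
      rfl
  have hcard : p * v = Nat.card CX := by
    have h1 := Finset.card_eq_sum_card_fiberwise (s := (Finset.univ : Finset CX)) (t := (Finset.univ : Finset (ZMod p))) (f := lg) (fun _ _ => Finset.mem_univ _)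
    simp only [hfib, Finset.sum_const, Finset.card_univ, ZMod.card, smul_eq_mul] at h1
    rw [Nat.card_eq_fintype_card, h1]
  have hsum : ∑ c : CX, (if p ∣ orderOf c then F c else 0) = (v : ℂ) * ∑ a : ZMod p, if a = 0 then 0 else r a := by
    rw [← Finset.sum_fiberwise (s := (Finset.univ : Finset CX)) (g := lg), Finset.mul_sum]
    refine Finset.sum_congr rfl fun a _ => ?_
    have h2 : ∀ c ∈ Finset.univ.filter (fun c : CX => lg c = a), (if p ∣ orderOf c then F c else 0) = if a = 0 then 0 else r a := by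
      intro c hc
      have hc' : lg c = a := (Finset.mem_filter.1 hc).2
      by_cases ha : a = 0
      · rw [if_pos ha, if_neg]
        intro hs
        apply L.mu_sing hs
        apply Units.ext
        rw [hlg c, hc', ha, L.ee_zero]
        rfl
      · rw [if_neg ha, if_pos, hF c a ha (by rw [hlg c, hc'])]
        by_contra hs
        have h3 := L.mu_reg hs
        have h4 := hlg c
        rw [h3, hc', Units.val_one] at h4
        have h5 : ee μ (0 : ZMod p) = ee μ a := by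
          rw [L.ee_zero, ← h4]
        exact ha (L.ee_inj h5).symm
    rw [Finset.sum_congr rfl h2, Finset.sum_const, hfib, nsmul_eq_mul]
  rw [hsum]
  have h3 : (p : ℂ) * (v : ℂ) = (Nat.card CX : ℂ) := by exact_mod_cast hcard
  field_simp
  rw [← h3]

open Classical in
theorem F_formula {B : Set (IrrCharacter G)} {XS YS : Finset (IrrCharacter G)} {δ : IrrCharacter G → ℤ} {δ₀ : ℤ}
    (D : PB p M B XS YS δ δ₀) (h1 : oneIrr G ∈ XS) (hd : δ (oneIrr G) = 1) {q : ℕ} (hq0 : q ≠ 0)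
    (hq : Nat.card NX = q * Nat.card CX) (hXq : XS.card = q) (f : G → ℂ) (hf : IsClassFunction G f) :
    (p : ℂ) * ((Nat.card CX : ℂ)⁻¹ * ∑ c : CX, if p ∣ orderOf c then f c else 0) =
      ((p : ℂ) - 1) * ∑ χ ∈ XS, (δ χ : ℂ) * classInner f (χ : G → ℂ) + (q : ℂ) * (δ₀ : ℂ) * ∑ ψ ∈ YS, classInner f (ψ : G → ℂ) := by
  obtain ⟨u, hu⟩ : ∃ u : G → ℂ, u = fun g => f g * (if p ∣ orderOf g then 1 else 0) := ⟨_, rfl⟩
  have huc : IsClassFunction G u := by
    intro a b
    rw [hu]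
    dsimp only
    rw [hf a b]
    rw [orderOf_conj]
  have hreg : ∀ g, ¬ p ∣ orderOf g → u g = 0 := by
    intro g hg
    rw [hu]
    simp [hg]
  have hT := ft_T1 L.hX L.hx u huc hreg hq0 hq
  have hc : ∑ c : CX, u c = ∑ c : CX, if p ∣ orderOf c then f c else 0 := by
    refine Finset.sum_congr rfl fun c _ => ?_
    rw [hu]
    dsimp only
    rw [Subgroup.orderOf_coe]
    split_ifs <;> simp
  rw [hc] at hT
  rw [← hT]
  have h2 : (p : ℂ) * ((Nat.card G : ℂ)⁻¹ * ∑ g, u g) =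
      (YS.card : ℂ) * ∑ χ ∈ XS, (δ χ : ℂ) * classInner f (χ : G → ℂ) + (δ₀ : ℂ) * ∑ ψ ∈ YS, classInner f (ψ : G → ℂ) := by
    obtain ⟨r, hr⟩ : ∃ r : G → ℂ, r = (YS.card : ℂ) • ∑ χ ∈ XS, (δ χ : ℂ) • (χ : G → ℂ) + (δ₀ : ℂ) • ∑ ψ ∈ YS, (ψ : G → ℂ) := ⟨_, rfl⟩
    have hrv : ∀ g, r g = (p : ℂ) * (if p ∣ orderOf g then 1 else 0) := by
      intro g
      rw [D.indicator h1 hd g, hr]
      simp [Finset.sum_apply]
    have h3 : classInner f r = (YS.card : ℂ) * ∑ χ ∈ XS, (δ χ : ℂ) * classInner f (χ : G → ℂ) + (δ₀ : ℂ) * ∑ ψ ∈ YS, classInner f (ψ : G → ℂ) := by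
      rw [hr, classInner_add_right, classInner_smul_right, classInner_smul_right, classInner_sum_right, classInner_sum_right, map_natCast, map_intCast]
      congr 2
      refine Finset.sum_congr rfl fun χ _ => ?_
      rw [classInner_smul_right, map_intCast]
    rw [← h3]
    unfold classInner
    have h5 : ∑ g, f g * conj (r g) = (p : ℂ) * ∑ g, u g := by
      rw [Finset.mul_sum]
      refine Finset.sum_congr rfl fun g _ => ?_
      rw [hrv g, hu]
      dsimp only
      split_ifs <;> simp <;> ring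
    rw [h5]
    ring
  have h4 : (p : ℂ) - 1 = (q : ℂ) * YS.card := by
    have h5 : ((XS.card * YS.card + 1 : ℕ) : ℂ) = p := by
      rw [D.hmul]
      congr 1
      have := hp.out.pos
      omega
    push_cast at h5
    rw [← h5, hXq]
    ring
  rw [h4]
  linear_combination (q : ℂ) * h2

end LD

end FT7

end Cfsg.Agent.Lib.FF
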