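import Cfsg.Agent.Lib.FF.FT7
import Cfsg.Agent.Lib.BPair.Nil

/-!
# Groups whose order is divisible exactly once by `p`: local structure at an element of order `p`
-/

set_option autoImplicit false
set_option linter.unusedSectionVars false
set_option linter.unusedVariables false
set_option maxSynthPendingDepth 3
set_option linter.style.haveILetI false
set_option linter.unusedSimpArgs false
set_option linter.unnecessarySimpa false

open scoped ComplexConjugate Pointwise
open Module Cfsg Cfsg.Agent.Lib.Block Cfsg.Agent.Lib.Char Cfsg.Agent.Lib.CharExtra Cfsg.Agent.Lib.BPair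

namespace Cfsg.Agent.Lib.FF

attribute [local instance] Cfsg.Agent.Lib.BPair.subFintype


section FT8

variable {G : Type*} [Group G] [Fintype G] {p : ℕ} [hp : Fact p.Prime] {x : G} {μ : Cen (Subgroup.zpowers x) →* ℂˣ} {M : Ideal AlgInt}

local notation "CX" => Cen (Subgroup.zpowers x)
local notation "NX" => Subgroup.normalizer ((Subgroup.zpowers x : Subgroup G) : Set G)

open Classical in
/-- The multiplicity of the trivial character of the subgroup generated by `x`. -/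
noncomputable def nn (p : ℕ) (μ : Cen (Subgroup.zpowers x) →* ℂˣ) (τ : IrrCharacter G) : ℕ :=
  ∑ ξ : IrrCharacter (Cen (Subgroup.zpowers x)), if om p μ ξ = 0 then mm τ ξ * charDegree (ξ : Cen (Subgroup.zpowers x) → ℂ) else 0

namespace LD

variable (L : LD p x μ)
include L

open Classical in
theorem sum_ee (a : ZMod p) : ∑ j : ZMod p, ee μ a ^ j.val = if a = 0 then (p : ℂ) else 0 := by
  rw [sum_zmod_val (fun i => ee μ a ^ i)]
  split_ifs with h
  · rw [h, L.ee_zero]
    simp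
  · have h1 : ee μ a ≠ 1 := by
      intro h2
      apply h
      apply L.ee_inj
      rw [h2, L.ee_zero]
    have h2 : ee μ a ^ p = 1 := by
      unfold ee
      rw [← pow_mul, mul_comm, pow_mul, L.eps_root.pow_eq_one, one_pow]
    have h3 : (∑ i ∈ Finset.range p, ee μ a ^ i) * (ee μ a - 1) = ee μ a ^ p - 1 := geom_sum_mul _ _
    rw [h2, sub_self] at h3
    exact (mul_eq_zero.1 h3).resolve_right (sub_ne_zero.2 h1)

theorem sum_D (τ : IrrCharacter G) : ∑ a : ZMod p, (τ : G → ℂ) (x ^ a.val) = (p : ℂ) * (nn p μ τ : ℕ) := by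
  classical
  have h1 : ∀ a : ZMod p, (τ : G → ℂ) (x ^ a.val) =
      ∑ ξ : IrrCharacter CX, ((mm τ ξ : ℂ) * (ξ : CX → ℂ) 1) * ee μ (om p μ ξ) ^ a.val := by
    intro a
    have h2 := rs_eq_sum (x := x) τ (tx x ^ a.val)
    have h3 : (((tx x ^ a.val : CX)) : G) = x ^ a.val := by
      rw [Subgroup.coe_pow]
      rfl
    rw [h3] at h2
    rw [h2]
    refine Finset.sum_congr rfl fun ξ _ => ?_
    rw [L.irr_pow]
    ring
  rw [Finset.sum_congr rfl fun a _ => h1 a, Finset.sum_comm]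
  unfold nn
  push_cast
  rw [Finset.mul_sum]
  refine Finset.sum_congr rfl fun ξ _ => ?_
  rw [← Finset.mul_sum, L.sum_ee]
  have h4 : (ξ : CX → ℂ) 1 = (charDegree (ξ : CX → ℂ) : ℂ) := map_one_eq_charDegree (IsIrrCharacter.isCharacter ξ.2)
  rw [h4]
  split_ifs
  · push_cast
    ring
  · simp

theorem exists_prin (hM : IsPModular p M) {q : ℕ} (hq : Nat.card NX = q * Nat.card CX) :
    ∃ (XS YS : Finset (IrrCharacter G)) (δ : IrrCharacter G → ℤ) (δ₀ : ℤ), PB p M (principalBlock M G) XS YS δ δ₀ ∧ XS.card = q := by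
  classical
  have hPr := isPModular_isPrime hM
  have hU : IsPGroup p (Subgroup.zpowers x) := ft_isP_zp L.hx
  have hb : IsPBlock M (principalBlock M CX) := isPBlock_principalBlock
  have hdef := inducedBlockDefined_of_normalizer hM hU (zpowers_le_cen x) le_rfl (centralizer_le_normalizer_self _) hb
  have hind := (third_main hM CX (principalBlock M CX) hdef).2 rfl
  have hBD : IsDefectGroup p M (principalBlock M G) (Subgroup.zpowers x) := by
    have h1 := L.defect_of_deg hM (oneIrr G) (by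
      rw [charDegree_oneIrr]
      intro h
      exact hp.out.one_lt.ne' (Nat.dvd_one.1 h))
    exact h1
  have hDc : Nat.card (Subgroup.zpowers x) = p := by rw [Nat.card_zpowers, L.hx]
  obtain ⟨XS, YS, δ, δ₀, hPB, hcard⟩ := exists_pb hM isPBlock_principalBlock hDc hBD hind (T := NX)
    (fun g => ⟨fun hg => ⟨hg, stabilizes_principal hg⟩, fun h => h.1⟩)
  refine ⟨XS, YS, δ, δ₀, hPB, ?_⟩
  rw [hcard]
  have h1 := Subgroup.relIndex_mul_relIndex ⊥ CX NX bot_le (centralizer_le_normalizer_self _)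
  rw [Subgroup.relIndex_bot_left, Subgroup.relIndex_bot_left, hq, mul_comm] at h1
  exact Nat.eq_of_mul_eq_mul_right Nat.card_pos h1

theorem pow_val_order {a : ZMod p} (ha : a ≠ 0) : orderOf (x ^ a.val) = p := by
  rw [orderOf_pow' _ (fun h => ha ((ZMod.val_eq_zero a).1 h)), L.hx]
  have h1 : Nat.gcd p a.val = 1 := by
    refine (Nat.Prime.coprime_iff_not_dvd hp.out).2 (fun h => ?_)
    have h2 : a.val ≠ 0 := fun h => ha ((ZMod.val_eq_zero a).1 h)
    have h3 := Nat.le_of_dvd (Nat.pos_of_ne_zero h2) h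
    have h4 := ZMod.val_lt a
    omega
  rw [h1, Nat.div_one]

end LD

open Classical in
theorem sum_zmod_split (F : ZMod p → ℂ) : ∑ a, F a = F 0 + ∑ a, if a = 0 then 0 else F a := by
  have h1 : ∀ a, F a = (if a = 0 then F 0 else 0) + (if a = 0 then 0 else F a) := by
    intro a
    by_cases h : a = 0
    · subst h
      simp
    · simp [h]
  conv_lhs => rw [Finset.sum_congr rfl fun a _ => h1 a]
  rw [Finset.sum_add_distrib, Finset.sum_ite_eq' Finset.univ (0 : ZMod p), if_pos (Finset.mem_univ _)]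

open Classical in
theorem sum_zmod_const (c : ℂ) : (∑ a : ZMod p, if a = 0 then 0 else c) = ((p : ℂ) - 1) * c := by
  have h1 := sum_zmod_split (p := p) (fun _ => c)
  simp only [Finset.sum_const, Finset.card_univ, ZMod.card, nsmul_eq_mul] at h1
  linear_combination -h1

namespace LD

variable (L : LD p x μ)
include L

theorem inner_D_eq_zero {Q : G → ℂ} (hQ : IsClassFunction G Q) (A' : IrrCharacter G → ℕ) (hA' : ∀ τ : IrrCharacter G, classInner Q (τ : G → ℂ) = A' τ)
    (hP : ∑ a : ZMod p, Q (x ^ a.val) = 0) (τ : IrrCharacter G) (hτ : A' τ ≠ 0) : nn p μ τ = 0 := by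
  classical
  have h1 : ∀ a : ZMod p, Q (x ^ a.val) = ∑ τ : IrrCharacter G, (A' τ : ℂ) * (τ : G → ℂ) (x ^ a.val) := by
    intro a
    have h2 := congrFun (classFunction_eq_sum Q hQ) (x ^ a.val)
    rw [Finset.sum_apply] at h2
    rw [h2]
    refine Finset.sum_congr rfl fun τ _ => ?_
    rw [Pi.smul_apply, hA', smul_eq_mul]
  rw [Finset.sum_congr rfl fun a _ => h1 a, Finset.sum_comm] at hP
  have h3 : ∀ τ : IrrCharacter G, ∑ a : ZMod p, (A' τ : ℂ) * (τ : G → ℂ) (x ^ a.val) = (p : ℂ) * ((A' τ * nn p μ τ : ℕ) : ℂ) := by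
    intro τ
    rw [← Finset.mul_sum, L.sum_D]
    push_cast
    ring
  rw [Finset.sum_congr rfl fun τ _ => h3 τ, ← Finset.mul_sum] at hP
  have hp0 : (p : ℂ) ≠ 0 := by exact_mod_cast hp.out.ne_zero
  have h4 := (mul_eq_zero.1 hP).resolve_left hp0
  have h5 : ∑ τ : IrrCharacter G, (A' τ * nn p μ τ) = 0 := by exact_mod_cast h4
  have h6 := (Finset.sum_eq_zero_iff.1 h5) τ (Finset.mem_univ _)
  exact (Nat.mul_eq_zero.1 h6).resolve_left hτ

theorem partII (hM : IsPModular p M) (hperf : ∀ χ : IrrCharacter G, charDegree (χ : G → ℂ) = 1 → χ = oneIrr G)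
    (ζ ζ' : IrrCharacter G) (hne : ζ' ≠ ζ) {q E : ℕ} (hq : Nat.card NX = q * Nat.card CX) (hq2 : 2 ≤ q) (h3q : 3 * q ≤ p - 1)
    (hag : ∀ g : G, ¬ p ∣ orderOf g → (ζ : G → ℂ) g = (ζ' : G → ℂ) g)
    (hA : classInner (rs x (ζ : G → ℂ)) (rs x (ζ : G → ℂ)) = q)
    (hI : classInner (rs x (ζ' : G → ℂ)) (rs x (ζ : G → ℂ)) = 0)
    (hP : ∑ a : ZMod p, (ζ' : G → ℂ) (x ^ a.val) * conj ((ζ : G → ℂ) (x ^ a.val)) = 0)
    (hE : (p : ℂ) * ((Nat.card CX : ℂ)⁻¹ * ∑ c : CX, if ¬ p ∣ orderOf c then (ζ : G → ℂ) c * conj ((ζ : G → ℂ) c) else 0) = (E : ℕ))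
    (hEq : E ≤ q ^ 2) : False := by
  classical
  have hPr := isPModular_isPrime hM
  have hq0 : q ≠ 0 := by omega
  have hqC : (q : ℂ) ≠ 0 := by exact_mod_cast hq0
  have hC0 : (Nat.card CX : ℂ) ≠ 0 := by exact_mod_cast (Nat.card_pos (α := CX)).ne'
  have hpC : (p : ℂ) ≠ 0 := by exact_mod_cast hp.out.ne_zero
  obtain ⟨XS, YS, δ₁, δ₀₁, D₁, hXq⟩ := L.exists_prin hM hq
  have hone1 : ¬ p ∣ orderOf (1 : G) := by
    rw [orderOf_one]
    intro h
    exact hp.out.one_lt.ne' (Nat.dvd_one.1 h)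
  -- the trivial character lies in the first family
  have h1 : oneIrr G ∈ XS := by
    by_contra hcon
    have hY1 : oneIrr G ∈ YS := ((D₁.hB _).1 oneIrr_mem_principalBlock).resolve_left hcon
    have hYs : YS = {oneIrr G} := by
      refine Finset.eq_singleton_iff_unique_mem.2 ⟨hY1, fun ψ hψ => hperf ψ ?_⟩
      have h2 := D₁.agree hψ hY1 hone1
      rw [oneIrr_coe] at h2
      exact charDegree_natCast (n := 1) (by simpa using h2)
    have h3 := D₁.hmul
    rw [hYs, hXq] at h3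
    simp at h3
    omega
  have D := D₁.normalize h1
  obtain ⟨δ, hδ⟩ : ∃ δ : IrrCharacter G → ℤ, δ = fun τ => δ₁ (oneIrr G) * δ₁ τ := ⟨_, rfl⟩
  obtain ⟨δ₀, hδ₀⟩ : ∃ δ₀ : ℤ, δ₀ = δ₁ (oneIrr G) * δ₀₁ := ⟨_, rfl⟩
  rw [← hδ, ← hδ₀] at D
  have hd : δ (oneIrr G) = 1 := by
    rw [hδ]
    rcases D₁.hδ _ h1 with h | h <;> simp [h]
  obtain ⟨Q, hQ⟩ : ∃ Q : G → ℂ, Q = fun g => (ζ' : G → ℂ) g * conj ((ζ : G → ℂ) g) := ⟨_, rfl⟩
  obtain ⟨F0, hF0⟩ : ∃ F : G → ℂ, F = fun g => (ζ : G → ℂ) g * conj ((ζ : G → ℂ) g) := ⟨_, rfl⟩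
  have hζc := IsIrrCharacter.isCharacter ζ.2
  have hζ'c := IsIrrCharacter.isCharacter ζ'.2
  have hQc : IsCharacter G Q := by
    rw [hQ]
    exact IsCharacter.mul hζ'c (IsCharacter.conj_char hζc)
  have hFc : IsCharacter G F0 := by
    rw [hF0]
    exact IsCharacter.mul hζc (IsCharacter.conj_char hζc)
  have hQcf := IsCharacter.isClassFunction hQc
  have hFcf := IsCharacter.isClassFunction hFc
  have hAex : ∀ τ : IrrCharacter G, ∃ n : ℕ, classInner F0 (τ : G → ℂ) = n := fun τ =>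
    classInner_isCharacter_nat hFc (IsIrrCharacter.isCharacter τ.2)
  have hA'ex : ∀ τ : IrrCharacter G, ∃ n : ℕ, classInner Q (τ : G → ℂ) = n := fun τ =>
    classInner_isCharacter_nat hQc (IsIrrCharacter.isCharacter τ.2)
  choose A hAe using hAex
  choose A' hA'e using hA'ex
  -- the two average values
  have hsplit : ∀ f : CX → ℂ, (Nat.card CX : ℂ)⁻¹ * ∑ c, f c =
      (Nat.card CX : ℂ)⁻¹ * (∑ c : CX, if p ∣ orderOf c then f c else 0) + (Nat.card CX : ℂ)⁻¹ * ∑ c : CX, if ¬ p ∣ orderOf c then f c else 0 := by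
    intro f
    rw [← mul_add, ← Finset.sum_add_distrib]
    congr 1
    refine Finset.sum_congr rfl fun c _ => ?_
    by_cases h : p ∣ orderOf c <;> simp [h]
  have hF1 : (p : ℂ) * ((Nat.card CX : ℂ)⁻¹ * ∑ c : CX, if p ∣ orderOf c then Q c else 0) = -(E : ℂ) := by
    have h2 := hsplit (fun c => Q c)
    have h3 : (Nat.card CX : ℂ)⁻¹ * ∑ c : CX, Q c = 0 := by
      rw [← hI, hQ]
      rfl
    have h4 : ∑ c : CX, (if ¬ p ∣ orderOf c then Q c else 0) = ∑ c : CX, if ¬ p ∣ orderOf c then (ζ : G → ℂ) c * conj ((ζ : G → ℂ) c) else 0 := by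
      refine Finset.sum_congr rfl fun c _ => ?_
      by_cases h : p ∣ orderOf c
      · simp [h]
      · rw [if_pos h, if_pos h, hQ]
        dsimp only
        rw [hag (c : G) (by rwa [Subgroup.orderOf_coe])]
    rw [h3, h4] at h2
    rw [← hE]
    linear_combination (-(p : ℂ)) * h2
  have hF2 : (p : ℂ) * ((Nat.card CX : ℂ)⁻¹ * ∑ c : CX, if p ∣ orderOf c then F0 c else 0) = (p : ℂ) * q - (E : ℂ) := by
    have h2 := hsplit (fun c => F0 c)
    have h3 : (Nat.card CX : ℂ)⁻¹ * ∑ c : CX, F0 c = q := by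
      rw [← hA, hF0]
      rfl
    have h4 : ∑ c : CX, (if ¬ p ∣ orderOf c then F0 c else 0) = ∑ c : CX, if ¬ p ∣ orderOf c then (ζ : G → ℂ) c * conj ((ζ : G → ℂ) c) else 0 := by
      refine Finset.sum_congr rfl fun c _ => ?_
      rw [hF0]
    rw [h3, h4] at h2
    rw [← hE]
    linear_combination (-(p : ℂ)) * h2
  have F1 := L.F_formula D h1 hd hq0 hq hXq Q hQcf
  have F2 := L.F_formula D h1 hd hq0 hq hXq F0 hFcf
  rw [hF1] at F1
  rw [hF2] at F2
  have E1 : -(E : ℤ) = ((p : ℤ) - 1) * ∑ χ ∈ XS, δ χ * A' χ + q * δ₀ * ∑ ψ ∈ YS, (A' ψ : ℤ) := by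
    apply Int.cast_injective (α := ℂ)
    push_cast
    rw [F1]
    simp only [hA'e]
  have E2 : (p : ℤ) * q - E = ((p : ℤ) - 1) * ∑ χ ∈ XS, δ χ * A χ + q * δ₀ * ∑ ψ ∈ YS, (A ψ : ℤ) := by
    apply Int.cast_injective (α := ℂ)
    push_cast
    rw [F2]
    simp only [hAe]
  -- the difference on the first family
  have I2 : ∀ χ ∈ XS, (A χ : ℤ) - A' χ = δ χ := by
    intro χ hχ
    obtain ⟨f, hf⟩ : ∃ f : G → ℂ, f = F0 - Q := ⟨_, rfl⟩
    have hfcf : IsClassFunction G f := by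
      rw [hf]
      intro a b
      simp only [Pi.sub_apply]
      rw [hFcf a b, hQcf a b]
    have hfreg : ∀ g, ¬ p ∣ orderOf g → f g = 0 := by
      intro g hg
      rw [hf, hF0, hQ]
      simp only [Pi.sub_apply]
      rw [hag g hg]
      ring
    have h2 := ft_T1_inner L.hX L.hx f (χ : G → ℂ) hfcf (IsCharacter.isClassFunction (IsIrrCharacter.isCharacter χ.2)) hfreg hq0 hq
    have h3 : classInner (fun c : CX => f c) (fun c : CX => (χ : G → ℂ) c) = (δ χ : ℂ) * (q : ℂ) := by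
      have h4 : classInner (fun c : CX => f c) (fun c : CX => (χ : G → ℂ) c) = (δ χ : ℂ) * ((Nat.card CX : ℂ)⁻¹ * ∑ c : CX, f c) := by
        unfold classInner
        rw [mul_left_comm, Finset.mul_sum (a := (δ χ : ℂ))]
        congr 1
        refine Finset.sum_congr rfl fun c _ => ?_
        dsimp only
        by_cases hc : p ∣ orderOf (c : G)
        · rw [D.sing_X h1 hd hχ hc, map_intCast]
          ring
        · rw [hfreg _ hc]
          ring
      rw [h4]
      have h5 : (Nat.card CX : ℂ)⁻¹ * ∑ c : CX, f c = q := by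
        have h6 : ∑ c : CX, f c = ∑ c : CX, F0 c - ∑ c : CX, Q c := by
          rw [← Finset.sum_sub_distrib, hf]
          rfl
        have h7 : (Nat.card CX : ℂ)⁻¹ * ∑ c : CX, Q c = 0 := by
          rw [← hI, hQ]
          rfl
        have h8 : (Nat.card CX : ℂ)⁻¹ * ∑ c : CX, F0 c = q := by
          rw [← hA, hF0]
          rfl
        rw [h6, mul_sub, h7, h8, sub_zero]
      rw [h5]
    rw [h3] at h2
    have h4 : classInner f (χ : G → ℂ) = (δ χ : ℂ) := mul_left_cancel₀ hqC (by rw [h2]; ring)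
    rw [hf, classInner_sub_left, hAe, hA'e] at h4
    apply Int.cast_injective (α := ℂ)
    push_cast
    exact h4
  -- the values on the subgroup generated by x
  have I3 : ∀ τ, A' τ ≠ 0 → nn p μ τ = 0 := by
    intro τ hτ
    refine L.inner_D_eq_zero hQcf A' hA'e ?_ τ hτ
    rw [hQ]
    exact hP
  have I1 : ∀ χ ∈ XS, (charDegree (χ : G → ℂ) : ℤ) + ((p : ℤ) - 1) * δ χ = p * nn p μ χ := by
    intro χ hχ
    have h2 := L.sum_D χ
    rw [sum_zmod_split] at h2
    have h3 : ∀ a : ZMod p, (if a = 0 then (0 : ℂ) else (χ : G → ℂ) (x ^ a.val)) = if a = 0 then 0 else (δ χ : ℂ) := by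
      intro a
      split_ifs with ha
      · rfl
      · exact D.sing_X h1 hd hχ (by rw [L.pow_val_order ha])
    rw [Finset.sum_congr rfl fun a _ => h3 a, sum_zmod_const] at h2
    simp only [ZMod.val_zero, pow_zero] at h2
    rw [map_one_eq_charDegree (IsIrrCharacter.isCharacter χ.2)] at h2
    apply Int.cast_injective (α := ℂ)
    push_cast
    exact h2
  have I4 : ∀ ψ ∈ YS, (charDegree (ψ : G → ℂ) : ℤ) + q * δ₀ = p * nn p μ ψ := by
    intro ψ hψ
    have hψB : ψ ∈ principalBlock M G := (D.hB ψ).2 (Or.inr hψ)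
    have h2 := L.F_formula D h1 hd hq0 hq hXq (ψ : G → ℂ) (IsCharacter.isClassFunction (IsIrrCharacter.isCharacter ψ.2))
    have h3 := L.sum_sing (fun c => (ψ : G → ℂ) c) (fun a => (ψ : G → ℂ) (x ^ a.val)) (fun c a ha hc => L.sec_princ hM hψB ha hc)
    have h4 : ∑ c : CX, (if p ∣ orderOf c then (ψ : G → ℂ) c else 0) = ∑ c : CX, (if p ∣ orderOf c then (ψ : G → ℂ) c else 0) := rfl
    rw [h3] at h2
    have h5 : ∑ χ ∈ XS, (δ χ : ℂ) * classInner (ψ : G → ℂ) (χ : G → ℂ) = 0 := by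
      refine Finset.sum_eq_zero fun χ hχ => ?_
      have h6 : ψ ≠ χ := fun h => (Finset.disjoint_left.1 D.hdis hχ) (h ▸ hψ)
      rw [classInner_irr_of_ne ψ.2 χ.2 (fun h => h6 (Subtype.ext h)), mul_zero]
    have h6 : ∑ ψ' ∈ YS, classInner (ψ : G → ℂ) (ψ' : G → ℂ) = 1 := by
      rw [Finset.sum_eq_single ψ]
      · exact classInner_irr_self ψ.2
      · intro b _ hb
        exact classInner_irr_of_ne ψ.2 b.2 (fun h => hb (Subtype.ext h).symm)
      · intro h
        exact absurd hψ h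
    rw [h5, h6] at h2
    have h7 := L.sum_D ψ
    rw [sum_zmod_split, h2] at h7
    simp only [ZMod.val_zero, pow_zero] at h7
    rw [map_one_eq_charDegree (IsIrrCharacter.isCharacter ψ.2)] at h7
    apply Int.cast_injective (α := ℂ)
    push_cast
    rw [← h7]
    ring
  have I6 : ∀ ψ ∈ YS, δ₀ * charDegree (ψ : G → ℂ) + ∑ χ ∈ XS, δ χ * charDegree (χ : G → ℂ) = 0 := by
    intro ψ hψ
    have h2 := D.hrel ψ hψ 1 hone1
    apply Int.cast_injective (α := ℂ)
    push_cast
    rw [← h2, map_one_eq_charDegree (IsIrrCharacter.isCharacter ψ.2)]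
    congr 1
    refine Finset.sum_congr rfl fun χ _ => ?_
    rw [map_one_eq_charDegree (IsIrrCharacter.isCharacter χ.2)]
  have hA'o : A' (oneIrr G) = 0 := by
    have h2 := hA'e (oneIrr G)
    have h3 : classInner Q ((oneIrr G : IrrCharacter G) : G → ℂ) = classInner (ζ' : G → ℂ) (ζ : G → ℂ) := by
      rw [hQ]
      unfold classInner
      simp [oneIrr_coe]
    rw [h3, classInner_irr_of_ne ζ'.2 ζ.2 (fun h => hne (Subtype.ext h))] at h2
    exact_mod_cast h2.symm
  have hY : YS.Nonempty := by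
    rw [← Finset.card_pos]
    have h2 := D.hmul
    rw [hXq] at h2
    have h3 : 0 < q * YS.card := by omega
    exact Nat.pos_of_mul_pos_left h3 |> fun _ => by
      rcases Nat.eq_zero_or_pos YS.card with h | h
      · rw [h, mul_zero] at h3
        omega
      · exact h
  exact ft_arith XS YS (oneIrr G) h1 hY p q E hp.out.pos hq2 h3q hXq hEq (fun τ => charDegree (τ : G → ℂ)) (nn p μ) A A' δ δ₀
    D.hδ D.hδ₀ hd hA'o charDegree_oneIrr (fun χ _ => charDegree_pos_of_irr χ.2) (fun χ _ => charDegree_pos_of_irr χ.2)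
    (fun χ _ h => hperf χ h) I1 I2 I3 I4 I6 E1 E2

end LD

end FT8

end Cfsg.Agent.Lib.FF
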