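import Cfsg.Agent.Lib.FF.FT8
import Cfsg.Agent.Lib.Degree.RootChar1
import Cfsg.Agent.Lib.Degree.Inflate

/-!
# Groups whose order is divisible exactly once by `p`: local structure at an element of order `p`
-/

set_option autoImplicit false
set_option linter.unusedSectionVars false
set_option linter.unusedVariables false
set_option maxSynthPendingDepth 3
set_option linter.style.haveILetI false
set_option linter.unusedSimpArgs false
set_option linter.unnecessarySimpa false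

open scoped ComplexConjugate Pointwise
open Module Cfsg Cfsg.Agent.Lib.Block Cfsg.Agent.Lib.Char Cfsg.Agent.Lib.CharExtra Cfsg.Agent.Lib.BPair

namespace Cfsg.Agent.Lib.FF

attribute [local instance] Cfsg.Agent.Lib.BPair.subFintype


section FT9

variable {G : Type*} [Group G] [Fintype G] {p : ℕ} [hp : Fact p.Prime] {x : G} {μ : Cen (Subgroup.zpowers x) →* ℂˣ} {M : Ideal AlgInt}

local notation "CX" => Cen (Subgroup.zpowers x)
local notation "NX" => Subgroup.normalizer ((Subgroup.zpowers x : Subgroup G) : Set G)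

namespace LD

variable (L : LD p x μ)
include L

theorem ee_pow (a : ZMod p) : ee μ a ^ p = 1 := by
  unfold ee
  rw [← pow_mul, mul_comm, pow_mul, L.eps_root.pow_eq_one, one_pow]

theorem norm_ee (a : ZMod p) : ‖ee μ a‖ = 1 :=
  Complex.norm_eq_one_of_pow_eq_one (L.ee_pow a) hp.out.ne_zero

theorem ee_conj (a : ZMod p) : conj (ee μ a) = ee μ (-a) := by
  rw [← Complex.inv_eq_conj (L.norm_ee a)]
  refine (eq_inv_of_mul_eq_one_left ?_).symm
  rw [← L.ee_add, neg_add_cancel, L.ee_zero]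

open Classical in
theorem fiber_inner {ξ₀ : IrrCharacter CX} (hω : om p μ ξ₀ ≠ 0) {h : G} (hh : h ∈ NX) :
    (Nat.card CX : ℂ)⁻¹ * (∑ g : G, if g ∈ NX then classInner (cjF x g (ξ₀ : CX → ℂ)) (cjI hh ξ₀ : CX → ℂ) else 0) = 1 := by
  classical
  have hC0 : (Nat.card CX : ℂ) ≠ 0 := by exact_mod_cast (Nat.card_pos (α := CX)).ne'
  have h1 : ∀ g : G, (if g ∈ NX then classInner (cjF x g (ξ₀ : CX → ℂ)) (cjI hh ξ₀ : CX → ℂ) else 0) = if h⁻¹ * g ∈ CX then (1 : ℂ) else 0 := by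
    intro g
    by_cases hg : g ∈ NX
    · rw [if_pos hg, ← cjI_coe hg]
      have hin : h⁻¹ * g ∈ NX := Subgroup.mul_mem _ (Subgroup.inv_mem _ hh) hg
      by_cases hc : h⁻¹ * g ∈ CX
      · rw [if_pos hc]
        have h2 : cjI hg ξ₀ = cjI hh ξ₀ := by
          have h3 : g = h * (h⁻¹ * g) := by group
          have h4 := L.cjI_mul hh hin ξ₀
          rw [L.cjI_of_mem hin hc] at h4
          rw [← h4]
          exact L.cjI_congr h3 hg _ ξ₀
        rw [h2]
        exact classInner_irr_self (cjI hh ξ₀).2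
      · rw [if_neg hc]
        apply classInner_irr_of_ne (cjI hg ξ₀).2 (cjI hh ξ₀).2
        intro h'
        have h2 : cjI hg ξ₀ = cjI hh ξ₀ := Subtype.ext h'
        apply hc
        rw [← L.sF_eq_one_iff hin]
        have h3 : cjI hin ξ₀ = ξ₀ := by
          rw [L.cjI_mul (Subgroup.inv_mem _ hh) hg, h2, L.cjI_inv]
        have h4 := L.om_cj hin ξ₀
        rw [h3] at h4
        have h5 : om p μ ξ₀ * (sF x (h⁻¹ * g) p - 1) = 0 := by
          linear_combination -h4
        exact sub_eq_zero.1 ((mul_eq_zero.1 h5).resolve_left hω)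
    · rw [if_neg hg, if_neg]
      intro hc
      apply hg
      have h3 : g = h * (h⁻¹ * g) := by group
      rw [h3]
      exact Subgroup.mul_mem _ hh (centralizer_le_normalizer_self _ hc)
  simp only [h1]
  rw [Fintype.sum_equiv (Equiv.mulLeft h⁻¹) (fun g => if h⁻¹ * g ∈ CX then (1 : ℂ) else 0) (fun g => if g ∈ CX then (1 : ℂ) else 0) (fun g => rfl)]
  rw [Finset.sum_boole]
  have h2 : ((Finset.univ.filter fun g : G => g ∈ CX).card : ℂ) = (Nat.card CX : ℂ) := by
    rw [Nat.card_eq_fintype_card, Fintype.card_subtype]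
  rw [h2, inv_mul_cancel₀ hC0]

theorem constit (ζ ζ' : IrrCharacter G) {ξ₀ : IrrCharacter CX} {j : ZMod p} (hω : om p μ ξ₀ ≠ 0) (hm : mm ζ ξ₀ = 1)
    (hob : ∀ ξ, mm ζ ξ ≠ 0 → mm ζ ξ = 1 ∧ ∃ (g : G) (hg : g ∈ NX), cjI hg ξ₀ = ξ)
    (hD : indFun CX ((ξ₀ : CX → ℂ) - (tw μ j ξ₀ : CX → ℂ)) = (ζ : G → ℂ) - (ζ' : G → ℂ)) (ξ' : IrrCharacter CX) (hξ' : mm ζ' ξ' ≠ 0) :
    ∃ (g : G) (hg : g ∈ NX), cjI hg (tw μ j ξ₀) = ξ' := by
  classical
  by_contra hcon
  push Not at hcon
  obtain ⟨f, hf⟩ : ∃ f : CX → ℂ, f = (ξ₀ : CX → ℂ) - (tw μ j ξ₀ : CX → ℂ) := ⟨_, rfl⟩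
  have hvan : ∀ c : CX, ¬ p ∣ orderOf c → f c = 0 := by
    intro c hc
    rw [hf]
    exact L.vanish_sub j ξ₀ c hc
  have h1 : rs x (ζ : G → ℂ) - rs x (ζ' : G → ℂ) = ((Nat.card CX : ℂ)⁻¹) • ∑ g : G, (if g ∈ NX then cjF x g f else 0) := by
    funext c
    have h2 := ft_ind_res L.hX L.hx f hvan c
    rw [hf, hD] at h2
    simp only [Pi.sub_apply, Pi.smul_apply, smul_eq_mul, Finset.sum_apply] at h2 ⊢
    rw [← hf] at h2
    unfold rs
    rw [h2]
    congr 1
    refine Finset.sum_congr rfl fun g _ => ?_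
    split_ifs <;> rfl
  have h2 : (mm ζ ξ' : ℂ) - (mm ζ' ξ' : ℂ) = (Nat.card CX : ℂ)⁻¹ * ∑ g : G, if g ∈ NX then classInner (cjF x g (ξ₀ : CX → ℂ)) (ξ' : CX → ℂ) else 0 := by
    rw [← mm_spec, ← mm_spec, ← classInner_sub_left, h1, classInner_smul_left, classInner_sum_left]
    congr 1
    refine Finset.sum_congr rfl fun g _ => ?_
    split_ifs with hg
    · rw [hf, cjF_sub g _ _ hg, classInner_sub_left]
      have h3 : classInner (cjF x g (tw μ j ξ₀ : CX → ℂ)) (ξ' : CX → ℂ) = 0 := by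
        rw [← cjI_coe hg]
        exact classInner_irr_of_ne (cjI hg (tw μ j ξ₀)).2 ξ'.2 (fun h => hcon g hg (Subtype.ext h))
      rw [h3, sub_zero]
    · exact classInner_zero_left _
  have h3 : (mm ζ' ξ' : ℂ) = 0 := by
    by_cases h4 : ∃ (g : G) (hg : g ∈ NX), cjI hg ξ₀ = ξ'
    · obtain ⟨h, hh, rfl⟩ := h4
      rw [L.fiber_inner hω hh, inner_rs_cj, hm] at h2
      push_cast at h2
      linear_combination -h2
    · push Not at h4
      have h5 : mm ζ ξ' = 0 := by
        by_contra h6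
        obtain ⟨g, hg, h7⟩ := (hob ξ' h6).2
        exact h4 g hg h7
      have h6 : (∑ g : G, if g ∈ NX then classInner (cjF x g (ξ₀ : CX → ℂ)) (ξ' : CX → ℂ) else 0) = 0 := by
        refine Finset.sum_eq_zero fun g _ => ?_
        split_ifs with hg
        · rw [← cjI_coe hg]
          exact classInner_irr_of_ne (cjI hg ξ₀).2 ξ'.2 (fun h => h4 g hg (Subtype.ext h))
        · rfl
      rw [h6, mul_zero, h5] at h2
      push_cast at h2
      linear_combination -h2
  exact hξ' (by exact_mod_cast h3)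

theorem char_D (τ : IrrCharacter G) (a : ℕ) :
    (τ : G → ℂ) (x ^ a) = ∑ ξ : IrrCharacter CX, ((mm τ ξ : ℂ) * (ξ : CX → ℂ) 1) * ee μ (om p μ ξ) ^ a := by
  have h2 := rs_eq_sum (x := x) τ (tx x ^ a)
  have h3 : (((tx x ^ a : CX)) : G) = x ^ a := by
    rw [Subgroup.coe_pow]
    rfl
  rw [h3] at h2
  rw [h2]
  refine Finset.sum_congr rfl fun ξ _ => ?_
  rw [L.irr_pow]
  ring

theorem sum_D_cross (ζ ζ' : IrrCharacter G) (h : ∀ ξ ξ', mm ζ ξ ≠ 0 → mm ζ' ξ' ≠ 0 → om p μ ξ ≠ om p μ ξ') :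
    ∑ a : ZMod p, (ζ' : G → ℂ) (x ^ a.val) * conj ((ζ : G → ℂ) (x ^ a.val)) = 0 := by
  classical
  have key : ∀ a : ZMod p, (ζ' : G → ℂ) (x ^ a.val) * conj ((ζ : G → ℂ) (x ^ a.val)) =
      ∑ ξ' : IrrCharacter CX, ∑ ξ : IrrCharacter CX, (((mm ζ' ξ' : ℂ) * (ξ' : CX → ℂ) 1) * ((mm ζ ξ : ℂ) * conj ((ξ : CX → ℂ) 1))) * ee μ (om p μ ξ' - om p μ ξ) ^ a.val := by
    intro a
    rw [L.char_D ζ', L.char_D ζ, map_sum, Finset.sum_mul_sum]
    refine Finset.sum_congr rfl fun ξ' _ => Finset.sum_congr rfl fun ξ _ => ?_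
    rw [sub_eq_add_neg, L.ee_add, ← L.ee_conj, map_mul, map_mul, map_pow, map_natCast, mul_pow]
    ring
  rw [Finset.sum_congr rfl fun a _ => key a, Finset.sum_comm]
  refine Finset.sum_eq_zero fun ξ' _ => ?_
  rw [Finset.sum_comm]
  refine Finset.sum_eq_zero fun ξ _ => ?_
  rw [← Finset.mul_sum, L.sum_ee]
  by_cases h1 : mm ζ' ξ' = 0
  · simp [h1]
  by_cases h2 : mm ζ ξ = 0
  · simp [h2]
  have h3 := h ξ ξ' h2 h1
  rw [if_neg (fun h4 => h3 (sub_eq_zero.1 h4).symm), mul_zero]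

theorem irr_main (hM : IsPModular p M) (ζ : IrrCharacter G) (hfaith : ∀ g, (ζ : G → ℂ) g = (ζ : G → ℂ) 1 → g = 1)
    (hdeg : 2 * charDegree (ζ : G → ℂ) + 1 < p)
    (hcase : (∀ χ : IrrCharacter G, charDegree (χ : G → ℂ) = 1 → χ = oneIrr G) ∨ NX ≤ CX) : x ∈ Subgroup.center G := by
  classical
  obtain ⟨ξ₀, b, ζ', hω, hm, hob, hne, hD, hb0, hbS⟩ := L.part1 ζ hfaith hdeg
  have hm0 : mm ζ ξ₀ ≠ 0 := by omega
  have hob' : ∀ ξ, mm ζ ξ ≠ 0 → om p μ ξ ≠ 0 → ∃ (g : G) (hg : g ∈ NX), cjI hg ξ₀ = ξ := fun ξ h1 h2 => (hob ξ h1 h2).2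
  obtain ⟨q, hqd⟩ : ∃ q, q = (Sp (p := p) μ ζ).card := ⟨_, rfl⟩
  have hq : Nat.card NX = q * Nat.card CX := by
    rw [hqd]
    exact (L.card_Sp ζ hm0 hω hob').symm
  obtain ⟨h0, -⟩ := L.part2 hM ζ hdeg hω hm hob hne hD hb0 hbS hq
  have hm1 : ∀ ξ, ξ ∈ Sp (p := p) μ ζ → mm ζ ξ = 1 := fun ξ hξ => (hob ξ (mem_Sp.1 hξ).1 (mem_Sp.1 hξ).2).1
  have hall : ∀ ξ, mm ζ ξ ≠ 0 → ξ ∈ Sp (p := p) μ ζ := fun ξ h => mem_Sp.2 ⟨h, fun h' => h (h0 ξ h')⟩
  have hξ₀ : ξ₀ ∈ Sp (p := p) μ ζ := hall _ hm0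
  have hqpos : 1 ≤ q := by
    rw [hqd]
    exact Finset.card_pos.2 ⟨ξ₀, hξ₀⟩
  have hq1 : q = 1 := by
    rcases hcase with hperf | hNC
    · by_contra hne1
      have hq2 : 2 ≤ q := by omega
      have hCX0 : (Nat.card CX : ℂ) ≠ 0 := by exact_mod_cast (Nat.card_pos (α := CX)).ne'
      -- the bound on the number of constituents
      have hqn : q ≤ charDegree (ζ : G → ℂ) := by
        rw [hqd]
        exact card_supp_le ζ _ fun ξ hξ => (mem_Sp.1 hξ).1
      obtain ⟨XS, YS, δ, δ₀, D, hXq⟩ := L.exists_prin hM hq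
      have h3q : 3 * q ≤ p - 1 := by
        have h2 := D.hmul
        rw [hXq] at h2
        have h3 : 2 * q < q * YS.card := by omega
        have h4 : 2 < YS.card := by
          by_contra h5
          have h6 : YS.card ≤ 2 := by omega
          have h7 := Nat.mul_le_mul_left q h6
          omega
        have h5 := Nat.mul_le_mul_left q h4
        omega
      have hvan : ∀ c : CX, ¬ p ∣ orderOf c → ((ξ₀ : CX → ℂ) - (tw μ (b - om p μ ξ₀) ξ₀ : CX → ℂ)) c = 0 := L.vanish_sub _ ξ₀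
      have hag : ∀ y : G, ¬ p ∣ orderOf y → (ζ : G → ℂ) y = (ζ' : G → ℂ) y := by
        intro y hy
        have h1 := congrFun hD y
        rw [ind_van hvan hy] at h1
        simp only [Pi.sub_apply] at h1
        exact sub_eq_zero.1 h1.symm
      have hA : classInner (rs x (ζ : G → ℂ)) (rs x (ζ : G → ℂ)) = q := by
        rw [classInner_eq_sum_irr _ _ (IsCharacter.isClassFunction (rs_isChar (IsIrrCharacter.isCharacter ζ.2)))]
        have h1 : ∀ ξ : IrrCharacter CX, classInner (rs x (ζ : G → ℂ)) (ξ : CX → ℂ) * conj (classInner (rs x (ζ : G → ℂ)) (ξ : CX → ℂ)) =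
            if ξ ∈ Sp (p := p) μ ζ then (1 : ℂ) else 0 := by
          intro ξ
          rw [mm_spec]
          split_ifs with h
          · rw [hm1 ξ h]
            simp
          · have h2 : mm ζ ξ = 0 := by
              by_contra h3
              exact h (hall ξ h3)
            rw [h2]
            simp
        rw [Finset.sum_congr rfl fun ξ _ => h1 ξ, Finset.sum_boole, hqd]
        simp
      have hζcf : IsClassFunction G (ζ : G → ℂ) := IsCharacter.isClassFunction (IsIrrCharacter.isCharacter ζ.2)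
      have hζ'cf : IsClassFunction G (ζ' : G → ℂ) := IsCharacter.isClassFunction (IsIrrCharacter.isCharacter ζ'.2)
      have hI : classInner (rs x (ζ' : G → ℂ)) (rs x (ζ : G → ℂ)) = 0 := by
        have h1 := ft_T1_inner L.hX L.hx ((ζ : G → ℂ) - (ζ' : G → ℂ)) (ζ : G → ℂ)
          (by
            intro a b
            simp only [Pi.sub_apply]
            rw [hζcf a b, hζ'cf a b])
          hζcf
          (by
            intro g hg
            simp only [Pi.sub_apply]
            rw [hag g hg, sub_self]) (by omega) hq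
        rw [classInner_sub_left, classInner_irr_self ζ.2, classInner_irr_of_ne ζ'.2 ζ.2 (fun h => hne (Subtype.ext h)), sub_zero, mul_one] at h1
        have h2 : classInner (fun c : CX => ((ζ : G → ℂ) - (ζ' : G → ℂ)) c) (fun c : CX => (ζ : G → ℂ) c) =
            classInner (rs x (ζ : G → ℂ)) (rs x (ζ : G → ℂ)) - classInner (rs x (ζ' : G → ℂ)) (rs x (ζ : G → ℂ)) := by
          rw [← classInner_sub_left]
          rfl
        rw [h2, hA] at h1
        linear_combination h1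
      have hP : ∑ a : ZMod p, (ζ' : G → ℂ) (x ^ a.val) * conj ((ζ : G → ℂ) (x ^ a.val)) = 0 := by
        refine L.sum_D_cross ζ ζ' fun ξ ξ' h1 h2 h3 => ?_
        obtain ⟨g, hg, h4⟩ := L.constit ζ ζ' hω hm (fun ξ h5 => hob ξ h5 (fun h6 => h5 (h0 ξ h6))) hD ξ' h2
        have h5 : om p μ ξ' = b * sF x g p := by
          rw [← h4, L.om_cj hg, L.om_tw]
          ring
        exact h1 (hbS g hg ξ (h3.trans h5))
      have hE := L.E_formula ζ
      have hEq : EE (p := p) μ (mm ζ) (mm ζ) ≤ q ^ 2 := by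
        have he : ∀ ξ, ξ ∈ Sp (p := p) μ ζ → (Finset.univ.filter (fun j : ZMod p => tw μ j ξ ∈ Sp (p := p) μ ζ)).card ≤ q := by
          intro ξ _
          rw [hqd]
          refine Finset.card_le_card_of_injOn (fun j => tw μ j ξ) ?_ ?_
          · intro j hj
            exact (Finset.mem_filter.1 hj).2
          · intro j _ j' _ h
            have h1 : om p μ (tw μ j ξ) = om p μ (tw μ j' ξ) := by
              dsimp only at h
              rw [h]
            rw [L.om_tw, L.om_tw] at h1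
            exact add_left_cancel h1
        have h1 := L.EE_le ζ hm1 he
        have h2 : ∑ ξ, m0 p μ ζ ξ ^ 2 = 0 := by
          refine Finset.sum_eq_zero fun ξ _ => ?_
          by_cases h3 : om p μ ξ = 0
          · rw [m0_of_eq h3, h0 ξ h3]
            rfl
          · rw [m0_of_ne h3]
            rfl
        rw [h2, ← hqd] at h1
        simp only [mul_zero, add_zero] at h1
        rw [sq]
        exact h1
      exact L.partII hM hperf ζ ζ' hne hq hq2 h3q hag hA hI hP hE hEq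
    · have h1 : NX = CX := le_antisymm hNC (centralizer_le_normalizer_self _)
      rw [h1] at hq
      have h2 : 1 * Nat.card CX = q * Nat.card CX := by rw [one_mul]; exact hq
      exact (Nat.eq_of_mul_eq_mul_right Nat.card_pos h2).symm
  have hSp : ∀ ξ, mm ζ ξ ≠ 0 → ξ = ξ₀ := by
    intro ξ hξ
    have h1 : (Sp (p := p) μ ζ).card = 1 := by rw [← hqd, hq1]
    exact Finset.card_le_one.1 h1.le ξ (hall ξ hξ) ξ₀ hξ₀
  have hrs : ∀ c : CX, (ζ : G → ℂ) c = (ξ₀ : CX → ℂ) c := by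
    intro c
    rw [rs_eq_sum, Finset.sum_eq_single ξ₀, hm]
    · simp
    · intro ξ _ hξ
      have h1 : mm ζ ξ = 0 := by
        by_contra h2
        exact hξ (hSp ξ h2)
      rw [h1]
      simp
    · intro h
      exact absurd (Finset.mem_univ _) h
  have h1 : (ζ : G → ℂ) x = ee μ (om p μ ξ₀) * (ζ : G → ℂ) 1 := by
    have h2 := hrs (tx x)
    have h3 := hrs 1
    rw [show (((tx x : CX)) : G) = x from rfl] at h2
    rw [h2, L.om_spec ξ₀, Subgroup.coe_one] at *
    rw [h3]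
  apply Cfsg.Agent.Lib.Degree.mem_center_of_norm_eq ζ hfaith
  rw [h1, norm_mul, L.norm_ee, one_mul]

end LD

end FT9

end Cfsg.Agent.Lib.FF
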