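import Cfsg.Agent.Lib.FF.GenGal

/-!
# Galois orbits of characters and the degree (Brauer--Nesbitt)
-/

set_option autoImplicit false
set_option linter.unusedSectionVars false
set_option linter.style.haveILetI false
set_option linter.unusedSimpArgs false
set_option linter.unnecessarySimpa false
set_option linter.unusedVariables false
set_option maxSynthPendingDepth 3

open scoped ComplexConjugate
open Subgroup

namespace Cfsg.Agent.Lib.FF

open Cfsg (classInner IsCharacter IsIrrCharacter IrrCharacter IsClassFunction indFun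
  extendByZero IsGeneralizedCharacter IsPModular IsPPart charDegree IsPBlock blockOf blockCoeff SameBlock MemLocalIdeal
  IsInducedBlock IsDefectGroup inducedCentralChar centralChar)
open Cfsg.Agent.Lib.Char
open Cfsg.Agent.Lib.Block hiding tr
open Cfsg.Agent.Lib.SmallSimple.BL

universe u

section Act

variable {G : Type u} [Group G] [Fintype G]

/-- The exponent of a unit. -/
noncomputable def uExp (u : (ZMod (Nat.card G))ˣ) : ℕ := (u : ZMod (Nat.card G)).val

theorem uExp_coprime (u : (ZMod (Nat.card G))ˣ) : (uExp u).Coprime (Nat.card G) :=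
  ZMod.val_coe_unit_coprime u

theorem pow_uExp_mul (g : G) (u v : (ZMod (Nat.card G))ˣ) : g ^ uExp (u * v) = (g ^ uExp u) ^ uExp v := by
  haveI : NeZero (Nat.card G) := ⟨Nat.card_pos.ne'⟩
  unfold uExp
  rw [Units.val_mul, ZMod.val_mul, pow_mod_natCard, pow_mul]

theorem pow_uExp_one (g : G) : g ^ uExp (1 : (ZMod (Nat.card G))ˣ) = g := by
  haveI : NeZero (Nat.card G) := ⟨Nat.card_pos.ne'⟩
  unfold uExp
  rw [Units.val_one, ZMod.val_one_eq_one_mod, pow_mod_natCard, pow_one]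

/-- The action of the units on the irreducible characters. -/
noncomputable def actI (u : (ZMod (Nat.card G))ˣ) (χ : IrrCharacter G) : IrrCharacter G :=
  powIrr (uExp_coprime u) χ

theorem actI_apply (u : (ZMod (Nat.card G))ˣ) (χ : IrrCharacter G) (g : G) :
    (actI u χ : G → ℂ) g = (χ : G → ℂ) (g ^ uExp u) := rfl

theorem actI_one (χ : IrrCharacter G) : actI 1 χ = χ :=
  Subtype.ext (funext fun g => by rw [actI_apply, pow_uExp_one])

theorem actI_mul (u v : (ZMod (Nat.card G))ˣ) (χ : IrrCharacter G) : actI (u * v) χ = actI u (actI v χ) :=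
  Subtype.ext (funext fun g => by rw [actI_apply, actI_apply, actI_apply, pow_uExp_mul])

/-- The stabilizer of a character. -/
noncomputable def StI (χ : IrrCharacter G) : Subgroup (ZMod (Nat.card G))ˣ where
  carrier := {u | actI u χ = χ}
  mul_mem' := by
    intro a b ha hb
    show actI (a * b) χ = χ
    rw [actI_mul, show actI b χ = χ from hb, show actI a χ = χ from ha]
  one_mem' := actI_one χ
  inv_mem' := by
    intro a ha
    show actI a⁻¹ χ = χ
    have h1 : actI a⁻¹ (actI a χ) = actI a⁻¹ χ := by rw [show actI a χ = χ from ha]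
    rw [← h1, ← actI_mul, inv_mul_cancel, actI_one]

open Classical in
/-- The orbit of a character under a subgroup of units. -/
noncomputable def orbI (H : Subgroup (ZMod (Nat.card G))ˣ) (χ : IrrCharacter G) : Finset (IrrCharacter G) :=
  Finset.univ.image (fun u : H => actI (u : (ZMod (Nat.card G))ˣ) χ)

theorem mem_orbI (H : Subgroup (ZMod (Nat.card G))ˣ) (χ ψ : IrrCharacter G) :
    ψ ∈ orbI H χ ↔ ∃ u ∈ H, actI u χ = ψ := by
  classical
  unfold orbI
  simp

theorem self_mem_orbI (H : Subgroup (ZMod (Nat.card G))ˣ) (χ : IrrCharacter G) : χ ∈ orbI H χ :=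
  (mem_orbI H χ χ).mpr ⟨1, H.one_mem, actI_one χ⟩

open Classical in
/-- The sum over a subgroup of units and the sum over the orbit. -/
theorem sum_orbI (H : Subgroup (ZMod (Nat.card G))ˣ) (χ : IrrCharacter G) (f : IrrCharacter G → ℂ) :
    ∑ u : H, f (actI (u : (ZMod (Nat.card G))ˣ) χ) =
      (Nat.card (H ⊓ StI χ : Subgroup (ZMod (Nat.card G))ˣ) : ℂ) * ∑ ψ ∈ orbI H χ, f ψ := by
  rw [← Finset.sum_fiberwise_of_maps_to (g := fun u : H => actI (u : (ZMod (Nat.card G))ˣ) χ) (t := orbI H χ)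
    (fun u _ => (mem_orbI H χ _).mpr ⟨u, u.2, rfl⟩), Finset.mul_sum]
  refine Finset.sum_congr rfl fun ψ hψ => ?_
  have h1 : ∀ u ∈ Finset.univ.filter (fun u : H => actI (u : (ZMod (Nat.card G))ˣ) χ = ψ),
      f (actI (u : (ZMod (Nat.card G))ˣ) χ) = f ψ := by
    intro u hu
    rw [(Finset.mem_filter.mp hu).2]
  rw [Finset.sum_congr rfl h1, Finset.sum_const, nsmul_eq_mul]
  congr 2
  obtain ⟨u₀, hu₀, rfl⟩ := (mem_orbI H χ ψ).mp hψ
  rw [← Nat.card_eq_finsetCard]
  let φ : (H ⊓ StI χ : Subgroup (ZMod (Nat.card G))ˣ) →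
      (Finset.univ.filter (fun u : H => actI (u : (ZMod (Nat.card G))ˣ) χ = actI u₀ χ) : Finset H) := fun v =>
    ⟨(⟨u₀ * (v : (ZMod (Nat.card G))ˣ), H.mul_mem hu₀ v.2.1⟩ : H), Finset.mem_filter.mpr ⟨Finset.mem_univ _, by
      show actI (u₀ * (v : (ZMod (Nat.card G))ˣ)) χ = _
      rw [actI_mul, show actI (v : (ZMod (Nat.card G))ˣ) χ = χ from v.2.2]⟩⟩
  refine (Nat.card_eq_of_bijective φ ⟨?_, ?_⟩).symm
  · intro v w hvw
    have h2 : u₀ * (v : (ZMod (Nat.card G))ˣ) = u₀ * (w : (ZMod (Nat.card G))ˣ) :=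
      congrArg (fun t : (Finset.univ.filter (fun u : H => actI (u : (ZMod (Nat.card G))ˣ) χ = actI u₀ χ) : Finset H) =>
        ((t : H) : (ZMod (Nat.card G))ˣ)) hvw
    exact Subtype.ext (mul_left_cancel h2)
  · rintro ⟨⟨w, hw⟩, hwf⟩
    have hw2 : actI w χ = actI u₀ χ := (Finset.mem_filter.mp hwf).2
    refine ⟨⟨u₀⁻¹ * w, H.mul_mem (H.inv_mem hu₀) hw, ?_⟩, ?_⟩
    · show actI (u₀⁻¹ * w) χ = χ
      rw [actI_mul, hw2, ← actI_mul, inv_mul_cancel, actI_one]
    · apply Subtype.ext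
      apply Subtype.ext
      show u₀ * (u₀⁻¹ * w) = w
      group

theorem card_orbI (H : Subgroup (ZMod (Nat.card G))ˣ) (χ : IrrCharacter G) :
    Nat.card H = Nat.card (H ⊓ StI χ : Subgroup (ZMod (Nat.card G))ˣ) * (orbI H χ).card := by
  classical
  have h1 := sum_orbI H χ (fun _ => 1)
  simp only [Finset.sum_const, Finset.card_univ, nsmul_eq_mul, mul_one] at h1
  rw [Nat.card_eq_fintype_card]
  exact_mod_cast h1

/-- The subgroup of units `≡ 1 mod d`. -/
noncomputable def HI {d : ℕ} (hd : d ∣ Nat.card G) : Subgroup (ZMod (Nat.card G))ˣ :=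
  (ZMod.unitsMap hd).ker

theorem mem_HI {d : ℕ} (hd : d ∣ Nat.card G) (u : (ZMod (Nat.card G))ˣ) :
    u ∈ HI hd ↔ uExp u ≡ 1 [MOD d] := by
  haveI : NeZero (Nat.card G) := ⟨Nat.card_pos.ne'⟩
  unfold HI
  rw [MonoidHom.mem_ker, ← (ZMod.natCast_eq_natCast_iff _ _ _), Units.ext_iff]
  have h1 : (u : ZMod (Nat.card G)) = ((uExp u : ℕ) : ZMod (Nat.card G)) := (ZMod.natCast_zmod_val _).symm
  show (ZMod.castHom hd (ZMod d)) (u : ZMod (Nat.card G)) = _ ↔ _
  rw [h1, map_natCast]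
  simp

theorem card_HI {d : ℕ} (hd : d ∣ Nat.card G) :
    Nat.card (HI hd) * d.totient = (Nat.card G).totient := by
  haveI : NeZero (Nat.card G) := ⟨Nat.card_pos.ne'⟩
  haveI : NeZero d := ⟨fun h => by
    subst h
    exact Nat.card_pos.ne' (Nat.eq_zero_of_zero_dvd hd)⟩
  have h1 : (HI hd).index = Nat.card (ZMod d)ˣ := by
    unfold HI
    rw [Subgroup.index_ker, MonoidHom.range_eq_top.mpr (ZMod.unitsMap_surjective hd)]
    exact Nat.card_congr (Equiv.Set.univ _)
  rw [← ZMod.card_units_eq_totient, ← ZMod.card_units_eq_totient, ← Nat.card_eq_fintype_card, ← Nat.card_eq_fintype_card, ← h1,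
    Subgroup.card_mul_index]

open Classical in
/-- The sum of the powers of a root of unity over the units `≡ 1 mod pm`. -/
theorem sum_S1 {p a m : ℕ} (hp : p.Prime) (hN : Nat.card G = p ^ (a + 1) * m) (hd : p * m ∣ Nat.card G)
    (χ : IrrCharacter G) (g : G) :
    ∃ A : ℂ, IsIntegral ℤ A ∧ ∑ u : HI hd, (χ : G → ℂ) (g ^ uExp (u : (ZMod (Nat.card G))ˣ)) = (p ^ a : ℂ) * A := by
  classical
  haveI : NeZero (Nat.card G) := ⟨Nat.card_pos.ne'⟩
  have hN0 : 0 < Nat.card G := Nat.card_pos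
  have hm0 : 0 < m := by
    rcases Nat.eq_zero_or_pos m with h | h
    · rw [h, mul_zero] at hN
      omega
    · exact h
  have hpm0 : 0 < p * m := Nat.mul_pos hp.pos hm0
  have hpm2 : 2 ≤ p * m := by nlinarith [hp.two_le]
  have hNeq : Nat.card G = p ^ a * (p * m) := by rw [hN, pow_succ]; ring
  have hco : ∀ k : ℕ, (1 + k * (p * m)).Coprime (Nat.card G) := by
    intro k
    rw [hNeq]
    have h1 : (1 + k * (p * m)).Coprime (p * m) := by simp
    have h2 : (1 + k * (p * m)).Coprime p := Nat.Coprime.coprime_mul_right_right h1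
    exact Nat.Coprime.mul_right (Nat.Coprime.pow_right a h2) h1
  have hval : ∀ k : ℕ, k < p ^ a → uExp (ZMod.unitOfCoprime _ (hco k)) = 1 + k * (p * m) := by
    intro k hk
    unfold uExp
    rw [ZMod.coe_unitOfCoprime, ZMod.val_natCast]
    apply Nat.mod_eq_of_lt
    rw [hNeq]
    have h1 : (k + 1) * (p * m) ≤ p ^ a * (p * m) := Nat.mul_le_mul_right _ hk
    nlinarith
  have hmemJ : ∀ k : ℕ, k < p ^ a → (ZMod.unitOfCoprime _ (hco k)) ∈ HI hd := by
    intro k hk
    rw [mem_HI, hval k hk]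
    exact (Nat.modEq_iff_dvd' (by omega)).mpr ⟨k, by simp [mul_comm]⟩ |>.symm
  obtain ⟨n, ρ, hρ, hχ⟩ := χ.2
  have hχ' : (χ : G → ℂ) = ρ.character := hχ.symm
  obtain ⟨ζ, hζ, hk⟩ := character_eq_sum_roots ρ g (isOfFinOrder_of_finite g)
  have hsum : ∑ u : HI hd, (χ : G → ℂ) (g ^ uExp (u : (ZMod (Nat.card G))ˣ)) =
      ∑ k ∈ Finset.range (p ^ a), (χ : G → ℂ) (g ^ (1 + k * (p * m))) := by
    refine Finset.sum_bij' (fun u _ => (uExp (u : (ZMod (Nat.card G))ˣ) - 1) / (p * m))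
      (fun k hk => ⟨ZMod.unitOfCoprime _ (hco k), hmemJ k (Finset.mem_range.mp hk)⟩) ?_ ?_ ?_ ?_ ?_
    · intro u _
      rw [Finset.mem_range]
      have h1 : uExp (u : (ZMod (Nat.card G))ˣ) < p ^ a * (p * m) := lt_of_lt_of_eq (ZMod.val_lt _) hNeq
      apply Nat.div_lt_of_lt_mul
      rw [mul_comm (p * m)]
      omega
    · intro k _
      exact Finset.mem_univ _
    · intro u _
      have h1 := (mem_HI hd _).mp u.2
      have h2 : 1 ≤ uExp (u : (ZMod (Nat.card G))ˣ) := by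
        rcases Nat.eq_zero_or_pos (uExp (u : (ZMod (Nat.card G))ˣ)) with h | h
        · rw [h] at h1
          have h5 := Nat.le_of_dvd one_pos ((Nat.modEq_iff_dvd' (Nat.zero_le 1)).mp h1)
          omega
        · exact h
      have h3 : p * m ∣ uExp (u : (ZMod (Nat.card G))ˣ) - 1 := (Nat.modEq_iff_dvd' h2).mp h1.symm
      apply Subtype.ext
      apply Units.ext
      rw [ZMod.coe_unitOfCoprime]
      have h4 : 1 + (uExp (u : (ZMod (Nat.card G))ˣ) - 1) / (p * m) * (p * m) = uExp (u : (ZMod (Nat.card G))ˣ) := by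
        rw [Nat.div_mul_cancel h3]
        omega
      rw [h4]
      exact ZMod.natCast_zmod_val _
    · intro k hk
      have hk' := Finset.mem_range.mp hk
      show (uExp (ZMod.unitOfCoprime _ (hco k)) - 1) / (p * m) = k
      rw [hval k hk', Nat.add_sub_cancel_left, Nat.mul_div_cancel _ hpm0]
    · intro u _
      have h1 := (mem_HI hd _).mp u.2
      have h2 : 1 ≤ uExp (u : (ZMod (Nat.card G))ˣ) := by
        rcases Nat.eq_zero_or_pos (uExp (u : (ZMod (Nat.card G))ˣ)) with h | h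
        · rw [h] at h1
          have h5 := Nat.le_of_dvd one_pos ((Nat.modEq_iff_dvd' (Nat.zero_le 1)).mp h1)
          omega
        · exact h
      have h3 : p * m ∣ uExp (u : (ZMod (Nat.card G))ˣ) - 1 := (Nat.modEq_iff_dvd' h2).mp h1.symm
      have h4 : 1 + (uExp (u : (ZMod (Nat.card G))ˣ) - 1) / (p * m) * (p * m) = uExp (u : (ZMod (Nat.card G))ˣ) := by
        rw [Nat.div_mul_cancel h3]
        omega
      rw [h4]
  rw [hsum]
  have hrt : ∀ i, ζ i ^ Nat.card G = 1 := by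
    intro i
    obtain ⟨c, hc⟩ := orderOf_dvd_natCard g
    rw [hc, pow_mul, hζ i, one_pow]
  have hval2 : ∀ t : ℕ, (χ : G → ℂ) (g ^ t) = ∑ i, ζ i ^ t := by
    intro t
    rw [hχ']
    have := hk t
    rw [zpow_natCast] at this
    rw [this]
    simp
  have hgeom : ∀ i, ∑ k ∈ Finset.range (p ^ a), ζ i ^ (1 + k * (p * m)) =
      (p ^ a : ℂ) * (if ζ i ^ (p * m) = 1 then ζ i else 0) := by
    intro i
    have h1 : ∀ k, ζ i ^ (1 + k * (p * m)) = ζ i * (ζ i ^ (p * m)) ^ k := by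
      intro k
      rw [pow_add, pow_one, ← pow_mul, mul_comm k]
    simp only [h1]
    rw [← Finset.mul_sum]
    by_cases hμ : ζ i ^ (p * m) = 1
    · simp [hμ]
      ring
    · rw [if_neg hμ, geom_sum_eq hμ, ← pow_mul, mul_comm (p * m), ← hNeq, hrt i]
      simp
  refine ⟨∑ i, if ζ i ^ (p * m) = 1 then ζ i else 0, ?_, ?_⟩
  · refine IsIntegral.sum _ fun i _ => ?_
    split_ifs
    · exact root_isIntegral hN0.ne' (hrt i)
    · exact isIntegral_zero
  · simp only [hval2]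
    rw [Finset.sum_comm, Finset.mul_sum]
    refine Finset.sum_congr rfl fun i _ => ?_
    exact hgeom i

open Classical in
/-- The sum over an orbit is divisible by the size of the orbit. -/
theorem exists_xi_int {p a m : ℕ} (hp : p.Prime) (hN : Nat.card G = p ^ (a + 1) * m) (hd : p * m ∣ Nat.card G)
    (hcard : Nat.card (HI hd) = p ^ a) (χ : IrrCharacter G) (g : G) :
    ∃ A : ℂ, IsIntegral ℤ A ∧ ∑ ψ ∈ orbI (HI hd) χ, (ψ : G → ℂ) g = ((orbI (HI hd) χ).card : ℂ) * A := by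
  obtain ⟨A, hA, hS⟩ := sum_S1 hp hN hd χ g
  refine ⟨A, hA, ?_⟩
  have h1 := sum_orbI (HI hd) χ (fun ψ => (ψ : G → ℂ) g)
  have h2 := card_orbI (HI hd) χ
  rw [hcard] at h2
  have h3 : ∀ u : HI hd, (actI (u : (ZMod (Nat.card G))ˣ) χ : G → ℂ) g = (χ : G → ℂ) (g ^ uExp (u : (ZMod (Nat.card G))ˣ)) :=
    fun u => rfl
  simp only [h3] at h1
  rw [hS] at h1
  have hq : (Nat.card (HI hd ⊓ StI χ : Subgroup (ZMod (Nat.card G))ˣ) : ℂ) ≠ 0 := by
    exact_mod_cast (Nat.card_pos (α := (HI hd ⊓ StI χ : Subgroup (ZMod (Nat.card G))ˣ))).ne'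
  have h4 : (p ^ a : ℂ) = (Nat.card (HI hd ⊓ StI χ : Subgroup (ZMod (Nat.card G))ˣ) : ℂ) * ((orbI (HI hd) χ).card : ℂ) := by
    exact_mod_cast h2
  rw [h4, mul_assoc] at h1
  exact (mul_left_cancel₀ hq h1).symm

open Classical in
/-- The key divisibility. -/
theorem card_deg_dvd (O : Finset (IrrCharacter G)) (χ : IrrCharacter G) (hχ : χ ∈ O)
    (hint : ∀ g, ∃ A : ℂ, IsIntegral ℤ A ∧ ∑ ψ ∈ O, (ψ : G → ℂ) g = (O.card : ℂ) * A) :
    O.card * charDegree (χ : G → ℂ) ∣ Nat.card G := by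
  haveI : Fintype (ConjClasses G) := Fintype.ofFinite _
  choose A hA hξ using hint
  have hr : O.card ≠ 0 := Finset.card_ne_zero.mpr ⟨χ, hχ⟩
  have hr' : (O.card : ℂ) ≠ 0 := by exact_mod_cast hr
  have hd := charDegree_pos_of_irr χ.2
  have hd' : (χ : G → ℂ) 1 = (charDegree (χ : G → ℂ) : ℂ) := map_one_eq_charDegree (IsIrrCharacter.isCharacter χ.2)
  have hc : (Nat.card G : ℂ) ≠ 0 := by exact_mod_cast (Nat.card_pos (α := G)).ne'
  have h1 : ∑ ψ ∈ O, classInner (ψ : G → ℂ) (χ : G → ℂ) = 1 := by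
    rw [Finset.sum_eq_single χ]
    · exact classInner_irr_self χ.2
    · intro ψ _ hψ
      exact classInner_irr_of_ne ψ.2 χ.2 (fun h => hψ (Subtype.ext h))
    · intro h
      exact absurd hχ h
  simp only [classInner_def] at h1
  rw [← Finset.mul_sum, Finset.sum_comm] at h1
  simp only [← Finset.sum_mul, hξ] at h1
  have h2 : ∑ g, conj (A g) * (χ : G → ℂ) g = (Nat.card G : ℂ) / (O.card : ℂ) := by
    have h3 : ∑ g, A g * conj ((χ : G → ℂ) g) = (Nat.card G : ℂ) / (O.card : ℂ) := by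
      field_simp
      have h4 : (O.card : ℂ) * ∑ g, A g * conj ((χ : G → ℂ) g) = (Nat.card G : ℂ) := by
        have h5 : ∑ g, ((O.card : ℂ) * A g) * conj ((χ : G → ℂ) g) = (Nat.card G : ℂ) := by
          field_simp at h1
          exact h1
        rw [← h5, Finset.mul_sum]
        refine Finset.sum_congr rfl fun g _ => ?_
        ring
      rw [← h4]
      ring
    have h4 := congrArg conj h3
    rw [map_sum, map_div₀, Complex.conj_natCast, Complex.conj_natCast] at h4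
    rw [← h4]
    refine Finset.sum_congr rfl fun g _ => ?_
    rw [map_mul, Complex.conj_conj]
  have hclass : ∀ g x : G, A (x * g * x⁻¹) = A g := by
    intro g x
    apply mul_left_cancel₀ hr'
    rw [← hξ, ← hξ]
    refine Finset.sum_congr rfl fun ψ _ => ?_
    exact (IsCharacter.isClassFunction (IsIrrCharacter.isCharacter ψ.2)) g x
  have hf : ∀ g x : G, conj (A (x * g * x⁻¹)) * (χ : G → ℂ) (x * g * x⁻¹) = conj (A g) * (χ : G → ℂ) g := by
    intro g x
    rw [hclass, (IsCharacter.isClassFunction (IsIrrCharacter.isCharacter χ.2)) g x]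
  rw [sum_classFunction_eq_sum_conjClasses _ hf] at h2
  apply nat_dvd_of_isIntegral_div (Nat.mul_ne_zero hr hd.ne')
  have h3 : ((Nat.card G : ℕ) : ℂ) / ((O.card * charDegree (χ : G → ℂ) : ℕ) : ℂ) =
      ∑ c : ConjClasses G, conj (A c.out) * centralChar (χ : G → ℂ) c.out := by
    have hd0 : (χ : G → ℂ) 1 ≠ 0 := by
      rw [hd']
      exact_mod_cast hd.ne'
    push_cast
    rw [← div_div, ← h2, ← hd', Finset.sum_div]
    refine Finset.sum_congr rfl fun c _ => ?_
    unfold centralChar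
    rw [nsmul_eq_mul]
    ring
  rw [h3]
  refine IsIntegral.sum _ fun c _ => IsIntegral.mul ?_ (Cfsg.Agent.Lib.Block.isIntegral_centralChar χ.2 _)
  exact map_isIntegral_int (starRingEnd ℂ) (hA _)

open Classical in
/-- If the orbit has full `p`-part, then its sum vanishes on `p`-singular elements. -/
theorem O_vanish {p : ℕ} [Fact p.Prime] {M : Ideal Cfsg.AlgInt} (hM : IsPModular p M) (O : Finset (IrrCharacter G)) (χ : IrrCharacter G) (hχ : χ ∈ O)
    (hdeg : ∀ ψ ∈ O, (ψ : G → ℂ) 1 = (χ : G → ℂ) 1)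
    (hint : ∀ g, ∃ A : ℂ, IsIntegral ℤ A ∧ ∑ ψ ∈ O, (ψ : G → ℂ) g = (O.card : ℂ) * A)
    {w : ℕ} (hw : Nat.card G = O.card * charDegree (χ : G → ℂ) * w) (hpw : ¬ p ∣ w) {g : G} (hg : p ∣ orderOf g) :
    ∑ ψ ∈ O, (ψ : G → ℂ) g = 0 := by
  have := isPModular_isPrime hM
  choose A hA hξ using hint
  have hr : O.card ≠ 0 := Finset.card_ne_zero.mpr ⟨χ, hχ⟩
  have hr' : (O.card : ℂ) ≠ 0 := by exact_mod_cast hr
  have hd := charDegree_pos_of_irr χ.2
  have hd' : (χ : G → ℂ) 1 = (charDegree (χ : G → ℂ) : ℂ) := map_one_eq_charDegree (IsIrrCharacter.isCharacter χ.2)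
  have hdc : (charDegree (χ : G → ℂ) : ℂ) ≠ 0 := by exact_mod_cast hd.ne'
  have hw0 : w ≠ 0 := by
    rintro rfl
    exact hpw (dvd_zero p)
  have hwc : (w : ℂ) ≠ 0 := by exact_mod_cast hw0
  have hcoef : ∀ y : G, blockCoeff (↑O : Set (IrrCharacter G)) y = (w : ℂ)⁻¹ * conj (A y) := by
    intro y
    unfold blockCoeff
    rw [finsum_mem_coe_finset]
    have h1 : ∀ ψ ∈ O, (ψ : G → ℂ) 1 * conj ((ψ : G → ℂ) y) = (charDegree (χ : G → ℂ) : ℂ) * conj ((ψ : G → ℂ) y) := by
      intro ψ hψ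
      rw [hdeg ψ hψ, hd']
    rw [Finset.sum_congr rfl h1, ← Finset.mul_sum, ← map_sum, hξ, hw, map_mul, Complex.conj_natCast]
    push_cast
    field_simp
  have hloc : Cfsg.Agent.Lib.Block.LocalCoeff M (blockElt (↑O : Set (IrrCharacter G))) := by
    intro y
    rw [coeff_blockElt, hcoef]
    exact memLocalRing_mul (memLocalRing_natCast_inv hM hpw)
      (memLocalRing_of_isIntegral (map_isIntegral_int (starRingEnd ℂ) (hA y)))
  have hU := isBlockUnion_of_localCoeff hloc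
  have h0 := coeff_blockElt_of_singular hM hU g hg
  rw [coeff_blockElt, hcoef] at h0
  have h1 : conj (A g) = 0 := (mul_eq_zero.mp h0).resolve_left (inv_ne_zero hwc)
  have h2 : A g = 0 := by simpa using h1
  rw [hξ, h2, mul_zero]

open Classical in
/-- The degree is divisible by the order of a Sylow subgroup if the sum over a set of power maps of `χ`
vanishes on the `p`-singular elements. -/
theorem deg_of_vanish {p : ℕ} [hp : Fact p.Prime] (P : Sylow p G) (O : Finset (IrrCharacter G)) (χ : IrrCharacter G) (hχ : χ ∈ O)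
    (hO : ∀ ψ ∈ O, ∃ s : ℕ, s.Coprime (Nat.card G) ∧ ∀ g, (ψ : G → ℂ) g = (χ : G → ℂ) (g ^ s))
    (hvan : ∀ g : G, p ∣ orderOf g → ∑ ψ ∈ O, (ψ : G → ℂ) g = 0) :
    Nat.card P ∣ charDegree (χ : G → ℂ) := by
  haveI : Fintype P := Fintype.ofFinite _
  have hr : O.card ≠ 0 := Finset.card_ne_zero.mpr ⟨χ, hχ⟩
  have hr' : (O.card : ℂ) ≠ 0 := by exact_mod_cast hr
  have hd' : (χ : G → ℂ) 1 = (charDegree (χ : G → ℂ) : ℂ) := map_one_eq_charDegree (IsIrrCharacter.isCharacter χ.2)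
  have hinner : ∀ ψ ∈ O, ∑ y : P, (ψ : G → ℂ) y = ∑ y : P, (χ : G → ℂ) y := by
    intro ψ hψ
    obtain ⟨s, hs, hval⟩ := hO ψ hψ
    have hsP : (Nat.card P).Coprime s := by
      refine (Nat.Coprime.coprime_dvd_right (Subgroup.card_subgroup_dvd_card (P : Subgroup G)) hs).symm
    refine Eq.trans ?_ (Equiv.sum_comp (powCoprime hsP) (fun y : P => (χ : G → ℂ) y))
    refine Finset.sum_congr rfl fun y _ => ?_
    rw [hval]
    rfl
  have hLHS : ∑ y : P, ∑ ψ ∈ O, (ψ : G → ℂ) y = ∑ ψ ∈ O, (ψ : G → ℂ) 1 := by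
    refine (Finset.sum_eq_single (1 : P) ?_ ?_).trans rfl
    · intro y _ hy
      apply hvan
      have hyG : (y : G) ≠ 1 := fun h => hy (Subtype.ext h)
      obtain ⟨k, hk⟩ := P.isPGroup' y
      have h1 : orderOf (y : G) ∣ p ^ k := by
        apply orderOf_dvd_of_pow_eq_one
        have := congrArg Subtype.val hk
        simpa using this
      obtain ⟨j, -, hj⟩ := (Nat.dvd_prime_pow hp.out).mp h1
      rw [hj]
      rcases Nat.eq_zero_or_pos j with h | h
      · subst h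
        rw [pow_zero, orderOf_eq_one_iff] at hj
        exact absurd hj hyG
      · exact dvd_pow_self p h.ne'
    · intro h
      exact absurd (Finset.mem_univ _) h
  rw [Finset.sum_comm, Finset.sum_congr rfl hinner] at hLHS
  have h1 : ∑ ψ ∈ O, (ψ : G → ℂ) 1 = (O.card : ℂ) * (charDegree (χ : G → ℂ) : ℂ) := by
    rw [← hd', ← nsmul_eq_mul, ← Finset.sum_const]
    refine Finset.sum_congr rfl fun ψ hψ => ?_
    obtain ⟨s, hs, hval⟩ := hO ψ hψ
    rw [hval, one_pow]
  rw [h1, Finset.sum_const, nsmul_eq_mul] at hLHS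
  have h2 := mul_left_cancel₀ hr' hLHS
  obtain ⟨n, hn⟩ := classInner_isCharacter_nat (IsCharacter.restrict (P : Subgroup G) (IsIrrCharacter.isCharacter χ.2))
    (IsIrrCharacter.isCharacter (isIrrCharacter_one (G := P)))
  rw [classInner_def] at hn
  simp only [map_one, mul_one] at hn
  have hcP : (Nat.card P : ℂ) ≠ 0 := by exact_mod_cast (Nat.card_pos (α := P)).ne'
  refine ⟨n, ?_⟩
  have h3 : ∑ y : P, (χ : G → ℂ) y = (Nat.card P : ℂ) * n := by
    rw [← hn]
    field_simp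
  rw [h3] at h2
  exact_mod_cast h2.symm

/-- **The theorem of Brauer and Nesbitt** on the degree and the Galois orbit. -/
theorem gal_deg_main {p a m : ℕ} [hp : Fact p.Prime] (hN : Nat.card G = p ^ (a + 1) * m) (hpm : ¬ p ∣ m)
    (hd₁ : m ∣ Nat.card G) (χ : IrrCharacter G) :
    ((orbI (HI hd₁) χ).card * charDegree (χ : G → ℂ)).factorization p ≤ a + 1 ∧
      (p ^ (a + 1) ∣ (orbI (HI hd₁) χ).card * charDegree (χ : G → ℂ) → p ^ (a + 1) ∣ charDegree (χ : G → ℂ)) := by
  classical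
  have hpr := hp.out
  have hm0 : 0 < m := by
    rcases Nat.eq_zero_or_pos m with h | h
    · subst h
      exact absurd (dvd_zero p) hpm
    · exact h
  have hd₂ : p * m ∣ Nat.card G := by
    rw [hN, pow_succ]
    exact ⟨p ^ a, by ring⟩
  have hco : (p ^ (a + 1)).Coprime m := Nat.Coprime.pow_left _ ((Nat.Prime.coprime_iff_not_dvd hpr).mpr hpm)
  have htN : (Nat.card G).totient = p ^ a * (p - 1) * m.totient := by
    rw [hN, Nat.totient_mul hco, Nat.totient_prime_pow_succ hpr]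
  have hphi0 : 0 < m.totient := Nat.totient_pos.mpr hm0
  have hp1 : 0 < p - 1 := by
    have := hpr.two_le
    omega
  have hG₁ : Nat.card (HI hd₁) = p ^ a * (p - 1) := by
    have h1 := card_HI hd₁
    rw [htN] at h1
    exact Nat.eq_of_mul_eq_mul_right hphi0 h1
  have hG₂ : Nat.card (HI hd₂) = p ^ a := by
    have h1 := card_HI hd₂
    rw [htN, Nat.totient_mul ((Nat.Prime.coprime_iff_not_dvd hpr).mpr hpm), Nat.totient_prime hpr] at h1
    have h2 : Nat.card (HI hd₂) * (p - 1) * m.totient = p ^ a * (p - 1) * m.totient := by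
      rw [← h1]
      ring
    exact Nat.eq_of_mul_eq_mul_right hp1 (Nat.eq_of_mul_eq_mul_right hphi0 h2)
  have hint := exists_xi_int hpr hN hd₂ hG₂ χ
  have hχ₂ := self_mem_orbI (HI hd₂) χ
  have hdvd := card_deg_dvd (orbI (HI hd₂) χ) χ hχ₂ hint
  set r := (orbI (HI hd₁) χ).card with hr
  set r₁ := (orbI (HI hd₂) χ).card with hr₁
  have hr0 : r ≠ 0 := Finset.card_ne_zero.mpr ⟨χ, self_mem_orbI _ χ⟩
  have hr₁0 : r₁ ≠ 0 := Finset.card_ne_zero.mpr ⟨χ, hχ₂⟩
  have hle : HI hd₂ ≤ HI hd₁ := by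
    intro u hu
    rw [mem_HI] at hu ⊢
    exact hu.of_dvd (Nat.dvd_mul_left m p)
  have hq := card_orbI (HI hd₁) χ
  have hq₁ := card_orbI (HI hd₂) χ
  rw [hG₁] at hq
  rw [hG₂] at hq₁
  obtain ⟨t, ht⟩ := Subgroup.card_dvd_of_le (inf_le_inf_right (StI χ) hle)
  have hq₁0 : 0 < Nat.card (HI hd₂ ⊓ StI χ : Subgroup (ZMod (Nat.card G))ˣ) := Nat.card_pos
  have hrdvd : r ∣ (p - 1) * r₁ := by
    refine ⟨t, ?_⟩
    apply Nat.eq_of_mul_eq_mul_left hq₁0
    calc Nat.card (HI hd₂ ⊓ StI χ : Subgroup (ZMod (Nat.card G))ˣ) * ((p - 1) * r₁)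
        = (Nat.card (HI hd₂ ⊓ StI χ : Subgroup (ZMod (Nat.card G))ˣ) * r₁) * (p - 1) := by ring
      _ = p ^ a * (p - 1) := by rw [← hq₁]
      _ = Nat.card (HI hd₁ ⊓ StI χ : Subgroup (ZMod (Nat.card G))ˣ) * r := hq
      _ = _ := by rw [ht]; ring
  have hdeg0 : charDegree (χ : G → ℂ) ≠ 0 := (charDegree_pos_of_irr χ.2).ne'
  have hpp : p.Coprime (p - 1) := by
    rw [Nat.Prime.coprime_iff_not_dvd hpr]
    intro h
    have := Nat.le_of_dvd hp1 h
    omega
  have hfacN : (Nat.card G).factorization p = a + 1 := by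
    rw [hN, Nat.factorization_mul (pow_ne_zero _ hpr.ne_zero) hm0.ne', Nat.Prime.factorization_pow hpr]
    simp [Nat.factorization_eq_zero_of_not_dvd hpm]
  have hfacr : r.factorization p ≤ r₁.factorization p := by
    have h1 := (Nat.factorization_le_iff_dvd hr0 (Nat.mul_ne_zero hp1.ne' hr₁0)).mpr hrdvd p
    rw [Nat.factorization_mul hp1.ne' hr₁0, Finsupp.add_apply, Nat.factorization_eq_zero_of_not_dvd
      (fun h => hpp.eq_one_of_dvd h |> fun h2 => hpr.one_lt.ne' h2), zero_add] at h1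
    exact h1
  have hfac₁ := (Nat.factorization_le_iff_dvd (Nat.mul_ne_zero hr₁0 hdeg0) Nat.card_pos.ne').mpr hdvd p
  rw [hfacN, Nat.factorization_mul hr₁0 hdeg0, Finsupp.add_apply] at hfac₁
  refine ⟨?_, fun hdiv => ?_⟩
  · rw [Nat.factorization_mul hr0 hdeg0, Finsupp.add_apply]
    omega
  · have h1 : p ^ (a + 1) ∣ (p - 1) * (r₁ * charDegree (χ : G → ℂ)) := by
      refine hdiv.trans ?_
      rw [← mul_assoc]
      exact Nat.mul_dvd_mul_right hrdvd _
    have h2 : p ^ (a + 1) ∣ r₁ * charDegree (χ : G → ℂ) :=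
      (Nat.Coprime.pow_left _ hpp).dvd_of_dvd_mul_left h1
    obtain ⟨w, hw⟩ := hdvd
    have hpw : ¬ p ∣ w := by
      intro hpw
      obtain ⟨c, hc⟩ := h2
      obtain ⟨w', hw'⟩ := hpw
      apply hpm
      have h3 : p ^ (a + 1) * m = p ^ (a + 1) * (c * (p * w')) := by
        rw [← hN, hw, hc, hw']
        ring
      have h4 := Nat.eq_of_mul_eq_mul_left (pow_pos hpr.pos _) h3
      exact ⟨c * w', by rw [h4]; ring⟩
    obtain ⟨M, hM⟩ := exists_isPModular p hpr
    have hvan : ∀ g : G, p ∣ orderOf g → ∑ ψ ∈ orbI (HI hd₂) χ, (ψ : G → ℂ) g = 0 := by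
      intro g hg
      refine O_vanish hM (orbI (HI hd₂) χ) χ hχ₂ ?_ hint hw hpw hg
      intro ψ hψ
      obtain ⟨u, -, rfl⟩ := (mem_orbI _ χ ψ).mp hψ
      rw [actI_apply, one_pow]
    obtain ⟨P⟩ : Nonempty (Sylow p G) := inferInstance
    have hO : ∀ ψ ∈ orbI (HI hd₂) χ, ∃ s : ℕ, s.Coprime (Nat.card G) ∧ ∀ g, (ψ : G → ℂ) g = (χ : G → ℂ) (g ^ s) := by
      intro ψ hψ
      obtain ⟨u, -, rfl⟩ := (mem_orbI _ χ ψ).mp hψ
      exact ⟨uExp u, uExp_coprime u, fun g => rfl⟩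
    have h3 := deg_of_vanish P (orbI (HI hd₂) χ) χ hχ₂ hO hvan
    rw [P.card_eq_multiplicity, hfacN] at h3
    exact h3

/-- The Galois conjugates of a character fixing the `m`-th roots of unity form an orbit. -/
theorem card_conj_eq {m : ℕ} (hd : m ∣ Nat.card G) (hm : 0 < m) (χ : IrrCharacter G) :
    Nat.card {ψ : IrrCharacter G // ∃ σ : ℂ ≃+* ℂ,
      σ (Complex.exp (2 * Real.pi * Complex.I / (m : ℕ))) = Complex.exp (2 * Real.pi * Complex.I / (m : ℕ)) ∧
      (ψ : G → ℂ) = fun g => σ ((χ : G → ℂ) g)} = (orbI (HI hd) χ).card := by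
  classical
  have hN0 : 0 < Nat.card G := Nat.card_pos
  have hiff : ∀ ψ : IrrCharacter G, (∃ σ : ℂ ≃+* ℂ,
      σ (Complex.exp (2 * Real.pi * Complex.I / (m : ℕ))) = Complex.exp (2 * Real.pi * Complex.I / (m : ℕ)) ∧
      (ψ : G → ℂ) = fun g => σ ((χ : G → ℂ) g)) ↔ ψ ∈ orbI (HI hd) χ := by
    intro ψ
    rw [mem_orbI]
    constructor
    · rintro ⟨σ, hσ, hψ⟩
      obtain ⟨s, hs, hs1, hz⟩ : ∃ s : ℕ, s.Coprime (Nat.card G) ∧ s ≡ 1 [MOD m] ∧ ∀ z : ℂ, z ^ Nat.card G = 1 → σ z = z ^ s := by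
        by_cases hN1 : 1 < Nat.card G
        · exact exists_pow_of_fix hN1 hd hm σ hσ
        · have hN2 : Nat.card G = 1 := by omega
          refine ⟨1, by simp, Nat.ModEq.refl _, fun z hz => ?_⟩
          rw [hN2, pow_one] at hz
          rw [hz, map_one, one_pow]
      refine ⟨ZMod.unitOfCoprime s hs, ?_, Subtype.ext ?_⟩
      · rw [mem_HI]
        unfold uExp
        rw [ZMod.coe_unitOfCoprime, ZMod.val_natCast]
        exact ((Nat.mod_modEq s _).of_dvd hd).trans hs1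
      · rw [hψ]
        funext g
        rw [actI_apply, aut_char_value σ s hz]
        unfold uExp
        rw [ZMod.coe_unitOfCoprime, ZMod.val_natCast, pow_mod_natCard]
    · rintro ⟨u, hu, rfl⟩
      obtain ⟨σ, hσ⟩ := exists_aut_pow (Nat.card G) (uExp u) hN0 (uExp_coprime u)
      refine ⟨σ, ?_, ?_⟩
      · have h1 := (Complex.isPrimitiveRoot_exp m hm.ne').pow_eq_one
        rw [hσ _ ?_]
        · have h2 := (mem_HI hd u).mp hu
          rw [pow_eq_pow_mod _ h1, h2, ← pow_eq_pow_mod 1 h1, pow_one]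
        · obtain ⟨c, hc⟩ := hd
          rw [hc, pow_mul, h1, one_pow]
      · funext g
        rw [actI_apply, aut_char_value σ _ hσ]
  rw [← Nat.card_eq_finsetCard]
  exact Nat.card_congr (Equiv.subtypeEquivRight hiff)

end Act

end Cfsg.Agent.Lib.FF
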