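import Cfsg.Agent.Lib.FF.GenGal
import Cfsg.Agent.Lib.CharExtra.DefectClass

/-!
# The number of characters of degree prime to `p`, when `p` divides the order exactly once
-/

set_option autoImplicit false
set_option linter.unusedSectionVars false
set_option linter.style.haveILetI false
set_option linter.unusedSimpArgs false
set_option linter.unnecessarySimpa false
set_option linter.unusedVariables false
set_option maxSynthPendingDepth 3

open scoped ComplexConjugate
open Subgroup

namespace Cfsg.Agent.Lib.FF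

open Cfsg (classInner IsCharacter IsIrrCharacter IrrCharacter IsClassFunction indFun
  extendByZero IsGeneralizedCharacter IsPModular IsPPart charDegree IsPBlock blockOf blockCoeff SameBlock MemLocalIdeal
  IsInducedBlock IsDefectGroup inducedCentralChar centralChar)
open Cfsg.Agent.Lib.Char
open Cfsg.Agent.Lib.Block hiding tr
open Cfsg.Agent.Lib.SmallSimple.Star
open Cfsg.Agent.Lib.SmallSimple.BL
open Cfsg.Agent.Lib.SmallSimple.BB

universe u

section Count

variable {G : Type u} [Group G] [Fintype G] {p : ℕ} {x : G} {K : Subgroup G} [Fintype K]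
  {M : Ideal Cfsg.AlgInt} [hp : Fact p.Prime] {C : Subgroup G} [Fintype C]
  [Fintype (zpowers x)]

/-- The characters with non-zero section function at `θ`. -/
def Bth (x : G) (θ : IrrCharacter K) : Set (IrrCharacter G) :=
  {χ | ∃ u : zpowers x, u ≠ 1 ∧ Dc (χ : G → ℂ) (θ : K → ℂ) u ≠ 0}

theorem gen_ne_one (hx : orderOf x = p) : (⟨x, mem_zpowers x⟩ : zpowers x) ≠ 1 := by
  intro h
  have h1 : x = 1 := congrArg Subtype.val h
  rw [h1, orderOf_one] at hx
  exact hp.out.one_lt.ne hx

theorem cen_eq (hC : ∀ g, g ∈ C ↔ Commute g x) : C = centralizer ({x} : Set G) := by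
  ext y
  rw [hC, Subgroup.mem_centralizer_singleton_iff]
  rfl

theorem C_le_T {T : Subgroup G} {θ₀ : IrrCharacter K} (hK : CompK x p K) (hC : ∀ g, g ∈ C ↔ Commute g x) (hT : IsStabT x θ₀ T) :
    C ≤ T := by
  intro y hy
  rw [hT y]
  refine ⟨C_le_N hC hy, fun k k' hk => ?_⟩
  have h1 := thConj_C hK hC θ₀ y hy
  have h2 := congrArg (fun ξ : IrrCharacter K => (ξ : K → ℂ) k) h1
  simp only [thConj_apply] at h2
  rw [← h2]
  exact congrArg _ (Subtype.ext hk)

/-- Every member of the block has a non-zero section function. -/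
theorem block_support {T : Subgroup G} [Fintype T] {B : Set (IrrCharacter G)} {θ₀ : IrrCharacter K}
    (hM : IsPModular p M) (hx : orderOf x = p) (hsyl : ¬ p ^ 2 ∣ Nat.card G) (hK : CompK x p K)
    (hC : ∀ g, g ∈ C ↔ Commute g x) (hT : IsStabT x θ₀ T) (hB : IsPBlock M B)
    (hD : IsDefectGroup p M B (zpowers x)) (hind : IsInducedBlock M C (Amu (le_C_of_compK hK hC) θ₀) B)
    {χ : IrrCharacter G} (hχ : χ ∈ B) : χ ∈ Bth x θ₀ := by
  classical
  have hpr := hp.out
  have := isPModular_isPrime hM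
  have hTN : T ≤ normalizer ((zpowers x : Subgroup G) : Set G) := fun t ht => ((hT t).mp ht).1
  have hCT : centralizer ({x} : Set G) ≤ T := by
    rw [← cen_eq hC]
    exact C_le_T hK hC hT
  have hcardT : Nat.card T = (centralizer ({x} : Set G)).relIndex T * Nat.card (centralizer ({x} : Set G)) := by
    rw [← Subgroup.relIndex_bot_left, ← Subgroup.relIndex_bot_left,
        mul_comm, Subgroup.relIndex_mul_relIndex _ _ _ bot_le hCT]
  obtain ⟨c₀, n₀, h1, h2, h3⟩ := exists_cmu (G := G) (K := K) hx hK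
  have hAD := ad_block (c := c₀) (n := n₀) hM hx hsyl hK hC hT hB hD hind h1 h3 hTN hCT _ hcardT
  have hnt : Fintype.card (Nt x) = p - 1 := by
    have := card_nt' hpr hx
    rw [Nat.card_eq_fintype_card] at this
    omega
  obtain ⟨a₀⟩ : Nonempty (Nt x) := by
    rw [← Fintype.card_pos_iff, hnt]
    have := hpr.two_le
    omega
  have hepos : 0 < (centralizer ({x} : Set G)).relIndex T := by
    rw [← hAD.hcls a₀, Finset.card_pos]
    exact ⟨a₀, by simp [hAD.hrefl a₀]⟩
  obtain ⟨u, ε, ψ, hε, F, hu0⟩ := A_final_form hAD a₀ hepos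
  by_contra hcon
  have hzero : ∀ v : zpowers x, v ≠ 1 → Dc (χ : G → ℂ) (θ₀ : K → ℂ) v = 0 := by
    intro v hv
    by_contra hne
    exact hcon ⟨v, hv, hne⟩
  have hc0 : ∀ a : Nt x, c₀ a χ θ₀ = 0 := c_zero_of_Dc h3 hzero
  by_cases hy : χ ∈ imgA ψ
  · obtain ⟨a, -, rfl⟩ := Finset.mem_image.mp hy
    have h4 := F.val a (ψ a)
    rw [if_pos rfl, hu0 a, zero_add, mul_one] at h4
    have h5 : c₀ a (ψ a) θ₀ = ε := h4
    rw [hc0] at h5
    exact F.hε h5.symm
  · -- `χ` lies outside the image of `ψ`: then the degree is divisible by `p`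
    have hd := deg_formula hM hx hK hC hB hD hind h2 h3 hχ
    obtain ⟨n', hn'⟩ := hd
    have hsum : ∑ a : Nt x, c₀ a χ θ₀ = 0 := Finset.sum_eq_zero fun a _ => hc0 a
    rw [hsum, mul_zero, add_zero] at hn'
    have hdvdχ : p ∣ charDegree (χ : G → ℂ) := by
      have : (p : ℤ) ∣ (charDegree (χ : G → ℂ) : ℤ) := ⟨n', hn'⟩
      exact_mod_cast this
    have hnd : ¬ p ∣ Nat.card G / charDegree (χ : G → ℂ) := by
      obtain ⟨k, hk⟩ := charDegree_dvd_card χ.2
      have hpos := charDegree_pos_of_irr χ.2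
      intro h2'
      apply hsyl
      rw [hk, Nat.mul_div_cancel_left _ hpos] at h2'
      rw [hk, pow_two]
      exact Nat.mul_dvd_mul hdvdχ h2'
    have hblock := blockOf_eq_singleton_of_not_dvd hM χ hnd
    have h4 : ψ a₀ ∈ blockOf M (χ : G → ℂ) := by
      rw [← blockOf_eq_of_mem hB hχ]
      exact A_YB0 hAD F hu0 _ (Finset.mem_image.mpr ⟨a₀, Finset.mem_univ _, rfl⟩)
    rw [hblock, Set.mem_singleton_iff] at h4
    apply hy
    rw [← h4]
    exact Finset.mem_image.mpr ⟨a₀, Finset.mem_univ _, rfl⟩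

/-- A subgroup of order `p` is conjugate to `⟨x⟩`. -/
theorem exists_conj_zpowers {x' : G} (hx : orderOf x = p) (hx' : orderOf x' = p) (hsyl : ¬ p ^ 2 ∣ Nat.card G) :
    ∃ d : G, (zpowers x').map (MulAut.conj d).toMonoidHom = zpowers x := by
  classical
  have hpr := hp.out
  have hdvd : p ∣ Nat.card G := by
    rw [← hx]
    exact orderOf_dvd_natCard x
  have hfac : (Nat.card G).factorization p = 1 := by
    obtain ⟨m, hm⟩ := hdvd
    have hm0 : 0 < m := by
      rcases Nat.eq_zero_or_pos m with h | h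
      · rw [h, mul_zero] at hm
        exact absurd hm Nat.card_pos.ne'
      · exact h
    have hpm : ¬ p ∣ m := by
      intro h
      apply hsyl
      rw [hm, pow_two]
      exact Nat.mul_dvd_mul_left p h
    rw [hm, Nat.factorization_mul hpr.ne_zero hm0.ne']
    simp [hpr.factorization_self, Nat.factorization_eq_zero_of_not_dvd hpm]
  let Q : Sylow p G := Sylow.ofCard (zpowers x) (by rw [Nat.card_zpowers, hx, hfac, pow_one])
  let Q' : Sylow p G := Sylow.ofCard (zpowers x') (by rw [Nat.card_zpowers, hx', hfac, pow_one])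
  obtain ⟨d, hd⟩ := MulAction.exists_smul_eq G Q' Q
  refine ⟨d, ?_⟩
  have h1 := congrArg (fun S : Sylow p G => (S : Subgroup G)) hd
  exact h1

/-- The block of `G` induced by the block of `C` attached to `θ`. -/
theorem exists_block_theta {T : Subgroup G} [Fintype T] (hM : IsPModular p M) (hx : orderOf x = p) (hsyl : ¬ p ^ 2 ∣ Nat.card G)
    (hK : CompK x p K) (hC : ∀ g, g ∈ C ↔ Commute g x) {θ : IrrCharacter K} (hT : IsStabT x θ T) :
    ∃ B : Set (IrrCharacter G), IsPBlock M B ∧ IsDefectGroup p M B (zpowers x) ∧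
      IsInducedBlock M C (Amu (le_C_of_compK hK hC) θ) B ∧ Bth x θ = B := by
  classical
  have hpr := hp.out
  have := isPModular_isPrime hM
  obtain ⟨B, hind⟩ := exists_induced (C := C) hx hK hC hM θ
  have hB := hind.2.1
  have hTN : T ≤ normalizer ((zpowers x : Subgroup G) : Set G) := fun t ht => ((hT t).mp ht).1
  have hu₀ := gen_ne_one (p := p) hx
  obtain ⟨χ₀, hχ₀⟩ : ∃ χ : IrrCharacter G, Dc (χ : G → ℂ) (θ : K → ℂ) (⟨x, mem_zpowers x⟩ : zpowers x) ≠ 0 := by
    by_contra hcon
    push Not at hcon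
    have h1 := Dc_gram hx hK θ hT hTN _ _ hu₀ hu₀
    rw [Finset.sum_eq_zero (fun χ _ => by rw [hcon χ, mul_zero])] at h1
    have h2 : (∑ t : T, if cj (toN hTN t) (⟨x, mem_zpowers x⟩ : zpowers x) = ⟨x, mem_zpowers x⟩ then (1 : ℂ) else 0) = 0 := by
      have hc0 : ((Nat.card K : ℕ) : ℂ)⁻¹ ≠ 0 := inv_ne_zero (by exact_mod_cast Nat.card_pos.ne')
      exact (mul_eq_zero.mp h1.symm).resolve_left hc0
    have h3 : (((Finset.univ.filter (fun t : T => cj (toN hTN t) (⟨x, mem_zpowers x⟩ : zpowers x) = ⟨x, mem_zpowers x⟩)).card : ℕ) : ℂ) = 0 := by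
      rw [Finset.card_filter]
      push_cast
      exact h2
    have h4 : (Finset.univ.filter (fun t : T => cj (toN hTN t) (⟨x, mem_zpowers x⟩ : zpowers x) = ⟨x, mem_zpowers x⟩)).card = 0 := by
      exact_mod_cast h3
    rw [Finset.card_eq_zero, Finset.filter_eq_empty_iff] at h4
    apply h4 (Finset.mem_univ (1 : T))
    rw [toN_one]
    simp [cj_one]
  have hχ₀B : χ₀ ∈ B := by
    by_contra hnot
    exact hχ₀ (Dc_zero_of_induced hx hK hC hM θ hind χ₀ hnot _ hu₀)
  have hdiv : p ∣ Nat.card G := by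
    rw [← hx]
    exact orderOf_dvd_natCard x
  have hfac : (Nat.card G).factorization p = 1 := by
    obtain ⟨m, hm⟩ := hdiv
    have hm0 : 0 < m := by
      rcases Nat.eq_zero_or_pos m with h | h
      · rw [h, mul_zero] at hm
        exact absurd hm Nat.card_pos.ne'
      · exact h
    have hpm : ¬ p ∣ m := by
      intro h
      apply hsyl
      rw [hm, pow_two]
      exact Nat.mul_dvd_mul_left p h
    rw [hm, Nat.factorization_mul hpr.ne_zero hm0.ne']
    simp [hpr.factorization_self, Nat.factorization_eq_zero_of_not_dvd hpm]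
  have hpos : 0 < Cfsg.blockDefect p B := by
    by_contra hcon
    have h0 : Cfsg.blockDefect p B = 0 := by omega
    unfold Cfsg.blockDefect at h0
    rw [hfac] at h0
    have h1 : sInf ((fun χ : IrrCharacter G => (charDegree (χ : G → ℂ)).factorization p) '' B) ≤
        (charDegree (χ₀ : G → ℂ)).factorization p := Nat.sInf_le ⟨χ₀, hχ₀B, rfl⟩
    have h2 : 1 ≤ (charDegree (χ₀ : G → ℂ)).factorization p := by omega
    have hpos := charDegree_pos_of_irr χ₀.2
    have hdvdχ : p ∣ charDegree (χ₀ : G → ℂ) := (hpr.dvd_iff_one_le_factorization hpos.ne').mpr h2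
    have hnd : ¬ p ∣ Nat.card G / charDegree (χ₀ : G → ℂ) := by
      obtain ⟨k, hk⟩ := charDegree_dvd_card χ₀.2
      intro h2'
      apply hsyl
      rw [hk, Nat.mul_div_cancel_left _ hpos] at h2'
      rw [hk, pow_two]
      exact Nat.mul_dvd_mul hdvdχ h2'
    have hblock := blockOf_eq_singleton_of_not_dvd hM χ₀ hnd
    apply hχ₀
    rw [Dc_def]
    rw [Finset.sum_eq_zero, mul_zero]
    intro k _
    have hk : Commute (k : G) x := hK.comm k k.2
    have hnd' : ¬ p ∣ orderOf (k : G) := orderOf_not_dvd_of_mem K hK.ndvd k.2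
    have h3 : p ∣ orderOf (x * (k : G)) := by
      rw [← hk.eq]
      exact dvd_orderOf_mul hk hnd' ⟨1, by rw [hx, pow_one]⟩ (fun h => hu₀ (Subtype.ext h))
    rw [eq_zero_of_blockOf_eq_singleton hM χ₀ hblock h3, zero_mul]
  obtain ⟨x', hx', hD'⟩ := exists_block_data hM hdiv hsyl hB hpos
  obtain ⟨d, hd⟩ := exists_conj_zpowers (x := x) (x' := x') hx hx' hsyl
  have hD : IsDefectGroup p M B (zpowers x) := by
    rw [← hd]
    exact Cfsg.Agent.Lib.CharExtra.isDefectGroup_conj hD' d
  refine ⟨B, hB, hD, hind, ?_⟩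
  ext χ
  constructor
  · rintro ⟨u, hu, hne⟩
    by_contra hnot
    exact hne (Dc_zero_of_induced hx hK hC hM θ hind χ hnot u hu)
  · intro hχ
    exact block_support hM hx hsyl hK hC hT hB hD hind hχ

/-- The members of a block of positive defect have degree prime to `p`. -/
theorem deg_not_dvd_of_mem {T : Subgroup G} [Fintype T] {B : Set (IrrCharacter G)} {θ₀ : IrrCharacter K}
    (hM : IsPModular p M) (hx : orderOf x = p) (hsyl : ¬ p ^ 2 ∣ Nat.card G) (hK : CompK x p K)
    (hC : ∀ g, g ∈ C ↔ Commute g x) (hT : IsStabT x θ₀ T) (hB : IsPBlock M B)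
    (hD : IsDefectGroup p M B (zpowers x)) (hind : IsInducedBlock M C (Amu (le_C_of_compK hK hC) θ₀) B)
    {χ : IrrCharacter G} (hχ : χ ∈ B) : ¬ p ∣ charDegree (χ : G → ℂ) := by
  classical
  have hpr := hp.out
  have hCx := cen_eq hC
  have hTN : T ≤ normalizer ((zpowers x : Subgroup G) : Set G) := fun t ht => ((hT t).mp ht).1
  have hCT : C ≤ T := C_le_T hK hC hT
  have hCN : C ≤ normalizer ((zpowers x : Subgroup G) : Set G) := C_le_N hC
  have hcardT : Nat.card T = C.relIndex T * Nat.card (centralizer ({x} : Set G)) := by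
    rw [← hCx, ← Subgroup.relIndex_bot_left, ← Subgroup.relIndex_bot_left,
        mul_comm, Subgroup.relIndex_mul_relIndex _ _ _ bot_le hCT]
  have hcardN : Nat.card (normalizer ((zpowers x : Subgroup G) : Set G)) =
      C.relIndex (normalizer ((zpowers x : Subgroup G) : Set G)) * Nat.card (centralizer ({x} : Set G)) := by
    rw [← hCx, ← Subgroup.relIndex_bot_left, ← Subgroup.relIndex_bot_left,
        mul_comm, Subgroup.relIndex_mul_relIndex _ _ _ bot_le hCN]
  set e := C.relIndex T with he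
  set f := C.relIndex (normalizer ((zpowers x : Subgroup G) : Set G)) with hf
  obtain ⟨-, -, X, Y, hBeq, -, -, -, hX, ⟨ε, hε, hY⟩, -⟩ :=
    block_theta_main hM hx hsyl hK hC hT hB hD hind e f hcardT hcardN
  have hpC : p ∣ Nat.card (centralizer ({x} : Set G)) := by
    rw [← hx]
    have h1 : orderOf (⟨x, (by rw [Subgroup.mem_centralizer_singleton_iff]) ⟩ : centralizer ({x} : Set G)) = orderOf x :=
      Subgroup.orderOf_mk _ _
    rw [← h1]
    exact orderOf_dvd_natCard _
  have hfnd : ¬ p ∣ f := by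
    intro h
    apply hsyl
    have h1 := Subgroup.card_subgroup_dvd_card (normalizer ((zpowers x : Subgroup G) : Set G))
    rw [hcardN] at h1
    rw [pow_two]
    exact (Nat.mul_dvd_mul h hpC).trans h1
  have hdnd : ¬ p ∣ charDegree (θ₀ : K → ℂ) := fun h => hK.ndvd (h.trans (charDegree_dvd_card θ₀.2))
  have hef : f / e ∣ f := Nat.div_dvd_of_dvd (by
    rw [he, hf]
    exact ⟨T.relIndex (normalizer ((zpowers x : Subgroup G) : Set G)), by
      rw [Subgroup.relIndex_mul_relIndex _ _ _ hCT hTN]⟩)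
  have hpr2 := Nat.Prime.prime hpr
  have hfed : ¬ p ∣ f / e * charDegree (θ₀ : K → ℂ) := by
    intro h
    rcases hpr2.dvd_or_dvd h with h | h
    · exact hfnd (h.trans hef)
    · exact hdnd h
  have hfd : ¬ p ∣ f * charDegree (θ₀ : K → ℂ) := by
    intro h
    rcases hpr2.dvd_or_dvd h with h | h
    · exact hfnd h
    · exact hdnd h
  intro hdvd
  have hdvd' : (p : ℤ) ∣ (charDegree (χ : G → ℂ) : ℤ) := by exact_mod_cast hdvd
  have key : ∀ A : ℤ, (charDegree (χ : G → ℂ) : ℤ) ≡ A [ZMOD p] → (p : ℤ) ∣ A := by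
    intro A h
    have h1 := dvd_add h.dvd hdvd'
    simpa using h1
  rw [hBeq] at hχ
  rcases hχ with hχ | hχ
  · rcases hX χ hχ with h | h
    · apply hfed
      exact_mod_cast key _ h
    · apply hfed
      have h1 := key _ h
      rw [dvd_neg] at h1
      exact_mod_cast h1
  · have h1 := key _ (hY χ hχ)
    apply hfd
    rcases hε with rfl | rfl
    · rw [one_mul] at h1
      exact_mod_cast h1
    · rw [neg_mul, one_mul, dvd_neg] at h1
      exact_mod_cast h1

/-- A character of degree prime to `p` lies in one of the blocks attached to characters of `K`. -/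
theorem exists_theta_of_deg (hM : IsPModular p M) (hx : orderOf x = p) (hsyl : ¬ p ^ 2 ∣ Nat.card G)
    (hK : CompK x p K) (hC : ∀ g, g ∈ C ↔ Commute g x) {χ : IrrCharacter G} (hχ : ¬ p ∣ charDegree (χ : G → ℂ)) :
    ∃ θ : IrrCharacter K, χ ∈ Bth x θ := by
  classical
  have hpr := hp.out
  have := isPModular_isPrime hM
  have hdiv : p ∣ Nat.card G := by
    rw [← hx]
    exact orderOf_dvd_natCard x
  have hfac : (Nat.card G).factorization p = 1 := by
    obtain ⟨m, hm⟩ := hdiv
    have hm0 : 0 < m := by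
      rcases Nat.eq_zero_or_pos m with h | h
      · rw [h, mul_zero] at hm
        exact absurd hm Nat.card_pos.ne'
      · exact h
    have hpm : ¬ p ∣ m := by
      intro h
      apply hsyl
      rw [hm, pow_two]
      exact Nat.mul_dvd_mul_left p h
    rw [hm, Nat.factorization_mul hpr.ne_zero hm0.ne']
    simp [hpr.factorization_self, Nat.factorization_eq_zero_of_not_dvd hpm]
  have hB : IsPBlock M (blockOf M (χ : G → ℂ)) := isPBlock_blockOf χ
  have hpos : 0 < Cfsg.blockDefect p (blockOf M (χ : G → ℂ)) := by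
    unfold Cfsg.blockDefect
    rw [hfac]
    have h1 : sInf ((fun ψ : IrrCharacter G => (charDegree (ψ : G → ℂ)).factorization p) '' blockOf M (χ : G → ℂ)) ≤
        (charDegree (χ : G → ℂ)).factorization p := Nat.sInf_le ⟨χ, mem_blockOf_self χ, rfl⟩
    rw [Nat.factorization_eq_zero_of_not_dvd hχ] at h1
    omega
  obtain ⟨x', hx', hD'⟩ := exists_block_data hM hdiv hsyl hB hpos
  obtain ⟨d, hd⟩ := exists_conj_zpowers (x := x) (x' := x') hx hx' hsyl
  have hD : IsDefectGroup p M (blockOf M (χ : G → ℂ)) (zpowers x) := by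
    rw [← hd]
    exact Cfsg.Agent.Lib.CharExtra.isDefectGroup_conj hD' d
  have hPC : zpowers x ≤ C := by
    rw [Subgroup.zpowers_le]
    exact (hC x).mpr (Commute.refl x)
  have hCP : centralizer ((zpowers x : Subgroup G) : Set G) ≤ C := by
    intro y hy
    rw [Subgroup.mem_centralizer_iff] at hy
    exact (hC y).mpr (hy x (Subgroup.mem_zpowers x)).symm
  obtain ⟨b, -, hind⟩ := exists_block_inducing_defect hM
    (IsPGroup.of_card (n := 1) (by rw [Nat.card_zpowers, hx, pow_one])) hB hD hPC hCP (C_le_N hC)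
  obtain ⟨ξ, hξ⟩ := IsPBlock_nonempty hind.1
  obtain ⟨θ₀, hθ₀⟩ := exists_mu_of_xi hx hK hC ξ
  have hbA : b = Amu (le_C_of_compK hK hC) θ₀ :=
    (blockOf_eq_of_mem hind.1 hξ).trans (blockOf_eq_of_mem (Amu_isPBlock hx hK hC hM θ₀) hθ₀).symm
  subst hbA
  obtain ⟨T, hT⟩ := exists_stabT hK θ₀
  letI : Fintype T := Fintype.ofFinite _
  exact ⟨θ₀, block_support hM hx hsyl hK hC hT hB hD hind (mem_blockOf_self χ)⟩

/-- Conjugate characters of `K` give the same set. -/
theorem Bth_thConj (hK : CompK x p K) (θ : IrrCharacter K) {n : G}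
    (hn : n ∈ normalizer ((zpowers x : Subgroup G) : Set G)) :
    Bth x (thConj hK n hn θ) = (Bth x θ : Set (IrrCharacter G)) := by
  ext χ
  constructor
  · rintro ⟨u, hu, hne⟩
    rw [Dc_thConj hK χ θ hn] at hne
    have hvm : n * u * n⁻¹ ∈ zpowers x := (Subgroup.mem_normalizer_iff.mp hn _).mp u.2
    refine ⟨⟨n * u * n⁻¹, hvm⟩, ?_, hne⟩
    intro h0
    apply hu
    have h4 : n * (u : G) * n⁻¹ = 1 := congrArg Subtype.val h0
    have h5 : (u : G) = 1 := by
      have : (u : G) = n⁻¹ * (n * u * n⁻¹) * n := by group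
      rw [this, h4]
      group
    exact Subtype.ext h5
  · rintro ⟨v, hv, hne⟩
    have hum : n⁻¹ * v * n ∈ zpowers x := by
      have h1 := (Subgroup.mem_normalizer_iff.mp (inv_mem hn) (v : G)).mp v.2
      simpa using h1
    refine ⟨⟨n⁻¹ * v * n, hum⟩, ?_, ?_⟩
    · intro h0
      apply hv
      have h4 : n⁻¹ * (v : G) * n = 1 := congrArg Subtype.val h0
      have h5 : (v : G) = 1 := by
        have : (v : G) = n * (n⁻¹ * v * n) * n⁻¹ := by group
        rw [this, h4]
        group
      exact Subtype.ext h5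
    · rw [Dc_thConj hK χ θ hn]
      have h6 : n * ((⟨n⁻¹ * v * n, hum⟩ : zpowers x) : G) * n⁻¹ = v := by
        show n * (n⁻¹ * v * n) * n⁻¹ = v
        group
      rw [h6]
      exact hne

theorem orbK_eq_of_mem (hK : CompK x p K) {θ μ : IrrCharacter K} (h : μ ∈ orbK hK θ) : orbK hK μ = orbK hK θ := by
  obtain ⟨n, hn, rfl⟩ := (mem_orbK hK θ μ).mp h
  ext ν
  rw [mem_orbK, mem_orbK]
  constructor
  · rintro ⟨m, hm, rfl⟩
    exact ⟨n * m, mul_mem hn hm, (thConj_mul hK hn hm (mul_mem hn hm) θ).symm⟩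
  · rintro ⟨m, hm, rfl⟩
    refine ⟨n⁻¹ * m, mul_mem (inv_mem hn) hm, ?_⟩
    rw [← thConj_mul hK hn (mul_mem (inv_mem hn) hm) (mul_mem hn (mul_mem (inv_mem hn) hm)) θ]
    congr 1
    group

open Classical in
/-- **Counting the characters of degree prime to `p`.** -/
theorem count_pprime (hM : IsPModular p M) (hx : orderOf x = p) (hsyl : ¬ p ^ 2 ∣ Nat.card G)
    (hK : CompK x p K) (hC : ∀ g, g ∈ C ↔ Commute g x) (T : IrrCharacter K → Subgroup G)
    (hT : ∀ θ, IsStabT x θ (T θ)) :
    Nat.card {χ : IrrCharacter G // ¬ p ∣ charDegree (χ : G → ℂ)} *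
        Nat.card (normalizer ((zpowers x : Subgroup G) : Set G)) * Nat.card C =
      ∑ θ : IrrCharacter K, (Nat.card (T θ) ^ 2 + (p - 1) * Nat.card C ^ 2) := by
  have hpr := hp.out
  have hCx := cen_eq hC
  have hCN : C ≤ normalizer ((zpowers x : Subgroup G) : Set G) := C_le_N hC
  have hcardN : Nat.card (normalizer ((zpowers x : Subgroup G) : Set G)) =
      C.relIndex (normalizer ((zpowers x : Subgroup G) : Set G)) * Nat.card C := by
    rw [← Subgroup.relIndex_bot_left, ← Subgroup.relIndex_bot_left,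
        mul_comm, Subgroup.relIndex_mul_relIndex _ _ _ bot_le hCN]
  have hcardT : ∀ θ, Nat.card (T θ) = C.relIndex (T θ) * Nat.card C := by
    intro θ
    rw [← Subgroup.relIndex_bot_left, ← Subgroup.relIndex_bot_left,
        mul_comm, Subgroup.relIndex_mul_relIndex _ _ _ bot_le (C_le_T hK hC (hT θ))]
  set f := C.relIndex (normalizer ((zpowers x : Subgroup G) : Set G)) with hf
  set E : IrrCharacter K → ℕ := fun θ => C.relIndex (T θ) with hE
  have hC0 : 0 < Nat.card C := Nat.card_pos
  -- the count of a block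
  have hBth : ∀ θ, E θ ∣ p - 1 ∧ (Finset.univ.filter (fun χ => χ ∈ (Bth x θ : Set (IrrCharacter G)))).card = E θ + (p - 1) / E θ := by
    intro θ
    letI : Fintype (T θ) := Fintype.ofFinite _
    obtain ⟨B, hB, hD, hind, hBB⟩ := exists_block_theta hM hx hsyl hK hC (hT θ)
    have h1 : Nat.card (T θ) = E θ * Nat.card (centralizer ({x} : Set G)) := by
      rw [← hCx]
      exact hcardT θ
    have h2 : Nat.card (normalizer ((zpowers x : Subgroup G) : Set G)) = f * Nat.card (centralizer ({x} : Set G)) := by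
      rw [← hCx]
      exact hcardN
    obtain ⟨h3, h4, -⟩ := block_theta_main hM hx hsyl hK hC (hT θ) hB hD hind (E θ) f h1 h2
    refine ⟨h3, ?_⟩
    rw [← h4, hBB, ← Nat.card_eq_finsetCard]
    exact Nat.card_congr (Equiv.subtypeEquivRight (fun χ => by simp))
  have hE0 : ∀ θ, 0 < E θ := by
    intro θ
    rcases Nat.eq_zero_or_pos (E θ) with h | h
    · have h1 := hcardT θ
      have h2 : C.relIndex (T θ) = 0 := h
      rw [h2, zero_mul] at h1
      exact absurd h1 Nat.card_pos.ne'
    · exact h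
  have hmem : ∀ θ : IrrCharacter K, ∀ χ ∈ (Bth x θ : Set (IrrCharacter G)), ¬ p ∣ charDegree (χ : G → ℂ) := by
    intro θ χ hχ
    letI : Fintype (T θ) := Fintype.ofFinite _
    obtain ⟨B, hB, hD, hind, hBB⟩ := exists_block_theta hM hx hsyl hK hC (hT θ)
    rw [hBB] at hχ
    exact deg_not_dvd_of_mem hM hx hsyl hK hC (hT θ) hB hD hind hχ
  have horb : ∀ θ μ : IrrCharacter K, ∀ χ ∈ (Bth x θ : Set (IrrCharacter G)), χ ∈ (Bth x μ : Set (IrrCharacter G)) → μ ∈ orbK hK θ := by
    intro θ μ χ hχ hχ'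
    letI : Fintype (T θ) := Fintype.ofFinite _
    obtain ⟨B, hB, hD, hind, hBB⟩ := exists_block_theta hM hx hsyl hK hC (hT θ)
    rw [hBB] at hχ
    obtain ⟨u, hu, hne⟩ := hχ'
    obtain ⟨n, hn, rfl⟩ := conj_of_Dc_ne hx hK hC hM hB hD hind μ χ hχ u hu hne
    exact (mem_orbK hK θ _).mpr ⟨n, hn, rfl⟩
  have hBeq : ∀ θ μ : IrrCharacter K, μ ∈ orbK hK θ → (Bth x μ : Set (IrrCharacter G)) = Bth x θ := by
    intro θ μ h
    obtain ⟨n, hn, rfl⟩ := (mem_orbK hK θ μ).mp h
    exact Bth_thConj hK θ hn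
  have hEorb : ∀ θ μ : IrrCharacter K, μ ∈ orbK hK θ → f = (orbK hK θ).card * E μ := by
    intro θ μ h
    have h1 := card_normalizer_orb hK (hT μ)
    rw [orbK_eq_of_mem hK h, hcardT μ, hcardN, ← mul_assoc] at h1
    exact Nat.eq_of_mul_eq_mul_right hC0 h1
  let A : Finset (IrrCharacter G) := Finset.univ.filter fun χ => ¬ p ∣ charDegree (χ : G → ℂ)
  have hfib : ∀ χ ∈ A, ∑ θ : IrrCharacter K, (if χ ∈ (Bth x θ : Set (IrrCharacter G)) then E θ else 0) = f := by
    intro χ hχ
    obtain ⟨θ₀, hθ₀⟩ := exists_theta_of_deg hM hx hsyl hK hC (Finset.mem_filter.mp hχ).2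
    have h1 : ∀ θ : IrrCharacter K, (if χ ∈ (Bth x θ : Set (IrrCharacter G)) then E θ else 0) =
        if θ ∈ orbK hK θ₀ then E θ₀ else 0 := by
      intro θ
      by_cases h : θ ∈ orbK hK θ₀
      · rw [if_pos h, if_pos (by rw [hBeq θ₀ θ h]; exact hθ₀)]
        have h2 := hEorb θ₀ θ h
        have h3 := hEorb θ₀ θ₀ ((mem_orbK hK θ₀ θ₀).mpr ⟨1, one_mem _, (thConj_self_one hK _ _).symm⟩)
        have h4 : 0 < (orbK hK θ₀).card := Finset.card_pos.mpr ⟨θ, h⟩
        exact Nat.eq_of_mul_eq_mul_left h4 (h2.symm.trans h3)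
      · rw [if_neg h, if_neg (fun h' => h (horb θ₀ θ χ hθ₀ h'))]
    rw [Finset.sum_congr rfl (fun θ _ => h1 θ), Finset.sum_ite_mem, Finset.univ_inter, Finset.sum_const, smul_eq_mul]
    exact (hEorb θ₀ θ₀ ((mem_orbK hK θ₀ θ₀).mpr ⟨1, one_mem _, (thConj_self_one hK _ _).symm⟩)).symm
  have hdouble : ∑ θ : IrrCharacter K, (Finset.univ.filter (fun χ => χ ∈ (Bth x θ : Set (IrrCharacter G)))).card * E θ = A.card * f := by
    have h1 : ∀ θ : IrrCharacter K, (Finset.univ.filter (fun χ => χ ∈ (Bth x θ : Set (IrrCharacter G)))).card * E θ =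
        ∑ χ ∈ A, (if χ ∈ (Bth x θ : Set (IrrCharacter G)) then E θ else 0) := by
      intro θ
      rw [← smul_eq_mul, ← Finset.sum_const]
      rw [Finset.sum_filter]
      symm
      apply Finset.sum_subset (Finset.subset_univ _)
      intro χ _ hχ
      rw [if_neg]
      intro h
      exact hχ (Finset.mem_filter.mpr ⟨Finset.mem_univ _, hmem θ χ h⟩)
    simp only [h1]
    rw [Finset.sum_comm, Finset.sum_congr rfl hfib, Finset.sum_const, smul_eq_mul]
  have hA : Nat.card {χ : IrrCharacter G // ¬ p ∣ charDegree (χ : G → ℂ)} = A.card := by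
    rw [← Nat.card_eq_finsetCard]
    exact Nat.card_congr (Equiv.subtypeEquivRight (fun χ => by simp [A]))
  rw [hA, hcardN]
  have h2 : ∀ θ : IrrCharacter K, Nat.card (T θ) ^ 2 + (p - 1) * Nat.card C ^ 2 =
      ((Finset.univ.filter (fun χ => χ ∈ (Bth x θ : Set (IrrCharacter G)))).card * E θ) * Nat.card C ^ 2 := by
    intro θ
    rw [(hBth θ).2, hcardT θ, add_mul, Nat.div_mul_cancel (hBth θ).1]
    show (E θ * Nat.card C) ^ 2 + _ = (E θ * E θ + (p - 1)) * Nat.card C ^ 2
    ring
  rw [Finset.sum_congr rfl (fun θ _ => h2 θ), ← Finset.sum_mul, hdouble]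
  ring

end Count

section Final

variable {G : Type u} [Group G] [Fintype G] {p : ℕ} {x : G} [hp : Fact p.Prime]

/-- **The number of characters of degree prime to `p`** equals the number of classes of the normalizer. -/
theorem kprime_eq (hx : orderOf x = p) (hsyl : ¬ p ^ 2 ∣ Nat.card G) :
    Nat.card {χ : IrrCharacter G // ¬ p ∣ charDegree (χ : G → ℂ)} =
      Nat.card (ConjClasses (normalizer ((zpowers x : Subgroup G) : Set G))) := by
  classical
  have hpr := hp.out
  obtain ⟨M, hM⟩ := Cfsg.Agent.Lib.Char.exists_isPModular p hpr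
  have := isPModular_isPrime hM
  obtain ⟨K, hK⟩ := exists_compK (G := G) (p := p) hx hsyl
  letI : Fintype K := Fintype.ofFinite _
  let C : Subgroup G := centralizer ({x} : Set G)
  letI : Fintype C := Fintype.ofFinite _
  letI : Fintype (zpowers x) := Fintype.ofFinite _
  have hC : ∀ y, y ∈ C ↔ Commute y x := by
    intro y
    show y ∈ centralizer ({x} : Set G) ↔ _
    rw [Subgroup.mem_centralizer_singleton_iff]
    rfl
  have hKC := le_C_of_compK hK hC
  have hCN : C ≤ normalizer ((zpowers x : Subgroup G) : Set G) := C_le_N hC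
  have hKN : K ≤ normalizer ((zpowers x : Subgroup G) : Set G) := hKC.trans hCN
  let N : Subgroup G := normalizer ((zpowers x : Subgroup G) : Set G)
  letI : Fintype N := Fintype.ofFinite _
  let xH : N := ⟨x, Subgroup.le_normalizer (mem_zpowers x)⟩
  have hxH : orderOf xH = p := by
    rw [← hx]
    exact Subgroup.orderOf_mk _ _
  have hcoe : ∀ k : ℤ, ((xH ^ k : N) : G) = x ^ k := fun k => by simp [xH]
  have hmemZ : ∀ y : N, y ∈ zpowers xH ↔ (y : G) ∈ zpowers x := by
    intro y
    rw [Subgroup.mem_zpowers_iff, Subgroup.mem_zpowers_iff]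
    constructor
    · rintro ⟨k, rfl⟩
      exact ⟨k, (hcoe k).symm⟩
    · rintro ⟨k, hk⟩
      exact ⟨k, Subtype.ext ((hcoe k).trans hk)⟩
  have hsylH : ¬ p ^ 2 ∣ Nat.card N := fun h => hsyl (h.trans (Subgroup.card_subgroup_dvd_card N))
  have hcomm : ∀ g : N, Commute g xH ↔ Commute (g : G) x := by
    intro g
    constructor
    · intro h
      exact congrArg Subtype.val h
    · intro h
      exact Subtype.ext h
  let KH : Subgroup N := K.subgroupOf N
  letI : Fintype KH := Fintype.ofFinite _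
  let e₀ : KH ≃* K := Subgroup.subgroupOfEquivOfLe hKN
  have hKH : CompK xH p KH := by
    refine ⟨fun c hc => (hcomm c).mpr (hK.comm _ hc), ?_, ?_, ?_⟩
    · intro y hy
      obtain ⟨j, c, hc, hjc⟩ := hK.decomp (y : G) ((hcomm y).mp hy)
      refine ⟨j, ⟨c, hKN hc⟩, hc, Subtype.ext ?_⟩
      simpa [xH] using hjc
    · rw [show Nat.card KH = Nat.card K from Nat.card_congr e₀.toEquiv]
      exact hK.ndvd
    · intro y hy hy'
      exact hK.reg (y : G) ((hcomm y).mp hy) (by rwa [Subgroup.orderOf_coe])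
  let CH : Subgroup N := C.subgroupOf N
  letI : Fintype CH := Fintype.ofFinite _
  have hCH : ∀ g : N, g ∈ CH ↔ Commute g xH := by
    intro g
    rw [hcomm, ← hC]
    rfl
  obtain ⟨T, hT⟩ : ∃ T : IrrCharacter K → Subgroup G, ∀ θ, IsStabT x θ (T θ) :=
    ⟨fun θ => (exists_stabT hK θ).choose, fun θ => (exists_stabT hK θ).choose_spec⟩
  let TH : IrrCharacter KH → Subgroup N := fun θ => (T (pull e₀.symm θ)).subgroupOf N
  have hNtop : ∀ g : N, g ∈ normalizer ((zpowers xH : Subgroup N) : Set N) := by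
    intro g
    rw [Subgroup.mem_normalizer_iff]
    intro y
    rw [hmemZ, hmemZ]
    exact Subgroup.mem_normalizer_iff.mp g.2 (y : G)
  have hTH : ∀ θ, IsStabT xH θ (TH θ) := by
    intro θ g
    constructor
    · intro hg
      refine ⟨hNtop g, fun k k' hk => ?_⟩
      have h1 : (g : G) ∈ T (pull e₀.symm θ) := hg
      have h2 := ((hT _ _).mp h1).2 (e₀ k) (e₀ k') (by
        show ((k' : N) : G) = (g : G) * ((k : N) : G) * (g : G)⁻¹
        rw [hk]
        rfl)
      simpa [pull_coe] using h2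
    · rintro ⟨-, h⟩
      show (g : G) ∈ T (pull e₀.symm θ)
      rw [hT]
      refine ⟨g.2, fun k k' hk => ?_⟩
      have h2 := h (e₀.symm k) (e₀.symm k') (by
        apply Subtype.ext
        show (((e₀.symm k' : KH) : N) : G) = (g : G) * ((e₀.symm k : KH) : N) * (g : G)⁻¹
        have h3 : ∀ l : K, (((e₀.symm l : KH) : N) : G) = l := fun l => by
          have := congrArg Subtype.val (e₀.apply_symm_apply l)
          exact this
        rw [h3, h3]
        exact hk)
      exact h2
  haveI : Fintype (zpowers xH) := Fintype.ofFinite _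
  have hG := count_pprime hM hx hsyl hK hC T hT
  have hH := count_pprime hM hxH hsylH hKH hCH TH hTH
  have hcN : Nat.card (normalizer ((zpowers xH : Subgroup N) : Set N)) = Nat.card N := by
    have h1 : normalizer ((zpowers xH : Subgroup N) : Set N) = ⊤ := by
      rw [eq_top_iff]
      intro g _
      exact hNtop g
    rw [h1]
    exact Nat.card_congr Subgroup.topEquiv.toEquiv
  have hcC : Nat.card CH = Nat.card C := Nat.card_congr (Subgroup.subgroupOfEquivOfLe hCN).toEquiv
  have hcT : ∀ θ, Nat.card (TH θ) = Nat.card (T (pull e₀.symm θ)) := by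
    intro θ
    have hle : T (pull e₀.symm θ) ≤ N := fun t ht => ((hT _ t).mp ht).1
    exact Nat.card_congr (Subgroup.subgroupOfEquivOfLe hle).toEquiv
  let φ : IrrCharacter KH ≃ IrrCharacter K :=
    { toFun := pull e₀.symm
      invFun := pull e₀
      left_inv := fun θ => Subtype.ext (funext fun k => by simp [pull_coe])
      right_inv := fun θ => Subtype.ext (funext fun k => by simp [pull_coe]) }
  have hsum : ∑ θ : IrrCharacter KH, (Nat.card (TH θ) ^ 2 + (p - 1) * Nat.card CH ^ 2) =
      ∑ θ : IrrCharacter K, (Nat.card (T θ) ^ 2 + (p - 1) * Nat.card C ^ 2) := by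
    refine Eq.trans ?_ (Equiv.sum_comp φ (fun θ : IrrCharacter K => Nat.card (T θ) ^ 2 + (p - 1) * Nat.card C ^ 2))
    refine Finset.sum_congr rfl fun θ _ => ?_
    rw [hcT, hcC]
    rfl
  rw [hsum, hcN, hcC, ← hG] at hH
  have hN0 : 0 < Nat.card N := Nat.card_pos
  have hC0 : 0 < Nat.card C := Nat.card_pos
  have hAeq := Nat.eq_of_mul_eq_mul_right hN0 (Nat.eq_of_mul_eq_mul_right hC0 hH)
  have hall : ∀ χ : IrrCharacter N, ¬ p ∣ charDegree (χ : N → ℂ) := by
    intro χ hdvd
    have hnd : ¬ p ∣ Nat.card N / charDegree (χ : N → ℂ) := by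
      obtain ⟨k, hk⟩ := charDegree_dvd_card χ.2
      have hpos := charDegree_pos_of_irr χ.2
      intro h2'
      apply hsylH
      rw [hk, Nat.mul_div_cancel_left _ hpos] at h2'
      rw [hk, pow_two]
      exact Nat.mul_dvd_mul hdvd h2'
    have hblock := blockOf_eq_singleton_of_not_dvd hM χ hnd
    have hB : IsPBlock M (blockOf M (χ : N → ℂ)) := isPBlock_blockOf χ
    obtain ⟨D, hD⟩ := exists_isDefectGroup hM hB
    have hQn : (zpowers xH).Normal := by
      constructor
      intro y hy g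
      have h1 := (Subgroup.mem_normalizer_iff.mp (hNtop g) y).mp hy
      exact h1
    have hQp : IsPGroup p (zpowers xH : Subgroup N) :=
      IsPGroup.of_card (n := 1) (by rw [Nat.card_zpowers, hxH, pow_one])
    have hle := normal_le_defect hM hQp hB hD
    have hcD := card_defect_group hM hB hD
    have hdef : Cfsg.blockDefect p (blockOf M (χ : N → ℂ)) = 0 := by
      unfold Cfsg.blockDefect
      rw [hblock, Set.image_singleton, csInf_singleton]
      have hfacN : (Nat.card N).factorization p ≤ 1 := by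
        by_contra hcon
        apply hsylH
        have h1 : 2 ≤ (Nat.card N).factorization p := by omega
        exact (pow_dvd_pow p h1).trans (Nat.ordProj_dvd _ _)
      have h2 : 1 ≤ (charDegree (χ : N → ℂ)).factorization p :=
        (hpr.dvd_iff_one_le_factorization (charDegree_pos_of_irr χ.2).ne').mp hdvd
      omega
    rw [hdef, pow_zero] at hcD
    have h3 := Subgroup.card_le_of_le hle
    rw [hcD, Nat.card_zpowers, hxH] at h3
    have := hpr.two_le
    omega
  rw [← card_irr_eq_card_conjClasses, ← hAeq]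
  exact Nat.card_congr (Equiv.subtypeUnivEquiv hall)

end Final

end Cfsg.Agent.Lib.FF
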