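import Cfsg.Agent.Lib.FF.AbelPairs
import Cfsg.Agent.Lib.FF.CentInv
import Cfsg.Agent.Lib.BPair.Sambale2

/-!
# Blocks with Klein four defect group
-/

set_option autoImplicit false
set_option linter.unusedSectionVars false
set_option linter.unusedSimpArgs false
set_option linter.unusedVariables false
set_option linter.style.haveILetI false

open scoped ComplexConjugate
open Cfsg MonoidAlgebra
open Cfsg.Agent.Lib.Block Cfsg.Agent.Lib.Char Cfsg.Agent.Lib.CharExtra Cfsg.Agent.Lib.BPair

namespace Cfsg.Agent.Lib.FF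

attribute [local instance] Cfsg.Agent.Lib.BPair.subFintype

section Odd

variable {G : Type*} [Group G] [Fintype G]

/-- Odd automorphisms fixing an involution of a four-group are trivial. -/
theorem odd_fix_klein_sub (P : Subgroup G) (hsq : ∀ x ∈ P, x * x = 1)
    (hcomm : ∀ a ∈ P, ∀ b ∈ P, a * b = b * a)
    (hcard : Nat.card P = 4) {z : G} (hzP : z ∈ P) (hz1 : z ≠ 1) {g : G}
    (hg : ¬ 2 ∣ orderOf g) (hgP : ∀ y ∈ P, g * y * g⁻¹ ∈ P) (hgz : g * z * g⁻¹ = z)
    {y : G} (hy : y ∈ P) : g * y * g⁻¹ = y := by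
  classical
  by_cases hy1 : y = 1
  · subst hy1; simp
  by_cases hyz : y = z
  · subst hyz; exact hgz
  have hτ : ∀ w : G, (g * w * g⁻¹ = 1 ↔ w = 1) := by
    intro w
    constructor
    · intro h
      have : w = g⁻¹ * (g * w * g⁻¹) * g := by group
      rw [this, h]
      simp
    · rintro rfl
      simp
  have hzy : z * y ∈ P := P.mul_mem hzP hy
  have hzz : z * z = 1 := hsq z hzP
  -- the four elements
  have hne1 : z * y ≠ 1 := by
    intro h
    apply hyz
    have : y = z * z * y := by rw [hzz, one_mul]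
    rw [this, mul_assoc, h, mul_one]
  have hne2 : z * y ≠ z := by
    intro h
    exact hy1 (by simpa using h)
  have hne3 : z * y ≠ y := by
    intro h
    exact hz1 (by simpa using h)
  have hFin : (P : Set G).toFinset = {1, z, y, z * y} := by
    symm
    apply Finset.eq_of_subset_of_card_le
    · intro w hw
      simp only [Finset.mem_insert, Finset.mem_singleton] at hw
      rw [Set.mem_toFinset]
      rcases hw with rfl | rfl | rfl | rfl
      · exact P.one_mem
      · exact hzP
      · exact hy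
      · exact hzy
    · have h1 : (P : Set G).toFinset.card = 4 := by
        rw [Set.toFinset_card, ← hcard, Nat.card_eq_fintype_card]
        exact Fintype.card_congr (Equiv.refl _)
      rw [h1, Finset.card_insert_of_notMem, Finset.card_insert_of_notMem, Finset.card_insert_of_notMem,
        Finset.card_singleton]
      · simpa using hne3.symm
      · simp only [Finset.mem_insert, Finset.mem_singleton, not_or]
        exact ⟨Ne.symm hyz, Ne.symm hne2⟩
      · simp only [Finset.mem_insert, Finset.mem_singleton, not_or]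
        exact ⟨Ne.symm hz1, Ne.symm hy1, Ne.symm hne1⟩
  have hmem : ∀ w ∈ P, w = 1 ∨ w = z ∨ w = y ∨ w = z * y := by
    intro w hw
    have : w ∈ (P : Set G).toFinset := by
      rw [Set.mem_toFinset]
      exact hw
    rw [hFin] at this
    simpa using this
  -- `τ y` is `y` or `z y`
  have hτy : g * y * g⁻¹ = y ∨ g * y * g⁻¹ = z * y := by
    rcases hmem _ (hgP y hy) with h | h | h | h
    · exact absurd ((hτ y).1 h) hy1
    · exfalso
      apply hyz
      have : g * y * g⁻¹ = g * z * g⁻¹ := by rw [h, hgz]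
      exact mul_left_cancel (mul_right_cancel this)
    · exact Or.inl h
    · exact Or.inr h
  have hτmul : g * (z * y) * g⁻¹ = z * (g * y * g⁻¹) := by
    calc g * (z * y) * g⁻¹ = (g * z * g⁻¹) * (g * y * g⁻¹) := by group
      _ = z * (g * y * g⁻¹) := by rw [hgz]
  have hτ2 : g * (g * y * g⁻¹) * g⁻¹ = y := by
    rcases hτy with h | h
    · rw [h, h]
    · rw [h, hτmul, h, ← mul_assoc, hzz, one_mul]
  have hpow : ∀ j : ℕ, g ^ (2 * j) * y * (g ^ (2 * j))⁻¹ = y := by
    intro j
    induction j with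
    | zero => simp
    | succ j ih =>
      have e : g ^ (2 * (j + 1)) = g * g * g ^ (2 * j) := by
        rw [show 2 * (j + 1) = 2 + 2 * j by ring, pow_add, pow_two]
      rw [e]
      calc g * g * g ^ (2 * j) * y * (g * g * g ^ (2 * j))⁻¹
          = g * (g * (g ^ (2 * j) * y * (g ^ (2 * j))⁻¹) * g⁻¹) * g⁻¹ := by group
        _ = y := by rw [ih, hτ2]
  have hodd : Odd (orderOf g) := by
    rw [← Nat.not_even_iff_odd, even_iff_two_dvd]
    exact hg
  obtain ⟨j, hj⟩ := hodd
  have h1 := hpow j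
  have h2 : g ^ (2 * j + 1) = 1 := by rw [← hj, pow_orderOf_eq_one]
  have h3 : g ^ (2 * j) = g⁻¹ := by
    rw [pow_succ] at h2
    exact eq_inv_of_mul_eq_one_left h2
  rw [h3, inv_inv] at h1
  have h4 : g * y * g⁻¹ = g * (g⁻¹ * y * g) * g⁻¹ := by rw [h1]
  rw [h4]
  group

end Odd

section Main

variable {G : Type*} [Group G] [Fintype G] {M : Ideal AlgInt}

theorem klein_sq {P : Subgroup G} (hV : IsKleinFour P) : ∀ x ∈ P, x * x = 1 := by
  intro x hx
  have h1 := Monoid.pow_exponent_eq_one (⟨x, hx⟩ : P)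
  rw [IsKleinFour.exponent_two, pow_two] at h1
  exact congrArg Subtype.val h1

theorem klein_comm {P : Subgroup G} (hV : IsKleinFour P) : ∀ a ∈ P, ∀ b ∈ P, a * b = b * a := by
  have hsq := klein_sq hV
  intro a ha b hb
  have h1 := hsq a ha
  have h2 := hsq b hb
  have h3 := hsq _ (P.mul_mem ha hb)
  have ha' : a⁻¹ = a := inv_eq_of_mul_eq_one_left h1
  have hb' : b⁻¹ = b := inv_eq_of_mul_eq_one_left h2
  have h4 : (a * b)⁻¹ = a * b := inv_eq_of_mul_eq_one_left h3
  rw [mul_inv_rev, ha', hb'] at h4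
  exact h4.symm

/-- **Blocks with a Klein four defect group.** -/
theorem klein_block (hM : IsPModular 2 M) {B : Set (IrrCharacter G)} (hB : IsPBlock M B) {P : Subgroup G}
    (hPD : IsDefectGroup 2 M B P) (hV : IsKleinFour P) {c : Set (IrrCharacter (Cen P))}
    (hc : IsInducedBlock M (Cen P) c B) {T : Subgroup G}
    (hT : ∀ g : G, g ∈ T ↔ g ∈ Subgroup.normalizer (P : Set G) ∧ StabilizesBlock (Cen P) c g) :
    ((Cen P).relIndex T = 1 ∨ (Cen P).relIndex T = 3) ∧ Nat.card B = 4 ∧ blockRank 2 B = (Cen P).relIndex T := by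
  classical
  haveI : Fact (Nat.Prime 2) := ⟨Nat.prime_two⟩
  haveI hMp := isPModular_isPrime hM
  have hcard : Nat.card P = 4 := IsKleinFour.card_four
  have hsq := klein_sq hV
  have hab := klein_comm hV
  have hPp : IsPGroup 2 P := isPGroup_of_isDefectGroup hPD
  have hpair : IsBrauerPairOf 2 M B P c := isBrauerPairOf_of_induced hPp hc
  have hmax := isMaximal_of_defect hM hPD hpair
  have hPe := (isBrauerPairOf_iff.1 hmax.1).1
  -- defect
  have hdef : blockDefect 2 B = 2 := by
    have h1 := card_defect_group hM hB hPD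
    rw [hcard] at h1
    have h2 : (2 : ℕ) ^ 2 = 2 ^ blockDefect 2 B := by rw [← h1]; norm_num
    exact (Nat.pow_right_injective (le_refl 2) h2).symm
  -- freeness
  have hfree : ∀ g ∈ T, ∀ x ∈ P, x ≠ 1 → g * x * g⁻¹ = x → g ∈ Cen P := by
    intro g hg x hx hx1 hgx
    obtain ⟨a, b, hab', -, ⟨k, hk⟩, hbreg, ha, hb⟩ := exists_jordan (p := 2) g
    have hzT : Subgroup.zpowers g ≤ T := by
      rw [Subgroup.zpowers_le]
      exact hg
    have haC : a ∈ Cen P := by
      obtain ⟨h1, h2⟩ := (hT a).1 (hzT ha)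
      refine mem_cen_of_pElt hM hmax hab h1 h2 (k := k) ?_
      rw [← hk]
      exact pow_orderOf_eq_one a
    have hbC : b ∈ Cen P := by
      obtain ⟨h1, h2⟩ := (hT b).1 (hzT hb)
      obtain ⟨n, rfl⟩ := Subgroup.mem_zpowers_iff.1 hb
      have h3 : Commute g x := mul_inv_eq_iff_eq_mul.1 hgx
      have h4 : Commute (g ^ n) x := h3.zpow_left n
      have h5 : g ^ n * x * (g ^ n)⁻¹ = x := by
        rw [h4.eq]
        group
      rw [Subgroup.mem_centralizer_iff]
      intro y hy
      have h6 := odd_fix_klein_sub P hsq hab hcard hx hx1 hbreg (fun y hy => (Subgroup.mem_normalizer_iff.1 h1 y).1 hy) h5 hy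
      exact (mul_inv_eq_iff_eq_mul.1 h6).symm
    rw [← hab']
    exact Subgroup.mul_mem _ haC hbC
  -- the rank of the blocks of centralizers
  have hrank : ∀ x : G, (∃ k : ℕ, orderOf x = 2 ^ k) → x ≠ 1 → ∀ b : Set (IrrCharacter (Subgroup.centralizer ({x} : Set G))),
      IsInducedBlock M (Subgroup.centralizer ({x} : Set G)) b B → blockRank 2 b = 1 := by
    intro x hxk hx1 b hb
    have hxx : x * x = 1 := by
      have e1 : ∀ H : Subgroup G, H = Cen (Subgroup.zpowers x) → ∀ b : Set (IrrCharacter H), IsInducedBlock M H b B → x * x = 1 := by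
        rintro H rfl b hb
        obtain ⟨v, hv⟩ := exists_relV hM hmax (isBrauerPairOf_of_induced (isPGroup_zpowers_of_order hxk) hb)
        have hvP := hv.mem
        obtain ⟨g, rfl, -⟩ := hv
        have h1 := hsq _ hvP
        have h2 : x * x = g⁻¹ * ((g * x * g⁻¹) * (g * x * g⁻¹)) * g := by group
        rw [h2, h1]
        group
      exact e1 _ (centralizer_zpowers_eq x).symm b hb
    refine blockRank_eq_one_of_central_involution hM hb.1 (u := ⟨x, mem_centralizer_self x⟩) ?_ ?_ ?_ ?_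
    · rw [Subgroup.mem_center_iff]
      intro g
      apply Subtype.ext
      exact mem_centralizer_singleton.1 g.2
    · intro h
      exact hx1 (congrArg Subtype.val h)
    · exact Subtype.ext hxx
    · have := blockDefect_le_of_induced hM hb
      omega
  obtain ⟨t, hkl, hte⟩ := card_block_eq_add_pairs hM hB hmax hab hT hfree hrank
  rw [hcard] at hte
  -- the major subsection
  obtain ⟨u, huP, hu1⟩ : ∃ u ∈ P, u ≠ 1 := by
    rcases P.bot_or_exists_ne_one with h | h
    · rw [h] at hcard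
      simp at hcard
    · exact h
  have huk := order_of_mem_pGroup hPp huP
  obtain ⟨f, hf, hfd⟩ := exists_centralizer_block hM hB hPD huP (fun d hd => hab d hd u huP)
  have hfr := hrank u huk hu1 f hf
  obtain ⟨A, -, hA2, -, hA4, -, -⟩ := major_facts hM huk hf hfd
  rw [hfr, hdef] at hA4
  -- heights vanish
  have hh : ∀ χ ∈ B, blockHeight 2 B (χ : G → ℂ) = 0 := by
    intro χ hχ
    have := ((brauer_feit_height hM hB).2 χ hχ).2 (by omega)
    omega
  obtain ⟨Bf, hBf⟩ : ∃ Bf : Finset (IrrCharacter G), Bf = Finset.univ.filter (· ∈ B) := ⟨_, rfl⟩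
  have hmB : ∀ χ, χ ∈ Bf ↔ χ ∈ B := fun χ => by simp [hBf]
  rw [← hBf] at hA4
  have hk : Nat.card B = Bf.card := by
    rw [Nat.card_eq_fintype_card, Fintype.card_subtype, hBf]
  have hm : ∀ χ : IrrCharacter G, ∃ m : ℕ, χ ∈ B → Odd m ∧ A χ = m := by
    intro χ
    by_cases hχ : χ ∈ B
    · obtain ⟨m, h1, h2⟩ := hA2 χ hχ (hh χ hχ)
      exact ⟨m, fun _ => ⟨h1, h2⟩⟩
    · exact ⟨0, fun h => absurd h hχ⟩
  choose m hm using hm
  have hsum : ∑ χ ∈ Bf, m χ = 4 := by
    have h1 : ∑ χ ∈ Bf, A χ = ∑ χ ∈ Bf, (m χ : ℝ) :=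
      Finset.sum_congr rfl fun χ hχ => (hm χ ((hmB χ).1 hχ)).2
    rw [h1] at hA4
    have h2 : ((∑ χ ∈ Bf, m χ : ℕ) : ℝ) = ((4 : ℕ) : ℝ) := by
      push_cast
      rw [hA4]
      norm_num
    exact_mod_cast h2
  have hcardle : Bf.card ≤ 4 := by
    rw [← hsum, Finset.card_eq_sum_ones]
    refine Finset.sum_le_sum fun χ hχ => ?_
    exact ((hm χ ((hmB χ).1 hχ)).1).pos
  have heven : Even Bf.card := by
    have h1 : ∀ χ ∈ Bf, m χ % 2 = 1 := fun χ hχ => Nat.odd_iff.1 (hm χ ((hmB χ).1 hχ)).1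
    have h2 : (∑ χ ∈ Bf, m χ) % 2 = Bf.card % 2 := by
      rw [Finset.sum_nat_mod, Finset.sum_congr rfl h1]
      simp
    rw [hsum] at h2
    exact Nat.even_iff.2 (by omega)
  rw [hk] at hkl ⊢
  have hcases : (t = 3 ∧ (Cen P).relIndex T = 1) ∨ (t = 1 ∧ (Cen P).relIndex T = 3) := by
    have h1 : t ∣ 3 := ⟨_, hte.symm⟩
    have h2 := (Nat.dvd_prime Nat.prime_three).1 h1
    rcases h2 with rfl | rfl
    · right
      exact ⟨rfl, by simpa using hte⟩
    · left
      refine ⟨rfl, ?_⟩
      omega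
  rcases hcases with ⟨rfl, he⟩ | ⟨rfl, he⟩
  · refine ⟨Or.inl he, ?_, ?_⟩
    · obtain ⟨r, hr⟩ := heven
      omega
    · rw [he]
      obtain ⟨r, hr⟩ := heven
      omega
  · have hk4 : Bf.card = 4 := by
      by_contra hne
      have hk2 : Bf.card = 2 := by
        obtain ⟨r, hr⟩ := heven
        have hpos : 0 < blockRank 2 B + 1 := by omega
        omega
      have hl1 : blockRank 2 B = 1 := by omega
      obtain ⟨φ, d, -, hd, hsumd⟩ := exists_of_rank_one hM hB hl1
      rw [hdef] at hsumd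
      have hf1 : ∑ᶠ χ ∈ B, d χ ^ 2 = ∑ χ ∈ Bf, d χ ^ 2 := by
        rw [finsum_mem_irr, hBf, Finset.sum_filter]
      rw [hf1] at hsumd
      obtain ⟨χ₁, χ₂, h12, hBeq⟩ := Finset.card_eq_two.1 hk2
      rw [hBeq, Finset.sum_pair h12] at hsumd
      have hd0 : ∀ χ ∈ B, d χ ≠ 0 := by
        intro χ hχ h0
        have h1 := hd χ hχ 1 (by
          unfold IsPRegular
          simp)
        rw [h0] at h1
        simp only [Nat.cast_zero, zero_mul] at h1
        exact map_one_ne_zero_of_irr χ.2 h1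
      have h1 := hd0 χ₁ ((hmB _).1 (by rw [hBeq]; simp))
      have h2 := hd0 χ₂ ((hmB _).1 (by rw [hBeq]; simp))
      have h3 : d χ₁ ≤ 2 := by
        by_contra hc
        push Not at hc
        have : 3 ^ 2 ≤ d χ₁ ^ 2 := Nat.pow_le_pow_left hc 2
        omega
      have h4 : d χ₂ ≤ 2 := by
        by_contra hc
        push Not at hc
        have : 3 ^ 2 ≤ d χ₂ ^ 2 := Nat.pow_le_pow_left hc 2
        omega
      interval_cases (d χ₁) <;> interval_cases (d χ₂) <;> simp_all
    refine ⟨Or.inr he, hk4, ?_⟩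
    rw [he]
    omega

end Main

end Cfsg.Agent.Lib.FF
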