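import Cfsg.Agent.Lib.FF.KleinFormula
import Cfsg.Agent.Lib.CharExtra.FS
import Cfsg.Agent.Lib.Block.Real2

/-!
# Frobenius--Schur indicators in the principal block of a group with four-group Sylow subgroups
-/

set_option autoImplicit false
set_option linter.unusedSectionVars false
set_option linter.unusedSimpArgs false
set_option linter.unusedVariables false

open scoped ComplexConjugate
open Cfsg MonoidAlgebra Cfsg.Agent.Lib.Char Cfsg.Agent.Lib.Block

namespace Cfsg.Agent.Lib.FF

section FS

variable {G : Type*} [Group G] [Fintype G]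

open Cfsg.Agent.Lib.CharExtra

/-- A real irreducible character of odd degree has indicator `1`. -/
theorem fsInd_eq_one_of_odd (χ : IrrCharacter G) (hreal : ∀ g : G, ((χ : G → ℂ) g).im = 0)
    (hodd : Odd (charDegree (χ : G → ℂ))) : fsInd (χ : G → ℂ) = 1 := by
  rcases fsInd_of_real χ hreal with h | h
  · exact h
  · exfalso
    obtain ⟨χ, n, ρ, hρ, rfl⟩ := χ
    obtain ⟨⟨M, hne, hM⟩, hall⟩ := fs_form ρ hρ hreal
    have h1 := hall M hM
    have h2 : ((Nat.card G : ℂ)⁻¹ * ∑ s : G, ρ.character (s * s)) = -1 := h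
    rw [h2, neg_one_smul] at h1
    have hu := isUnit_of_isInvForm ρ hρ hM hne
    have hdet : M.det ≠ 0 := by
      have := (Matrix.isUnit_iff_isUnit_det M).1 hu
      exact this.ne_zero
    have h3 := congrArg Matrix.det h1
    rw [Matrix.det_transpose, Matrix.det_neg, Fintype.card_fin] at h3
    have hdeg : charDegree ρ.character = n := by
      have h4 := charDegree_natCast (Representation.char_one ρ)
      simpa using h4
    rw [hdeg] at hodd
    rw [hodd.neg_one_pow] at h3
    have h5 : (2 : ℂ) * M.det = 0 := by linear_combination h3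
    have h6 := (mul_eq_zero.1 h5).resolve_left (by norm_num)
    exact hdet h6

theorem fsInd_trivial : fsInd ((oneIrr G : IrrCharacter G) : G → ℂ) = 1 := by
  unfold fsInd
  rw [oneIrr_coe]
  simp only [Finset.sum_const, Finset.card_univ, nsmul_eq_mul, mul_one]
  rw [← Nat.card_eq_fintype_card]
  exact inv_mul_cancel₀ (by exact_mod_cast Nat.card_pos.ne')

open Classical in
/-- The number of square roots as a function. -/
noncomputable def sqrtFun : G → ℂ := fun g => ((Finset.univ.filter fun s : G => s * s = g).card : ℂ)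

theorem sqrtFun_eq_sum : (sqrtFun : G → ℂ) = ∑ χ : IrrCharacter G, fsInd (χ : G → ℂ) • (χ : G → ℂ) := by
  classical
  funext g
  rw [Finset.sum_apply]
  simp only [Pi.smul_apply, smul_eq_mul]
  rw [sum_fsInd_mul g]
  unfold sqrtFun
  congr 2

theorem isClassFunction_sqrtFun : IsClassFunction G (sqrtFun : G → ℂ) := by
  rw [sqrtFun_eq_sum]
  intro x y
  rw [Finset.sum_apply, Finset.sum_apply]
  refine Finset.sum_congr rfl fun χ _ => ?_
  simp only [Pi.smul_apply, smul_eq_mul]
  rw [IsCharacter.isClassFunction (IsIrrCharacter.isCharacter χ.2)]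

theorem classInner_sqrtFun (ψ : IrrCharacter G) : classInner (sqrtFun : G → ℂ) (ψ : G → ℂ) = fsInd (ψ : G → ℂ) := by
  classical
  rw [sqrtFun_eq_sum, classInner_sum_left]
  rw [Finset.sum_eq_single ψ]
  · rw [classInner_smul_left, classInner_irr_self ψ.2, mul_one]
  · intro χ _ hχ
    rw [classInner_smul_left, classInner_irr_of_ne χ.2 ψ.2 (fun h => hχ (Subtype.ext h)), mul_zero]
  · simp

theorem blockPart_sqrtFun {M : Ideal AlgInt} (B : Set (IrrCharacter G)) (g : G) :
    blockPart B (sqrtFun : G → ℂ) g = ∑ᶠ χ ∈ B, fsInd (χ : G → ℂ) * (χ : G → ℂ) g := by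
  unfold blockPart
  refine finsum_congr fun χ => finsum_congr fun _ => ?_
  rw [classInner_fintype_irrel (Fintype.ofFinite G) ‹_›, classInner_sqrtFun]

/-- A `2`-element of a group with Sylow subgroups of exponent two is an involution or trivial. -/
theorem two_element_sq (P : Sylow 2 G) (hsq : ∀ x ∈ (P : Subgroup G), x * x = 1) {a : G} (ha : ∃ k, orderOf a = 2 ^ k) :
    a * a = 1 := by
  have h5 : IsPGroup 2 (Subgroup.zpowers a) := isPGroup_zpowers_of_orderOf ha
  obtain ⟨Q, hQ⟩ := h5.exists_le_sylow
  obtain ⟨c, hc'⟩ := MulAction.exists_smul_eq G Q P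
  have h6 : c * a * c⁻¹ ∈ (P : Subgroup G) := by
    rw [← hc']
    refine ⟨a, hQ (Subgroup.mem_zpowers _), ?_⟩
    simp [MulAut.smul_def]
  have h7 := hsq _ h6
  have h8 : a * a = c⁻¹ * ((c * a * c⁻¹) * (c * a * c⁻¹)) * c := by group
  rw [h8, h7]
  simp

/-- Square roots do not exist for `2`-singular elements. -/
theorem sqrtFun_eq_zero_of_singular (P : Sylow 2 G) (hsq : ∀ x ∈ (P : Subgroup G), x * x = 1) {u z : G}
    (hu : IsPPart 2 u z) (hz : z ≠ 1) : (sqrtFun : G → ℂ) u = 0 := by
  classical
  unfold sqrtFun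
  have : (Finset.univ.filter fun s : G => s * s = u) = ∅ := by
    ext s
    simp only [Finset.mem_filter, Finset.mem_univ, true_and, Finset.notMem_empty, iff_false]
    intro hs
    obtain ⟨a, b, h1, h2, h3, h4, _, _⟩ := exists_jordan (p := 2) s
    have haa := two_element_sq P hsq h3
    have hss : s * s = b * b := by
      rw [← h1]
      calc a * b * (a * b) = a * (b * a) * b := by group
        _ = a * (a * b) * b := by rw [h2.eq]
        _ = (a * a) * (b * b) := by group
        _ = b * b := by rw [haa, one_mul]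
    have hbb : ¬ 2 ∣ orderOf (b * b) := by
      intro h
      rw [← pow_two] at h
      exact h4 (h.trans (orderOf_pow_dvd 2))
    have h5 : IsPPart 2 u 1 := ⟨u, one_mul u, Commute.one_left u, ⟨0, by simp⟩, by rw [← hs, hss]; exact hbb⟩
    exact hz (IsPPart_eq hu h5)
  rw [this]
  simp

/-- Frobenius--Schur in the principal block: the sum of indicators times the values at an involution vanishes. -/
theorem sum_fsInd_block_eq_zero {M : Ideal AlgInt} (hM : IsPModular 2 M) (P : Sylow 2 G)
    (hsq : ∀ x ∈ (P : Subgroup G), x * x = 1) {B : Set (IrrCharacter G)} (hB : IsBlockUnion M B)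
    {J : G} (hJ2 : orderOf J = 2) :
    ∑ᶠ χ ∈ B, fsInd (χ : G → ℂ) * (χ : G → ℂ) J = 0 := by
  have hJ1 : J ≠ 1 := by
    rintro rfl
    simp at hJ2
  have h := blockPart_eq_zero_of_section hM (sqrtFun : G → ℂ) isClassFunction_sqrtFun (x := J)
    (by
      intro u z hu hz
      refine sqrtFun_eq_zero_of_singular P hsq hu ?_
      rintro rfl
      obtain ⟨c, hc⟩ := isConj_iff.1 hz
      apply hJ1
      have : J = c⁻¹ * (c * J * c⁻¹) * c := by group
      rw [this, hc]
      simp)
    hB (u := J) (z := J) ⟨1, mul_one _, Commute.one_right _, ⟨1, by simpa using hJ2⟩, by simp⟩ (IsConj.refl J)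
  rwa [blockPart_sqrtFun (M := M)] at h

end FS

end Cfsg.Agent.Lib.FF
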