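import Cfsg.Agent.Lib.FF.KleinDefect
import Cfsg.Agent.Lib.FF.CycP4

/-!
# Blocks with Klein four defect group: the columns of the generalized decomposition matrix
-/

set_option autoImplicit false
set_option linter.unusedSectionVars false
set_option linter.unusedVariables false
set_option maxSynthPendingDepth 3
set_option linter.style.haveILetI false
set_option linter.unusedSimpArgs false
set_option linter.unnecessarySimpa false

open scoped ComplexConjugate
open Module Cfsg Cfsg.Agent.Lib.Block Cfsg.Agent.Lib.Char Cfsg.Agent.Lib.CharExtra Cfsg.Agent.Lib.BPair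

namespace Cfsg.Agent.Lib.FF

attribute [local instance] Cfsg.Agent.Lib.BPair.subFintype

section Col

variable {G : Type*} [Group G] [Fintype G] {M : Ideal AlgInt}

/-- A column: a vector of signs on the block orthogonal to the values at the regular elements. -/
def IsCol (B : Set (IrrCharacter G)) (F : IrrCharacter G → ℤ) : Prop :=
  (∀ χ ∈ B, F χ = 1 ∨ F χ = -1) ∧ (∀ χ, χ ∉ B → F χ = 0) ∧
    ∀ y : G, ¬ 2 ∣ orderOf y → ∑ χ : IrrCharacter G, (F χ : ℂ) * (χ : G → ℂ) y = 0

theorem exists_int_aa {u : G} (hu : u * u = 1) (χ : IrrCharacter G) (ξ : IrrCharacter (Subgroup.centralizer ({u} : Set G))) :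
    ∃ z : ℤ, aa u χ ξ = (z : ℂ) := by
  obtain ⟨ε, n, h1, h2, -, -⟩ := exists_eps_facts (N := 2) (by rw [pow_two, hu]) (by norm_num) χ ξ
  have h3 : ε = 1 ∨ ε = -1 := by
    have h4 : (ε - 1) * (ε + 1) = 0 := by ring_nf; rw [h2]; ring
    rcases mul_eq_zero.1 h4 with h5 | h5
    · exact Or.inl (sub_eq_zero.1 h5)
    · exact Or.inr (eq_neg_of_add_eq_zero_left h5)
  rcases h3 with rfl | rfl
  · exact ⟨n, by rw [h1]; simp⟩
  · exact ⟨-n, by rw [h1]; simp⟩

open Classical in
theorem col_of_subsection (hM : IsPModular 2 M) {B : Set (IrrCharacter G)} (hk : (Finset.univ.filter (· ∈ B)).card = 4)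
    (hh : ∀ χ ∈ B, blockHeight 2 B (χ : G → ℂ) = 0) {u : G} (hu : u * u = 1) (hu1 : u ≠ 1)
    {e : Set (IrrCharacter (Subgroup.centralizer ({u} : Set G)))}
    (hind : IsInducedBlock M (Subgroup.centralizer ({u} : Set G)) e B) (hq : blockDefect 2 e = blockDefect 2 B)
    (hd : blockDefect 2 B = 2) (hr : blockRank 2 e = 1) :
    ∃ (φ : Subgroup.centralizer ({u} : Set G) → ℂ) (D : IrrCharacter G → ℤ), IsCol B D ∧
      (∀ χ : IrrCharacter G, secF 2 u e (χ : G → ℂ) = (D χ : ℂ) • φ) ∧ (∀ c, MemLocalRing M (φ c)) ∧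
      (∀ c : Subgroup.centralizer ({u} : Set G), MemLocalRing M (4 * φ c / (Nat.card (Subgroup.centralizer ({c} : Set (Subgroup.centralizer ({u} : Set G)))) : ℂ))) := by
  have := isPModular_isPrime hM
  have he := hind.1
  have huk : ∃ k : ℕ, orderOf u = 2 ^ k := ⟨1, by
    have := orderOf_eq_prime (p := 2) (by rw [pow_two, hu]) hu1
    simpa using this⟩
  obtain ⟨φ₀, d, ⟨n, hn⟩, hdξ, hs⟩ := exists_of_rank_one hM he hr
  obtain ⟨φ, hφ⟩ : ∃ φ : Subgroup.centralizer ({u} : Set G) → ℂ, φ = pRegularPart 2 φ₀ := ⟨_, rfl⟩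
  have hφreg : ∀ c : Subgroup.centralizer ({u} : Set G), ¬ 2 ∣ orderOf c → φ c = φ₀ c := fun c hc => by
    rw [hφ, pRegularPart_eq_of_regular _ hc]
  have hφsing : ∀ c : Subgroup.centralizer ({u} : Set G), 2 ∣ orderOf c → φ c = 0 := fun c hc => by
    rw [hφ, pRegularPart_eq_zero_of_dvd _ hc]
  have hone : ¬ 2 ∣ orderOf (1 : Subgroup.centralizer ({u} : Set G)) := by simp
  have hdξ' : ∀ ξ ∈ e, ∀ c : Subgroup.centralizer ({u} : Set G), ¬ 2 ∣ orderOf c → (ξ : Subgroup.centralizer ({u} : Set G) → ℂ) c = (d ξ : ℂ) * φ c := by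
    intro ξ hξ c hc
    rw [hφreg c hc]
    exact hdξ ξ hξ c hc
  have hne1 : ∀ ξ ∈ e, (d ξ : ℂ) * φ 1 ≠ 0 := by
    intro ξ hξ
    rw [← hdξ' ξ hξ 1 hone]
    exact map_one_ne_zero_of_irr ξ.2
  have hφ1 : φ 1 ≠ 0 := by
    obtain ⟨ξ, hξ⟩ := IsPBlock_nonempty he
    exact right_ne_zero_of_mul (hne1 ξ hξ)
  have hpart : ∀ ξ ∈ e, pRegularPart 2 (ξ : Subgroup.centralizer ({u} : Set G) → ℂ) = (d ξ : ℂ) • φ := by
    intro ξ hξ
    funext c
    by_cases hc : 2 ∣ orderOf c
    · rw [pRegularPart_eq_zero_of_dvd _ hc]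
      simp [hφsing c hc]
    · rw [pRegularPart_eq_of_regular _ hc, hdξ' ξ hξ c hc]
      rfl
  obtain ⟨a₁, ha₁⟩ : ∃ a₁ : IrrCharacter (Subgroup.centralizer ({u} : Set G)) → ℤ, a₁ = fun ξ => if ξ ∈ e then (d ξ : ℤ) else 0 := ⟨_, rfl⟩
  have ha₁m : ∀ ξ, ξ ∈ e → a₁ ξ = d ξ := fun ξ h => by rw [ha₁]; exact if_pos h
  have ha₁n : ∀ ξ, ξ ∉ e → a₁ ξ = 0 := fun ξ h => by rw [ha₁]; exact if_neg h
  have hsum4 : ∑ ξ, a₁ ξ * a₁ ξ = 4 := by
    have h1 : ∑ᶠ χ ∈ e, d χ ^ 2 = 4 := by
      rw [hs, hq, hd]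
      norm_num
    rw [finsum_mem_irr] at h1
    have h2 : ((∑ ξ, if ξ ∈ e then d ξ ^ 2 else 0 : ℕ) : ℤ) = ∑ ξ, a₁ ξ * a₁ ξ := by
      push_cast
      refine Finset.sum_congr rfl fun ξ _ => ?_
      by_cases h : ξ ∈ e
      · rw [if_pos h, ha₁m ξ h]
        ring
      · rw [if_neg h, ha₁n ξ h]
        ring
    rw [← h2, h1]
    norm_num
  -- the projective character
  have hΦ1 : ∀ c : Subgroup.centralizer ({u} : Set G), ¬ 2 ∣ orderOf c → ∑ ξ, (a₁ ξ : ℂ) * (ξ : Subgroup.centralizer ({u} : Set G) → ℂ) c = 4 * φ c := by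
    intro c hc
    have h1 : ∀ ξ : IrrCharacter (Subgroup.centralizer ({u} : Set G)), (a₁ ξ : ℂ) * (ξ : Subgroup.centralizer ({u} : Set G) → ℂ) c = ((a₁ ξ * a₁ ξ : ℤ) : ℂ) * φ c := by
      intro ξ
      by_cases h : ξ ∈ e
      · rw [ha₁m ξ h, hdξ' ξ h c hc]
        push_cast
        ring
      · rw [ha₁n ξ h]
        simp
    simp only [h1]
    rw [← Finset.sum_mul, ← Int.cast_sum, hsum4]
    norm_num
  have hΦ2 : ∀ c : Subgroup.centralizer ({u} : Set G), 2 ∣ orderOf c → ∑ ξ, (a₁ ξ : ℂ) * (ξ : Subgroup.centralizer ({u} : Set G) → ℂ) c = 0 := by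
    intro c hc
    obtain ⟨x, w, hxw, hcomm, hx, hw, -, -⟩ := exists_jordan (p := 2) c
    have hx1 : x ≠ 1 := by
      rintro rfl
      rw [one_mul] at hxw
      rw [hxw] at hw
      exact hw hc
    have hpp : IsPPart 2 c x := ⟨w, hxw, hcomm, hx, hw⟩
    have hpp1 : IsPPart 2 (1 : Subgroup.centralizer ({u} : Set G)) 1 := ⟨1, by simp, Commute.one_left _, ⟨0, by simp⟩, by simp⟩
    have hnc : ¬ IsConj x 1 := fun h => hx1 (isConj_one_right.1 h.symm)
    have h1 := block_orthogonality hM hpp hpp1 hnc (isBlockUnion_of_isPBlock he)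
    rw [finsum_mem_irr] at h1
    have h2 : ∀ ξ : IrrCharacter (Subgroup.centralizer ({u} : Set G)), (if ξ ∈ e then (ξ : Subgroup.centralizer ({u} : Set G) → ℂ) c * (ξ : Subgroup.centralizer ({u} : Set G) → ℂ) 1⁻¹ else 0) = φ 1 * ((a₁ ξ : ℂ) * (ξ : Subgroup.centralizer ({u} : Set G) → ℂ) c) := by
      intro ξ
      by_cases h : ξ ∈ e
      · rw [if_pos h, inv_one, hdξ' ξ h 1 hone, ha₁m ξ h]
        push_cast
        ring
      · rw [if_neg h, ha₁n ξ h]
        simp
    simp only [h2] at h1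
    rw [← Finset.mul_sum] at h1
    exact (mul_eq_zero.1 h1).resolve_left hφ1
  have hΦ : ∀ c : Subgroup.centralizer ({u} : Set G), ∑ ξ, (a₁ ξ : ℂ) * (ξ : Subgroup.centralizer ({u} : Set G) → ℂ) c = 4 * φ c := by
    intro c
    by_cases hc : 2 ∣ orderOf c
    · rw [hΦ2 c hc, hφsing c hc, mul_zero]
    · exact hΦ1 c hc
  -- the norm of `φ`
  have hnorm : classInner φ φ = 1 / 4 := by
    have h1 : (4 : ℂ) • φ = ∑ ξ : IrrCharacter (Subgroup.centralizer ({u} : Set G)), (a₁ ξ : ℂ) • (ξ : Subgroup.centralizer ({u} : Set G) → ℂ) := by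
      funext c
      simp only [Pi.smul_apply, smul_eq_mul, Finset.sum_apply]
      rw [hΦ c]
    have h2 : classInner ((4 : ℂ) • φ) ((4 : ℂ) • φ) = 4 := by
      rw [h1, classInner_sum_left]
      have h3 : ∀ ξ : IrrCharacter (Subgroup.centralizer ({u} : Set G)),
          classInner ((a₁ ξ : ℂ) • (ξ : Subgroup.centralizer ({u} : Set G) → ℂ)) (∑ ξ' : IrrCharacter (Subgroup.centralizer ({u} : Set G)), (a₁ ξ' : ℂ) • (ξ' : Subgroup.centralizer ({u} : Set G) → ℂ)) = ((a₁ ξ * a₁ ξ : ℤ) : ℂ) := by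
        intro ξ
        rw [classInner_smul_left, classInner_sum_right, Finset.sum_eq_single ξ]
        · rw [classInner_smul_right, classInner_irr_self ξ.2, map_intCast]
          push_cast
          ring
        · intro ξ' _ hne
          rw [classInner_smul_right, classInner_irr_of_ne ξ.2 ξ'.2 (fun h => hne (Subtype.ext h.symm)), mul_zero]
        · intro h
          exact absurd (Finset.mem_univ _) h
      simp only [h3]
      rw [← Int.cast_sum, hsum4]
      norm_num
    rw [classInner_smul_left, classInner_smul_right] at h2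
    have h4 : conj (4 : ℂ) = 4 := map_ofNat _ 4
    rw [h4] at h2
    linear_combination (1 / 16 : ℂ) * h2
  -- the coefficients
  choose z hz using fun χ ξ => exists_int_aa hu χ ξ
  obtain ⟨D, hD⟩ : ∃ D : IrrCharacter G → ℤ, D = fun χ => ∑ ξ, z χ ξ * a₁ ξ := ⟨_, rfl⟩
  have hsec : ∀ χ : IrrCharacter G, secF 2 u e (χ : G → ℂ) = (D χ : ℂ) • φ := by
    intro χ
    rw [secF_eq_sum, hD]
    push_cast
    rw [Finset.sum_smul]
    refine Finset.sum_congr rfl fun ξ _ => ?_
    by_cases h : ξ ∈ e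
    · rw [if_pos h, hpart ξ h, hz χ ξ, ha₁m ξ h, smul_smul]
      push_cast
      rfl
    · rw [if_neg h, ha₁n ξ h]
      simp
  have hgram : ∀ χ : IrrCharacter G, classInner (secF 2 u e (χ : G → ℂ)) (secF 2 u e (χ : G → ℂ)) = ((D χ * D χ : ℤ) : ℂ) / 4 := by
    intro χ
    rw [hsec, classInner_smul_left, classInner_smul_right, hnorm, map_intCast]
    push_cast
    ring
  have hD0 : ∀ χ, χ ∉ B → D χ = 0 := by
    intro χ hχ
    have h1 := secF_eq_zero_of_notMem hM huk hind hχ
    rw [hsec] at h1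
    have h2 := congrFun h1 1
    simp only [Pi.smul_apply, smul_eq_mul, Pi.zero_apply] at h2
    have h3 := (mul_eq_zero.1 h2).resolve_right hφ1
    exact_mod_cast h3
  have hsumD : ∑ χ : IrrCharacter G, D χ * D χ = 4 := by
    have h1 := sum_classInner_secF hM huk he
    rw [hr] at h1
    simp only [hgram] at h1
    rw [← Finset.sum_div, ← Int.cast_sum] at h1
    have h2 : ((∑ χ : IrrCharacter G, D χ * D χ : ℤ) : ℂ) = 4 := by
      rw [div_eq_iff (by norm_num)] at h1
      rw [h1]
      norm_num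
    exact_mod_cast h2
  have hodd : ∀ χ ∈ B, ¬ (2 : ℤ) ∣ D χ := by
    intro χ hχ h2
    have h1 := not_mem_alpha_div hM huk hind hq hχ (hh χ hχ) hχ
    apply h1
    rw [hh χ hχ, pow_zero, div_one]
    unfold alpha
    rw [hgram, hq, hd]
    have e1 : ((2 : ℕ) : ℂ) ^ 2 * (((D χ * D χ : ℤ) : ℂ) / 4) = ((D χ * D χ : ℤ) : ℂ) := by
      push_cast
      ring
    rw [e1, memLocalIdeal_intCast_iff hM]
    exact Dvd.dvd.mul_right h2 _
  have hunit : ∀ χ ∈ B, D χ = 1 ∨ D χ = -1 := by
    have h0 : ∑ χ ∈ Finset.univ.filter (· ∈ B), D χ * D χ = 4 := by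
      rw [← hsumD]
      refine Finset.sum_subset (Finset.subset_univ _) fun χ _ hχ => ?_
      have : χ ∉ B := by simpa using hχ
      rw [hD0 χ this, mul_zero]
    have hge : ∀ χ ∈ Finset.univ.filter (· ∈ B), 1 ≤ D χ * D χ := by
      intro χ hχ
      have h1 : χ ∈ B := by simpa using hχ
      have h2 : D χ ≠ 0 := fun h => hodd χ h1 (by rw [h]; exact dvd_zero _)
      have := mul_self_pos.2 h2
      omega
    have heq : ∀ χ ∈ Finset.univ.filter (· ∈ B), D χ * D χ = 1 := by
      have h1 : ∑ χ ∈ Finset.univ.filter (· ∈ B), (D χ * D χ - 1) = 0 := by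
        rw [Finset.sum_sub_distrib, h0, Finset.sum_const, hk]
        norm_num
      have h2 := (Finset.sum_eq_zero_iff_of_nonneg (fun χ hχ => sub_nonneg.2 (hge χ hχ))).1 h1
      exact fun χ hχ => by linarith [h2 χ hχ]
    intro χ hχ
    have h1 := heq χ (by simpa using hχ)
    have h2 : (D χ - 1) * (D χ + 1) = 0 := by linarith
    rcases mul_eq_zero.1 h2 with h3 | h3
    · left
      omega
    · right
      omega
  -- the relation
  have hφspan : φ ∈ regSpan 2 e := by
    obtain ⟨ξ, hξ⟩ := IsPBlock_nonempty he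
    have h1 : (d ξ : ℂ) ≠ 0 := left_ne_zero_of_mul (hne1 ξ hξ)
    have h2 : φ = ((d ξ : ℂ))⁻¹ • pRegularPart 2 (ξ : Subgroup.centralizer ({u} : Set G) → ℂ) := by
      rw [hpart ξ hξ, smul_smul, inv_mul_cancel₀ h1, one_smul]
    rw [h2]
    exact Submodule.smul_mem _ _ (Submodule.subset_span ⟨ξ, hξ, rfl⟩)
  have hrel : ∀ y : G, ¬ 2 ∣ orderOf y → ∑ χ : IrrCharacter G, (D χ : ℂ) * (χ : G → ℂ) y = 0 := by
    intro y hy
    have h1 := congrFun (classFunction_eq_sum (glue u φ) (glue_isClassFunction u φ)) y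
    simp only [Finset.sum_apply, Pi.smul_apply, smul_eq_mul] at h1
    have h2 : ∀ χ : IrrCharacter G, classInner (glue u φ) (χ : G → ℂ) = (D χ : ℂ) / 4 := by
      intro χ
      rw [← classInner_secF hM he hφspan (IsCharacter.isClassFunction (IsIrrCharacter.isCharacter χ.2)), hsec, classInner_smul_right, hnorm, map_intCast]
      ring
    simp only [h2] at h1
    have hy' : y ∈ Subgroup.centralizer ({(1 : G)} : Set G) := by
      rw [mem_centralizer_singleton]
      simp
    have h3 := glue_of_not_conj (p := 2) huk (x₀ := 1) ⟨0, by simp⟩ (fun h => hu1 (isConj_one_right.1 h))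
      (w := φ) hφsing ⟨y, hy'⟩ (by rwa [Subgroup.orderOf_mk])
    rw [one_mul] at h3
    simp only at h3
    rw [h3] at h1
    have h4 : ∑ χ : IrrCharacter G, (D χ : ℂ) * (χ : G → ℂ) y = 4 * ∑ χ : IrrCharacter G, (D χ : ℂ) / 4 * (χ : G → ℂ) y := by
      rw [Finset.mul_sum]
      refine Finset.sum_congr rfl fun χ _ => ?_
      ring
    rw [h4, ← h1, mul_zero]
  refine ⟨φ, D, ⟨hunit, hD0, hrel⟩, hsec, ?_, ?_⟩
  · intro c
    by_cases hc : 2 ∣ orderOf c
    · rw [hφsing c hc]
      exact memLocalRing_zero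
    · rw [hφreg c hc, hn c hc, finsum_mem_irr]
      refine memLocalRing_sum _ _ fun ξ _ => ?_
      split_ifs
      · exact memLocalRing_mul (memLocalRing_intCast _) (val_loc ξ c)
      · exact memLocalRing_zero
  · intro c
    have h1 := memLocal_of_vanish hM a₁ hΦ2 c
    rwa [hΦ c] at h1

end Col

section Pairs

variable {G : Type*} [Group G] [Fintype G] {M : Ideal AlgInt} {p : ℕ} [hp : Fact p.Prime]

theorem blockDefect_mapBlock' {H K : Type*} [Group H] [Fintype H] [Group K] [Fintype K] (hM : IsPModular p M) (φ : H ≃* K)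
    {b : Set (IrrCharacter H)} (hb : IsPBlock M b) : blockDefect p (mapBlock φ b) = blockDefect p b := by
  have := isPModular_isPrime hM
  obtain ⟨D, hD⟩ := Cfsg.Agent.Lib.Block.exists_isDefectGroup hM hb
  have h1 := card_defect_group hM hb hD
  have h2 := card_defect_group hM (isPBlock_mapBlock φ hb) (isDefectGroup_mapBlock φ hD)
  have h3 : Nat.card (D.map φ.toMonoidHom) = Nat.card D :=
    Nat.card_congr (D.equivMapOfInjective _ φ.injective).symm.toEquiv
  rw [h3, h1] at h2
  exact (Nat.pow_right_injective hp.out.two_le h2).symm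

/-- A block of the centralizer of a `p`-element inducing a block with commutative defect group has the same defect. -/
theorem defect_of_induced (hM : IsPModular p M) {B : Set (IrrCharacter G)} (hB : IsPBlock M B) {P : Subgroup G}
    {c : Set (IrrCharacter (Cen P))} (hmax : IsMaximalBrauerPair p M B P c) (hPD : IsDefectGroup p M B P)
    (hab : ∀ x ∈ P, ∀ y ∈ P, x * y = y * x) {x : G} (hxk : ∃ k : ℕ, orderOf x = p ^ k)
    {b : Set (IrrCharacter (Subgroup.centralizer ({x} : Set G)))}
    (hb : IsInducedBlock M (Subgroup.centralizer ({x} : Set G)) b B) : blockDefect p b = blockDefect p B := by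
  classical
  have := isPModular_isPrime hM
  have e1 : ∀ H : Subgroup G, H = Cen (Subgroup.zpowers x) → ∀ b : Set (IrrCharacter H), IsInducedBlock M H b B →
      blockDefect p b = blockDefect p B := by
    rintro H rfl b hb
    have hpair := isBrauerPairOf_of_induced (isPGroup_zpowers_of_order hxk) hb
    obtain ⟨g, hle⟩ := exists_conj_subpair hM hmax hpair
    have hf : IsPBlock M (conjBlock _ g b) := by
      rw [conjBlock_eq]
      exact isPBlock_mapBlock _ hb.1
    obtain ⟨D', hD', hle'⟩ := cen_defect_ge hM hmax hle hf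
    have hQP := le_of_subpairLE hle
    have hDC : P ≤ Cen (cj g (Subgroup.zpowers x)) := fun d hd => le_cen_of_abelian hab hQP hd
    have hinf : P ⊓ Cen (cj g (Subgroup.zpowers x)) = P := inf_eq_left.2 hDC
    rw [hinf] at hle'
    have hge := blockDefect_le_of_defect_le hM hf hB hPD hD' hDC hle'
    rw [conjBlock_eq, blockDefect_mapBlock' hM _ hb.1] at hge
    exact le_antisymm (blockDefect_le_of_induced hM hb) hge
  exact e1 _ (centralizer_zpowers_eq x).symm b hb

end Pairs

section Sub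

variable {G : Type*} [Group G] [Fintype G] {M : Ideal AlgInt}

theorem klein_sub_facts (hM : IsPModular 2 M) {B : Set (IrrCharacter G)} {P : Subgroup G}
    {c : Set (IrrCharacter (Cen P))} (hmax : IsMaximalBrauerPair 2 M B P c) (hsq : ∀ x ∈ P, x * x = 1)
    (hdef : blockDefect 2 B = 2) {x : G} (hxk : ∃ k : ℕ, orderOf x = 2 ^ k) (hx1 : x ≠ 1)
    {b : Set (IrrCharacter (Subgroup.centralizer ({x} : Set G)))}
    (hb : IsInducedBlock M (Subgroup.centralizer ({x} : Set G)) b B) : x * x = 1 ∧ blockRank 2 b = 1 := by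
  classical
  have := isPModular_isPrime hM
  have hxx : x * x = 1 := by
    have e1 : ∀ H : Subgroup G, H = Cen (Subgroup.zpowers x) → ∀ b : Set (IrrCharacter H), IsInducedBlock M H b B → x * x = 1 := by
      rintro H rfl b hb
      obtain ⟨v, hv⟩ := exists_relV hM hmax (isBrauerPairOf_of_induced (isPGroup_zpowers_of_order hxk) hb)
      have hvP := hv.mem
      obtain ⟨g, rfl, -⟩ := hv
      have h1 := hsq _ hvP
      have h2 : x * x = g⁻¹ * ((g * x * g⁻¹) * (g * x * g⁻¹)) * g := by group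
      rw [h2, h1]
      group
    exact e1 _ (centralizer_zpowers_eq x).symm b hb
  refine ⟨hxx, ?_⟩
  refine blockRank_eq_one_of_central_involution hM hb.1 (u := ⟨x, mem_centralizer_self x⟩) ?_ ?_ ?_ ?_
  · rw [Subgroup.mem_center_iff]
    intro g
    apply Subtype.ext
    exact mem_centralizer_singleton.1 g.2
  · intro h
    exact hx1 (congrArg Subtype.val h)
  · exact Subtype.ext hxx
  · have := blockDefect_le_of_induced hM hb
    omega

/-- The centralizer of an element in terms of the centralizers of its two parts. -/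
theorem card_cen_section {u s x : G} (hx : u * s = x) (hus : Commute u s) (hu : u ∈ Subgroup.zpowers x) (hs : s ∈ Subgroup.zpowers x) :
    Nat.card (Subgroup.centralizer ({x} : Set G)) = Nat.card (Subgroup.centralizer
      ({(⟨s, by rw [mem_centralizer_singleton]; exact hus.eq.symm⟩ : Subgroup.centralizer ({u} : Set G))} : Set (Subgroup.centralizer ({u} : Set G)))) := by
  have hcu : ∀ g ∈ Subgroup.centralizer ({x} : Set G), g * u = u * g := by
    intro g hg
    obtain ⟨k, rfl⟩ := Subgroup.mem_zpowers_iff.1 hu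
    have h1 : Commute g x := (Subgroup.mem_centralizer_singleton_iff.1 hg)
    exact (h1.zpow_right k).eq
  have hcs : ∀ g ∈ Subgroup.centralizer ({x} : Set G), g * s = s * g := by
    intro g hg
    obtain ⟨k, rfl⟩ := Subgroup.mem_zpowers_iff.1 hs
    have h1 : Commute g x := (Subgroup.mem_centralizer_singleton_iff.1 hg)
    exact (h1.zpow_right k).eq
  refine Nat.card_congr ⟨fun g => ⟨⟨g, ?_⟩, ?_⟩, fun g => ⟨g.1.1, ?_⟩, fun g => rfl, fun g => rfl⟩
  · rw [mem_centralizer_singleton]
    exact hcu g g.2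
  · rw [mem_centralizer_singleton]
    exact Subtype.ext (hcs g g.2)
  · rw [mem_centralizer_singleton]
    have h1 : (g.1 : G) * u = u * g.1 := mem_centralizer_singleton.1 g.1.2
    have h2 : (g.1 : G) * s = s * g.1 := by
      have := mem_centralizer_singleton.1 g.2
      exact congrArg Subtype.val this
    rw [← hx]
    calc (g.1 : G) * (u * s) = (g.1 * u) * s := by group
      _ = u * (g.1 * s) := by rw [h1]; group
      _ = u * s * g.1 := by rw [h2]; group

end Sub

section Dec

universe u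

variable {G : Type u} [Group G] [Fintype G] {M : Ideal AlgInt}

open Classical in
/-- The data of a block with Klein four defect group we need. -/
structure KSide (M : Ideal AlgInt) (B : Set (IrrCharacter G)) : Prop where
  hM : IsPModular 2 M
  hB : IsPBlock M B
  hk : (Finset.univ.filter (· ∈ B)).card = 4
  hdef : blockDefect 2 B = 2
  hcol : ∃ F, IsCol B F
  hdec : ∀ x : G, 2 ∣ orderOf x → ∃ (ι : Type u) (_ : Fintype ι) (F : ι → IrrCharacter G → ℤ) (f : ι → ℂ),
    (∀ i, IsCol B (F i)) ∧ (∀ i, MemLocalRing M (f i)) ∧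
    (∀ i, MemLocalRing M (4 * f i / (Nat.card (Subgroup.centralizer ({x} : Set G)) : ℂ))) ∧
    ∀ χ ∈ B, (χ : G → ℂ) x = ∑ i, (F i χ : ℂ) * f i

open Classical in
theorem kSide_of_klein (hM : IsPModular 2 M) {B : Set (IrrCharacter G)} (hB : IsPBlock M B) {P : Subgroup G}
    (hPD : IsDefectGroup 2 M B P) (hV : IsKleinFour P) : KSide M B ∧ (blockRank 2 B = 1 ∨ blockRank 2 B = 3) := by
  have := isPModular_isPrime hM
  have hcard : Nat.card P = 4 := IsKleinFour.card_four
  have hsq := klein_sq hV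
  have hab := klein_comm hV
  have hPp : IsPGroup 2 P := isPGroup_of_isDefectGroup hPD
  obtain ⟨c, hc⟩ := exists_pair_on_defect hM hPD hB
  have hmax := isMaximal_of_defect hM hPD hc
  have hcb : IsPBlock M c := (isBrauerPairOf_iff.1 hc).1.2
  obtain ⟨T, hT⟩ := exists_pairT hcb
  obtain ⟨h1, h2, h3⟩ := klein_block hM hB hPD hV (isInducedBlock_of_pair hM hc) hT
  have hdef : blockDefect 2 B = 2 := by
    have h1 := card_defect_group hM hB hPD
    rw [hcard] at h1
    have h2 : (2 : ℕ) ^ 2 = 2 ^ blockDefect 2 B := by rw [← h1]; norm_num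
    exact (Nat.pow_right_injective (le_refl 2) h2).symm
  have hh : ∀ χ ∈ B, blockHeight 2 B (χ : G → ℂ) = 0 := by
    intro χ hχ
    have := ((brauer_feit_height hM hB).2 χ hχ).2 (by omega)
    omega
  have hk : (Finset.univ.filter (· ∈ B)).card = 4 := by
    rw [← h2, Nat.card_eq_fintype_card, Fintype.card_subtype]
  have hrk : blockRank 2 B = 1 ∨ blockRank 2 B = 3 := by
    rw [h3]
    exact h1
  refine ⟨⟨hM, hB, hk, hdef, ?_, ?_⟩, hrk⟩
  · obtain ⟨u, huP, hu1⟩ : ∃ u ∈ P, u ≠ 1 := by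
      rcases P.bot_or_exists_ne_one with h | h
      · rw [h] at hcard
        simp at hcard
      · exact h
    obtain ⟨f, hf, hfd⟩ := exists_centralizer_block hM hB hPD huP (fun d hd => hab d hd u huP)
    have huk := order_of_mem_pGroup hPp huP
    obtain ⟨h4, h5⟩ := klein_sub_facts hM hmax hsq hdef huk hu1 hf
    obtain ⟨φ, D, hD, -⟩ := col_of_subsection hM hk hh h4 hu1 hf hfd hdef h5
    exact ⟨D, hD⟩
  · intro x hx
    obtain ⟨u, s, hus, hcomm, huk, hsr, huz, hsz⟩ := exists_jordan (p := 2) x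
    have hu1 : u ≠ 1 := by
      rintro rfl
      rw [one_mul] at hus
      rw [hus] at hsr
      exact hsr hx
    obtain ⟨s', hs'⟩ : ∃ s' : Subgroup.centralizer ({u} : Set G), s' = ⟨s, by rw [mem_centralizer_singleton]; exact hcomm.eq.symm⟩ := ⟨_, rfl⟩
    have hs'r : ¬ 2 ∣ orderOf s' := by
      rw [hs', Subgroup.orderOf_mk]
      exact hsr
    have hs'v : (s' : G) = s := by rw [hs']
    have hcd : Nat.card (Subgroup.centralizer ({x} : Set G)) = Nat.card (Subgroup.centralizer ({s'} : Set (Subgroup.centralizer ({u} : Set G)))) := by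
      rw [hs']
      exact card_cen_section hus hcomm huz hsz
    -- the blocks
    obtain ⟨𝓑, h𝓑⟩ : ∃ 𝓑 : Finset (Set (IrrCharacter (Subgroup.centralizer ({u} : Set G)))), 𝓑 = (Finset.univ.image fun ξ : IrrCharacter (Subgroup.centralizer ({u} : Set G)) => blockOf M (ξ : Subgroup.centralizer ({u} : Set G) → ℂ)).filter
        (fun E => IsInducedBlock M (Subgroup.centralizer ({u} : Set G)) E B) := ⟨_, rfl⟩
    have hE : ∀ E ∈ 𝓑, IsInducedBlock M (Subgroup.centralizer ({u} : Set G)) E B := fun E hE => by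
      rw [h𝓑] at hE
      exact (Finset.mem_filter.1 hE).2
    have hdata : ∀ E ∈ 𝓑, ∃ (φ : Subgroup.centralizer ({u} : Set G) → ℂ) (D : IrrCharacter G → ℤ), IsCol B D ∧
      (∀ χ : IrrCharacter G, secF 2 u E (χ : G → ℂ) = (D χ : ℂ) • φ) ∧ (∀ c, MemLocalRing M (φ c)) ∧
      (∀ c : Subgroup.centralizer ({u} : Set G), MemLocalRing M (4 * φ c / (Nat.card (Subgroup.centralizer ({c} : Set (Subgroup.centralizer ({u} : Set G)))) : ℂ))) := by
      intro E hEm
      have hi := hE E hEm
      obtain ⟨h4, h5⟩ := klein_sub_facts hM hmax hsq hdef huk hu1 hi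
      exact col_of_subsection hM hk hh h4 hu1 hi (defect_of_induced hM hB hmax hPD hab huk hi) hdef h5
    choose! φ D hD hsec hφ hφ4 using hdata
    refine ⟨𝓑, inferInstance, fun E => D E, fun E => φ E s', fun E => hD E E.2, fun E => hφ E E.2 s', fun E => ?_, ?_⟩
    · rw [hcd]
      exact hφ4 E E.2 s'
    · intro χ hχ
      rw [Finset.sum_coe_sort 𝓑 (fun E => (D E χ : ℂ) * φ E s')]
      -- the expansion
      have hcf := isClassFunction_section (x := u) _ (IsCharacter.isClassFunction (IsIrrCharacter.isCharacter χ.2))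
      have h4 := congrFun (classFunction_eq_sum _ hcf) s'
      simp only [Finset.sum_apply, Pi.smul_apply, smul_eq_mul] at h4
      have e1 : (χ : G → ℂ) (u * s') = (χ : G → ℂ) x := by rw [hs'v, hus]
      rw [e1] at h4
      rw [h4]
      have h5 : ∀ ξ : IrrCharacter (Subgroup.centralizer ({u} : Set G)), classInner (fun c : Subgroup.centralizer ({u} : Set G) => (χ : G → ℂ) (u * c)) (ξ : Subgroup.centralizer ({u} : Set G) → ℂ) * (ξ : Subgroup.centralizer ({u} : Set G) → ℂ) s' = aa u χ ξ * (ξ : Subgroup.centralizer ({u} : Set G) → ℂ) s' := fun ξ => rfl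
      simp only [h5]
      rw [← Finset.sum_fiberwise (s := Finset.univ) (g := fun ξ : IrrCharacter (Subgroup.centralizer ({u} : Set G)) => blockOf M (ξ : Subgroup.centralizer ({u} : Set G) → ℂ)) (f := fun ξ => aa u χ ξ * (ξ : Subgroup.centralizer ({u} : Set G) → ℂ) s')]
      have hK1 : ∀ E : Set (IrrCharacter (Subgroup.centralizer ({u} : Set G))), IsPBlock M E →
          ∑ ξ ∈ Finset.univ.filter (fun ξ : IrrCharacter (Subgroup.centralizer ({u} : Set G)) => blockOf M (ξ : Subgroup.centralizer ({u} : Set G) → ℂ) = E), aa u χ ξ * (ξ : Subgroup.centralizer ({u} : Set G) → ℂ) s' = secF 2 u E (χ : G → ℂ) s' := by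
        intro E hEb
        rw [secF_eq_sum, Finset.sum_apply, Finset.sum_filter]
        refine Finset.sum_congr rfl fun ξ _ => ?_
        by_cases hξ : ξ ∈ E
        · rw [if_pos hξ, if_pos (blockOf_eq_of_mem hEb hξ).symm, Pi.smul_apply, smul_eq_mul, pRegularPart_eq_of_regular _ hs'r]
        · rw [if_neg hξ, if_neg]
          · rfl
          · intro h
            apply hξ
            rw [← h]
            exact mem_blockOf_self ξ
      symm
      refine Finset.sum_subset_zero_on_sdiff (Finset.subset_univ 𝓑) ?_ ?_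
      · intro E hE'
        have hEn : E ∉ 𝓑 := (Finset.mem_sdiff.1 hE').2
        by_cases hne : ∃ ξ : IrrCharacter (Subgroup.centralizer ({u} : Set G)), blockOf M (ξ : Subgroup.centralizer ({u} : Set G) → ℂ) = E
        · obtain ⟨ξ₀, hξ₀⟩ := hne
          have hEb : IsPBlock M E := by
            rw [← hξ₀]
            exact isPBlock_blockOf ξ₀
          rw [hK1 E hEb]
          obtain ⟨B', hB'⟩ := inducedBlockDefined_of_normalizer hM (isPGroup_zpowers_of_orderOf huk) (zpowers_le_centralizer u)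
            (centralizer_zpowers_eq u).le (centralizer_le_normalizer_zpowers u) hEb
          have hne' : B' ≠ B := by
            rintro rfl
            apply hEn
            rw [h𝓑, Finset.mem_filter]
            exact ⟨Finset.mem_image.2 ⟨ξ₀, Finset.mem_univ _, hξ₀⟩, hB'⟩
          have hχ' : χ ∉ B' := by
            intro h
            apply hne'
            rw [blockOf_eq_of_mem hB'.2.1 h, blockOf_eq_of_mem hB hχ]
          rw [secF_eq_zero_of_notMem hM huk hB' hχ']
          rfl
        · refine Finset.sum_eq_zero fun ξ hξ => ?_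
          exact absurd ⟨ξ, (Finset.mem_filter.1 hξ).2⟩ hne
      · intro E hEm
        rw [hK1 E (hE E hEm).1, hsec E hEm χ]
        rfl

end Dec

end Cfsg.Agent.Lib.FF
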