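import Cfsg.Agent.Lib.FF.KleinPerf1

/-!
# Blocks with Klein four defect group: perfect isometries
-/

set_option autoImplicit false
set_option linter.unusedSectionVars false
set_option linter.unusedVariables false
set_option maxSynthPendingDepth 3
set_option linter.style.haveILetI false
set_option linter.unusedSimpArgs false
set_option linter.unnecessarySimpa false

open scoped ComplexConjugate
open Module Cfsg Cfsg.Agent.Lib.Block Cfsg.Agent.Lib.Char Cfsg.Agent.Lib.CharExtra Cfsg.Agent.Lib.BPair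

namespace Cfsg.Agent.Lib.FF

attribute [local instance] Cfsg.Agent.Lib.BPair.subFintype

section Three

universe u

variable {G : Type u} [Group G] [Fintype G] {M : Ideal AlgInt} {B : Set (IrrCharacter G)}

open Classical in
/-- In rank three all the columns agree up to a sign. -/
theorem col_unique (S : KSide M B) (hr : blockRank 2 B = 3) {D F : IrrCharacter G → ℤ} (hD : IsCol B D) (hF : IsCol B F) :
    ∃ κ : ℤ, (κ = 1 ∨ κ = -1) ∧ ∀ χ ∈ B, F χ = κ * D χ := by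
  obtain ⟨Bf, hBf⟩ : ∃ Bf : Finset (IrrCharacter G), Bf = Finset.univ.filter (· ∈ B) := ⟨_, rfl⟩
  have hmB : ∀ χ, χ ∈ Bf ↔ χ ∈ B := fun χ => by simp [hBf]
  have hk : Bf.card = 4 := by rw [hBf]; exact S.hk
  obtain ⟨v, hv⟩ : ∃ v : Bf → (G → ℂ), v = fun χ : Bf => pRegularPart 2 ((χ.1 : IrrCharacter G) : G → ℂ) := ⟨_, rfl⟩
  obtain ⟨L, hL⟩ : ∃ L : (Bf → ℂ) →ₗ[ℂ] (G → ℂ), L = Fintype.linearCombination ℂ v := ⟨_, rfl⟩
  have hrange : LinearMap.range L = regSpan 2 B := by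
    rw [hL, Fintype.range_linearCombination]
    congr 1
    ext f
    simp only [Set.mem_range, Set.mem_image, hv]
    constructor
    · rintro ⟨χ, rfl⟩
      exact ⟨χ, (hmB _).1 χ.2, rfl⟩
    · rintro ⟨χ, h, rfl⟩
      exact ⟨⟨χ, (hmB _).2 h⟩, rfl⟩
  have hfr : finrank ℂ (LinearMap.range L) = 3 := by
    rw [hrange]
    exact hr
  have hfk : finrank ℂ (LinearMap.ker L) = 1 := by
    have h1 := LinearMap.finrank_range_add_finrank_ker L
    rw [hfr, Module.finrank_fintype_fun_eq_card] at h1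
    have h2 : Fintype.card Bf = 4 := by rw [Fintype.card_coe, hk]
    omega
  have hinker : ∀ E : IrrCharacter G → ℤ, IsCol B E → (fun χ : Bf => ((E χ : ℤ) : ℂ)) ∈ LinearMap.ker L := by
    intro E hE
    rw [LinearMap.mem_ker, hL]
    funext y
    simp only [Fintype.linearCombination_apply, Finset.sum_apply, Pi.smul_apply, smul_eq_mul, Pi.zero_apply, hv]
    by_cases hy : 2 ∣ orderOf y
    · refine Finset.sum_eq_zero fun χ _ => ?_
      rw [pRegularPart_eq_zero_of_dvd _ hy, mul_zero]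
    · have h1 := hE.2.2 y hy
      have h2 : ∑ χ ∈ Bf, (E χ : ℂ) * (χ : G → ℂ) y = ∑ χ : IrrCharacter G, (E χ : ℂ) * (χ : G → ℂ) y := by
        refine Finset.sum_subset (Finset.subset_univ _) fun χ _ hχ => ?_
        have : χ ∉ B := fun h => hχ ((hmB _).2 h)
        rw [hE.2.1 χ this]
        simp
      rw [h1, ← Finset.sum_coe_sort Bf (fun χ => (E χ : ℂ) * (χ : G → ℂ) y)] at h2
      rw [← h2]
      refine Finset.sum_congr rfl fun χ _ => ?_
      rw [pRegularPart_eq_of_regular _ hy]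
  obtain ⟨χ₀, hχ₀⟩ : Bf.Nonempty := by
    rw [← Finset.card_pos, hk]
    norm_num
  have hne : (⟨_, hinker D hD⟩ : LinearMap.ker L) ≠ 0 := by
    intro h
    have h1 := congrFun (congrArg Subtype.val h) ⟨χ₀, hχ₀⟩
    simp only [ZeroMemClass.coe_zero, Pi.zero_apply] at h1
    have h2 := hD.1 χ₀ ((hmB _).1 hχ₀)
    rcases h2 with h2 | h2 <;> rw [h2] at h1 <;> norm_num at h1
  obtain ⟨c, hc⟩ := (finrank_eq_one_iff_of_nonzero' _ hne).1 hfk ⟨_, hinker F hF⟩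
  have hc' : ∀ χ ∈ B, (F χ : ℂ) = c * (D χ : ℂ) := by
    intro χ hχ
    have h1 := congrFun (congrArg Subtype.val hc) ⟨χ, (hmB _).2 hχ⟩
    simpa using h1.symm
  have hχ₀B := (hmB _).1 hχ₀
  obtain ⟨κ, hκ⟩ : ∃ κ : ℤ, κ = F χ₀ * D χ₀ := ⟨_, rfl⟩
  have hDD : D χ₀ * D χ₀ = 1 := by
    rcases hD.1 χ₀ hχ₀B with h | h <;> rw [h] <;> norm_num
  have hcκ : c = (κ : ℂ) := by
    have h1 := hc' χ₀ hχ₀B
    have h2 : ((D χ₀ * D χ₀ : ℤ) : ℂ) = 1 := by rw [hDD]; norm_num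
    push_cast at h2
    rw [hκ]
    push_cast
    rw [h1]
    linear_combination (-c) * h2
  refine ⟨κ, ?_, fun χ hχ => ?_⟩
  · rw [hκ]
    rcases hD.1 χ₀ hχ₀B with h | h <;> rcases hF.1 χ₀ hχ₀B with h' | h' <;> rw [h, h'] <;> norm_num
  · have h1 := hc' χ hχ
    rw [hcκ] at h1
    exact_mod_cast h1

open Classical in
/-- Values on singular elements in rank three. -/
theorem side3 (S : KSide M B) (hr : blockRank 2 B = 3) :
    ∃ D, IsCol B D ∧ ∀ x : G, 2 ∣ orderOf x → ∃ t : ℂ, (∀ χ ∈ B, (χ : G → ℂ) x = (D χ : ℂ) * t) ∧ MemLocalRing M t ∧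
      MemLocalRing M (4 * t / (Nat.card (Subgroup.centralizer ({x} : Set G)) : ℂ)) := by
  have := isPModular_isPrime S.hM
  obtain ⟨D, hD⟩ := S.hcol
  refine ⟨D, hD, fun x hx => ?_⟩
  obtain ⟨ι, _, F, f, hF, hf, hf4, hx'⟩ := S.hdec x hx
  choose κ hκ1 hκ2 using fun i => col_unique S hr hD (hF i)
  refine ⟨∑ i, (κ i : ℂ) * f i, fun χ hχ => ?_, ?_, ?_⟩
  · rw [hx' χ hχ, Finset.mul_sum]
    refine Finset.sum_congr rfl fun i _ => ?_
    rw [hκ2 i χ hχ]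
    push_cast
    ring
  · exact memLocalRing_sum _ _ fun i _ => memLocalRing_mul (memLocalRing_intCast _) (hf i)
  · rw [Finset.mul_sum, Finset.sum_div]
    refine memLocalRing_sum _ _ fun i _ => ?_
    have e1 : 4 * ((κ i : ℂ) * f i) / (Nat.card (Subgroup.centralizer ({x} : Set G)) : ℂ) =
        (κ i : ℂ) * (4 * f i / (Nat.card (Subgroup.centralizer ({x} : Set G)) : ℂ)) := by ring
    rw [e1]
    exact memLocalRing_mul (memLocalRing_intCast _) (hf4 i)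

/-- Rank three data, in terms of a vector of signs. -/
structure Side3 (M : Ideal AlgInt) (B : Set (IrrCharacter G)) (D : IrrCharacter G → ℤ) (Bf : Finset (IrrCharacter G)) : Prop where
  hM : IsPModular 2 M
  hmB : ∀ χ, χ ∈ Bf ↔ χ ∈ B
  hk : Bf.card = 4
  hD : IsCol B D
  hsing : ∀ x : G, 2 ∣ orderOf x → ∃ t : ℂ, (∀ χ ∈ B, (D χ : ℂ) * (χ : G → ℂ) x = t) ∧ MemLocalRing M t ∧
      MemLocalRing M (4 * t / (Nat.card (Subgroup.centralizer ({x} : Set G)) : ℂ))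

open Classical in
theorem exists_side3 (S : KSide M B) (hr : blockRank 2 B = 3) :
    ∃ D, Side3 M B D (Finset.univ.filter (· ∈ B)) := by
  obtain ⟨D, hD, h⟩ := side3 S hr
  refine ⟨D, S.hM, fun χ => by simp, S.hk, hD, fun x hx => ?_⟩
  obtain ⟨t, h1, h2, h3⟩ := h x hx
  refine ⟨t, fun χ hχ => ?_, h2, h3⟩
  rw [h1 χ hχ, ← mul_assoc]
  rcases hD.1 χ hχ with h4 | h4 <;> rw [h4] <;> norm_num

namespace Side3

variable {D : IrrCharacter G → ℤ} {Bf : Finset (IrrCharacter G)} (S : Side3 M B D Bf)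
include S

theorem isPrime : M.IsPrime := isPModular_isPrime S.hM

theorem w_loc (χ : IrrCharacter G) (x : G) : MemLocalRing M ((D χ : ℂ) * (χ : G → ℂ) x) := by
  have := S.isPrime
  exact memLocalRing_mul (memLocalRing_intCast _) (val_loc χ x)

/-- The sum over the block. -/
theorem sum_eq (x : G) : ∑ χ ∈ Bf, (D χ : ℂ) * (χ : G → ℂ) x = ∑ χ : IrrCharacter G, (D χ : ℂ) * (χ : G → ℂ) x := by
  refine Finset.sum_subset (Finset.subset_univ _) fun χ _ hχ => ?_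
  have : χ ∉ B := fun h => hχ ((S.hmB _).2 h)
  rw [S.hD.2.1 χ this]
  simp

theorem sum_reg {x : G} (hx : ¬ 2 ∣ orderOf x) : ∑ χ ∈ Bf, (D χ : ℂ) * (χ : G → ℂ) x = 0 := by
  rw [S.sum_eq]
  exact S.hD.2.2 x hx

theorem sum_cen (x : G) : MemLocalRing M ((∑ χ ∈ Bf, (D χ : ℂ) * (χ : G → ℂ) x) / (Nat.card (Subgroup.centralizer ({x} : Set G)) : ℂ)) := by
  have := S.isPrime
  by_cases hx : 2 ∣ orderOf x
  · obtain ⟨t, h1, h2, h3⟩ := S.hsing x hx
    have e1 : ∑ χ ∈ Bf, (D χ : ℂ) * (χ : G → ℂ) x = 4 * t := by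
      rw [Finset.sum_congr rfl fun χ hχ => h1 χ ((S.hmB _).1 hχ), Finset.sum_const, S.hk]
      norm_num
    rw [e1]
    exact h3
  · rw [S.sum_reg hx, zero_div]
    exact memLocalRing_zero

open Classical in
theorem diff_cen {χ χ' : IrrCharacter G} (hχ : χ ∈ B) (hχ' : χ' ∈ B) (x : G) :
    MemLocalRing M (((D χ : ℂ) * (χ : G → ℂ) x - (D χ' : ℂ) * (χ' : G → ℂ) x) / (Nat.card (Subgroup.centralizer ({x} : Set G)) : ℂ)) := by
  have h1 := memLocal_of_vanish S.hM (fun ψ => (if ψ = χ then D χ else 0) - (if ψ = χ' then D χ' else 0))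
    (fun g hg => ?_) x
  · have e1 : ∀ g : G, ∑ ψ : IrrCharacter G, (((if ψ = χ then D χ else 0) - (if ψ = χ' then D χ' else 0) : ℤ) : ℂ) * (ψ : G → ℂ) g =
        (D χ : ℂ) * (χ : G → ℂ) g - (D χ' : ℂ) * (χ' : G → ℂ) g := by
      intro g
      push_cast
      simp only [sub_mul, Finset.sum_sub_distrib, ite_mul, zero_mul, Finset.sum_ite_eq', Finset.mem_univ, if_true]
    rwa [e1] at h1
  · have e1 : ∀ g : G, ∑ ψ : IrrCharacter G, (((if ψ = χ then D χ else 0) - (if ψ = χ' then D χ' else 0) : ℤ) : ℂ) * (ψ : G → ℂ) g =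
        (D χ : ℂ) * (χ : G → ℂ) g - (D χ' : ℂ) * (χ' : G → ℂ) g := by
      intro g
      push_cast
      simp only [sub_mul, Finset.sum_sub_distrib, ite_mul, zero_mul, Finset.sum_ite_eq', Finset.mem_univ, if_true]
    rw [e1]
    obtain ⟨t, h2, -, -⟩ := S.hsing g hg
    rw [h2 χ hχ, h2 χ' hχ', sub_self]

/-- A combination with coefficients summing to zero. -/
theorem comb_zero {a : IrrCharacter G → ℂ} (ha : ∀ χ, MemLocalRing M (a χ)) (h0 : ∑ χ ∈ Bf, a χ = 0) (x : G) :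
    MemLocalRing M ((∑ χ ∈ Bf, a χ * ((D χ : ℂ) * (χ : G → ℂ) x)) / (Nat.card (Subgroup.centralizer ({x} : Set G)) : ℂ)) := by
  have := S.isPrime
  obtain ⟨χ₀, hχ₀⟩ : Bf.Nonempty := by
    rw [← Finset.card_pos, S.hk]
    norm_num
  have e1 : ∑ χ ∈ Bf, a χ * ((D χ : ℂ) * (χ : G → ℂ) x) =
      ∑ χ ∈ Bf, a χ * ((D χ : ℂ) * (χ : G → ℂ) x - (D χ₀ : ℂ) * (χ₀ : G → ℂ) x) := by
    have e2 : ∑ χ ∈ Bf, a χ * ((D χ : ℂ) * (χ : G → ℂ) x - (D χ₀ : ℂ) * (χ₀ : G → ℂ) x) =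
        ∑ χ ∈ Bf, a χ * ((D χ : ℂ) * (χ : G → ℂ) x) - (∑ χ ∈ Bf, a χ) * ((D χ₀ : ℂ) * (χ₀ : G → ℂ) x) := by
      rw [Finset.sum_mul, ← Finset.sum_sub_distrib]
      refine Finset.sum_congr rfl fun χ _ => ?_
      ring
    rw [e2, h0]
    ring
  rw [e1, Finset.sum_div]
  refine memLocalRing_sum _ _ fun χ hχ => ?_
  rw [mul_div_assoc]
  exact memLocalRing_mul (ha χ) (S.diff_cen ((S.hmB _).1 hχ) ((S.hmB _).1 hχ₀) x)

theorem comb_const (t : ℂ) (ht : MemLocalRing M t) {a : IrrCharacter G → ℂ} (ha : ∀ χ ∈ B, a χ = t) (x : G) :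
    MemLocalRing M ((∑ χ ∈ Bf, a χ * ((D χ : ℂ) * (χ : G → ℂ) x)) / (Nat.card (Subgroup.centralizer ({x} : Set G)) : ℂ)) := by
  have := S.isPrime
  have e1 : ∑ χ ∈ Bf, a χ * ((D χ : ℂ) * (χ : G → ℂ) x) = t * ∑ χ ∈ Bf, (D χ : ℂ) * (χ : G → ℂ) x := by
    rw [Finset.mul_sum]
    refine Finset.sum_congr rfl fun χ hχ => ?_
    rw [ha χ ((S.hmB _).1 hχ)]
  rw [e1, mul_div_assoc]
  exact memLocalRing_mul ht (S.sum_cen x)

end Side3

end Three

section One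

universe u

variable {G : Type u} [Group G] [Fintype G] {M : Ideal AlgInt} {B : Set (IrrCharacter G)}

/-- Rank one data. -/
structure Side1 (M : Ideal AlgInt) (B : Set (IrrCharacter G)) (Bf : Finset (IrrCharacter G)) : Prop where
  hM : IsPModular 2 M
  hmB : ∀ χ, χ ∈ Bf ↔ χ ∈ B
  hk : Bf.card = 4
  hreg : ∀ χ ∈ B, ∀ χ' ∈ B, ∀ x : G, ¬ 2 ∣ orderOf x → (χ : G → ℂ) x = (χ' : G → ℂ) x
  hbal : ∀ χ₀ ∈ B, ∀ χ₁ ∈ B, ∀ χ₂ ∈ B, ∀ χ₃ ∈ B, χ₀ ≠ χ₁ → χ₀ ≠ χ₂ → χ₀ ≠ χ₃ → χ₁ ≠ χ₂ → χ₁ ≠ χ₃ → χ₂ ≠ χ₃ →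
    ∀ x : G, 2 ∣ orderOf x → ∃ m : ℂ, (χ₀ : G → ℂ) x + (χ₁ : G → ℂ) x - (χ₂ : G → ℂ) x - (χ₃ : G → ℂ) x = 4 * m ∧ MemLocalRing M m ∧
      MemLocalRing M (4 * m / (Nat.card (Subgroup.centralizer ({x} : Set G)) : ℂ))
  hzero : ∀ x : G, 2 ∣ orderOf x → ∑ χ ∈ Bf, (χ : G → ℂ) x = 0
  hPr : ∀ x : G, MemLocalRing M ((∑ χ ∈ Bf, (χ : G → ℂ) x) / (Nat.card (Subgroup.centralizer ({x} : Set G)) : ℂ))

theorem eq_four {Bf : Finset (IrrCharacter G)} (hk : Bf.card = 4) {χ₀ χ₁ χ₂ χ₃ : IrrCharacter G} (h0 : χ₀ ∈ Bf) (h1 : χ₁ ∈ Bf) (h2 : χ₂ ∈ Bf)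
    (h3 : χ₃ ∈ Bf) (h01 : χ₀ ≠ χ₁) (h02 : χ₀ ≠ χ₂) (h03 : χ₀ ≠ χ₃) (h12 : χ₁ ≠ χ₂) (h13 : χ₁ ≠ χ₃) (h23 : χ₂ ≠ χ₃) {A : Type*} [AddCommMonoid A]
    (g : IrrCharacter G → A) : ∑ χ ∈ Bf, g χ = g χ₀ + g χ₁ + g χ₂ + g χ₃ := by
  classical
  have e1 : Bf = {χ₀, χ₁, χ₂, χ₃} := by
    symm
    apply Finset.eq_of_subset_of_card_le
    · intro χ hχ
      simp only [Finset.mem_insert, Finset.mem_singleton] at hχ
      rcases hχ with rfl | rfl | rfl | rfl <;> assumption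
    · rw [hk, Finset.card_insert_of_notMem, Finset.card_insert_of_notMem, Finset.card_insert_of_notMem, Finset.card_singleton]
      · simpa using h23
      · simp [h12, h13]
      · simp [h01, h02, h03]
  rw [e1, Finset.sum_insert (by simp [h01, h02, h03]), Finset.sum_insert (by simp [h12, h13]),
    Finset.sum_insert (by simpa using h23), Finset.sum_singleton]
  simp only [add_assoc]

open Classical in
theorem exists_side1 (S : KSide M B) (hr : blockRank 2 B = 1) : Side1 M B (Finset.univ.filter (· ∈ B)) := by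
  have := isPModular_isPrime S.hM
  obtain ⟨Bf, hBf⟩ : ∃ Bf : Finset (IrrCharacter G), Bf = Finset.univ.filter (· ∈ B) := ⟨_, rfl⟩
  rw [← hBf]
  have hmB : ∀ χ, χ ∈ Bf ↔ χ ∈ B := fun χ => by simp [hBf]
  have hk : Bf.card = 4 := by rw [hBf]; exact S.hk
  obtain ⟨φ, d, -, hd, hs⟩ := exists_of_rank_one S.hM S.hB hr
  have hone : ¬ 2 ∣ orderOf (1 : G) := by simp
  have hd0 : ∀ χ ∈ B, 1 ≤ d χ := by
    intro χ hχ
    by_contra h0
    have h1 : d χ = 0 := by omega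
    have h2 := hd χ hχ 1 hone
    rw [h1] at h2
    simp only [Nat.cast_zero, zero_mul] at h2
    exact map_one_ne_zero_of_irr χ.2 h2
  have hs4 : ∑ χ ∈ Bf, d χ ^ 2 = 4 := by
    rw [hBf, Finset.sum_filter, ← finsum_mem_irr, hs, S.hdef]
    norm_num
  have hd1 : ∀ χ ∈ B, d χ = 1 := by
    have h1 : ∑ χ ∈ Bf, (d χ ^ 2 - 1) = 0 := by
      have h2 : ∑ χ ∈ Bf, (d χ ^ 2 - 1) + ∑ χ ∈ Bf, 1 = ∑ χ ∈ Bf, d χ ^ 2 := by
        rw [← Finset.sum_add_distrib]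
        refine Finset.sum_congr rfl fun χ hχ => ?_
        have := hd0 χ ((hmB _).1 hχ)
        have h3 : 1 ≤ d χ ^ 2 := Nat.one_le_pow _ _ this
        omega
      rw [hs4, Finset.sum_const, hk] at h2
      simp only [smul_eq_mul, mul_one] at h2
      omega
    intro χ hχ
    have h2 := (Finset.sum_eq_zero_iff.1 h1) χ ((hmB _).2 hχ)
    have h3 : 1 ≤ d χ := hd0 χ hχ
    have h4 : d χ ^ 2 ≤ 1 := by omega
    nlinarith
  have hreg : ∀ χ ∈ B, ∀ x : G, ¬ 2 ∣ orderOf x → (χ : G → ℂ) x = φ x := by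
    intro χ hχ x hx
    rw [hd χ hχ x hx, hd1 χ hχ]
    simp
  have hφ1 : φ 1 ≠ 0 := by
    obtain ⟨χ, hχ⟩ := IsPBlock_nonempty S.hB
    rw [← hreg χ hχ 1 hone]
    exact map_one_ne_zero_of_irr χ.2
  -- the columns are balanced
  have hbal : ∀ F, IsCol B F → ∑ χ ∈ Bf, F χ = 0 := by
    intro F hF
    have h1 := hF.2.2 1 hone
    have h2 : ∑ χ : IrrCharacter G, (F χ : ℂ) * (χ : G → ℂ) 1 = ((∑ χ ∈ Bf, F χ : ℤ) : ℂ) * φ 1 := by
      push_cast
      rw [Finset.sum_mul]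
      symm
      refine Finset.sum_subset_zero_on_sdiff (Finset.subset_univ _) ?_ ?_
      · intro χ hχ
        have h3 : χ ∉ B := fun h => (Finset.mem_sdiff.1 hχ).2 ((hmB _).2 h)
        rw [hF.2.1 χ h3]
        simp
      · intro χ hχ
        rw [hreg χ ((hmB _).1 hχ) 1 hone]
    rw [h2] at h1
    have h3 := (mul_eq_zero.1 h1).resolve_right hφ1
    exact_mod_cast h3
  have hzero : ∀ x : G, 2 ∣ orderOf x → ∑ χ ∈ Bf, (χ : G → ℂ) x = 0 := by
    intro x hx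
    obtain ⟨ι, _, F, f, hF, hf, hf4, hx'⟩ := S.hdec x hx
    have h1 : ∑ χ ∈ Bf, (χ : G → ℂ) x = ∑ i, ((∑ χ ∈ Bf, F i χ : ℤ) : ℂ) * f i := by
      rw [Finset.sum_congr rfl fun χ hχ => hx' χ ((hmB _).1 hχ), Finset.sum_comm]
      refine Finset.sum_congr rfl fun i _ => ?_
      push_cast
      rw [Finset.sum_mul]
    rw [h1]
    refine Finset.sum_eq_zero fun i _ => ?_
    rw [hbal _ (hF i)]
    simp
  refine ⟨S.hM, hmB, hk, fun χ hχ χ' hχ' x hx => by rw [hreg χ hχ x hx, hreg χ' hχ' x hx], ?_, hzero, ?_⟩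
  · intro χ₀ h0 χ₁ h1 χ₂ h2 χ₃ h3 h01 h02 h03 h12 h13 h23 x hx
    obtain ⟨ι, _, F, f, hF, hf, hf4, hx'⟩ := S.hdec x hx
    have hm : ∀ i, ∃ m : ℤ, F i χ₀ + F i χ₁ - F i χ₂ - F i χ₃ = 4 * m := by
      intro i
      have h5 := hbal _ (hF i)
      rw [eq_four hk ((hmB _).2 h0) ((hmB _).2 h1) ((hmB _).2 h2) ((hmB _).2 h3) h01 h02 h03 h12 h13 h23] at h5
      have a := (hF i).1 χ₀ h0
      have b := (hF i).1 χ₁ h1
      have c := (hF i).1 χ₂ h2
      have e := (hF i).1 χ₃ h3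
      exact ⟨(F i χ₀ + F i χ₁) / 2, by omega⟩
    choose m hm using hm
    refine ⟨∑ i, (m i : ℂ) * f i, ?_, memLocalRing_sum _ _ fun i _ => memLocalRing_mul (memLocalRing_intCast _) (hf i), ?_⟩
    · rw [hx' χ₀ h0, hx' χ₁ h1, hx' χ₂ h2, hx' χ₃ h3, Finset.mul_sum, ← Finset.sum_add_distrib, ← Finset.sum_sub_distrib, ← Finset.sum_sub_distrib]
      refine Finset.sum_congr rfl fun i _ => ?_
      have h5 : ((F i χ₀ + F i χ₁ - F i χ₂ - F i χ₃ : ℤ) : ℂ) = ((4 * m i : ℤ) : ℂ) := by rw [hm i]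
      push_cast at h5
      linear_combination (f i) * h5
    · rw [Finset.mul_sum, Finset.sum_div]
      refine memLocalRing_sum _ _ fun i _ => ?_
      have e1 : 4 * ((m i : ℂ) * f i) / (Nat.card (Subgroup.centralizer ({x} : Set G)) : ℂ) =
          (m i : ℂ) * (4 * f i / (Nat.card (Subgroup.centralizer ({x} : Set G)) : ℂ)) := by ring
      rw [e1]
      exact memLocalRing_mul (memLocalRing_intCast _) (hf4 i)
  · intro x
    have h1 := memLocal_of_vanish S.hM (fun ψ => if ψ ∈ B then (1 : ℤ) else 0) (fun g hg => ?_) x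
    · have e1 : ∀ g : G, ∑ ψ : IrrCharacter G, (((if ψ ∈ B then (1 : ℤ) else 0) : ℤ) : ℂ) * (ψ : G → ℂ) g = ∑ χ ∈ Bf, (χ : G → ℂ) g := by
        intro g
        rw [hBf, Finset.sum_filter]
        refine Finset.sum_congr rfl fun ψ _ => ?_
        by_cases h : ψ ∈ B <;> simp [h]
      rwa [e1] at h1
    · have e1 : ∀ g : G, ∑ ψ : IrrCharacter G, (((if ψ ∈ B then (1 : ℤ) else 0) : ℤ) : ℂ) * (ψ : G → ℂ) g = ∑ χ ∈ Bf, (χ : G → ℂ) g := by
        intro g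
        rw [hBf, Finset.sum_filter]
        refine Finset.sum_congr rfl fun ψ _ => ?_
        by_cases h : ψ ∈ B <;> simp [h]
      rw [e1]
      exact hzero g hg

namespace Side1

variable {Bf : Finset (IrrCharacter G)} (S : Side1 M B Bf)
include S

theorem isPrime : M.IsPrime := isPModular_isPrime S.hM

/-- A balanced sum. -/
theorem loc_bal {χ₀ χ₁ χ₂ χ₃ : IrrCharacter G} (h0 : χ₀ ∈ B) (h1 : χ₁ ∈ B) (h2 : χ₂ ∈ B) (h3 : χ₃ ∈ B)
    (h01 : χ₀ ≠ χ₁) (h02 : χ₀ ≠ χ₂) (h03 : χ₀ ≠ χ₃) (h12 : χ₁ ≠ χ₂) (h13 : χ₁ ≠ χ₃) (h23 : χ₂ ≠ χ₃) (x : G) :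
    MemLocalRing M (((χ₀ : G → ℂ) x + (χ₁ : G → ℂ) x - (χ₂ : G → ℂ) x - (χ₃ : G → ℂ) x) / 4) ∧
    MemLocalRing M (((χ₀ : G → ℂ) x + (χ₁ : G → ℂ) x - (χ₂ : G → ℂ) x - (χ₃ : G → ℂ) x) / (Nat.card (Subgroup.centralizer ({x} : Set G)) : ℂ)) ∧
    (¬ 2 ∣ orderOf x → (χ₀ : G → ℂ) x + (χ₁ : G → ℂ) x - (χ₂ : G → ℂ) x - (χ₃ : G → ℂ) x = 0) := by
  have := S.isPrime
  by_cases hx : 2 ∣ orderOf x
  · obtain ⟨m, e1, e2, e3⟩ := S.hbal χ₀ h0 χ₁ h1 χ₂ h2 χ₃ h3 h01 h02 h03 h12 h13 h23 x hx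
    rw [e1]
    refine ⟨?_, e3, fun h => absurd hx h⟩
    rwa [mul_div_cancel_left₀ _ (by norm_num : (4 : ℂ) ≠ 0)]
  · have e1 : (χ₀ : G → ℂ) x + (χ₁ : G → ℂ) x - (χ₂ : G → ℂ) x - (χ₃ : G → ℂ) x = 0 := by
      rw [S.hreg χ₁ h1 χ₀ h0 x hx, S.hreg χ₂ h2 χ₀ h0 x hx, S.hreg χ₃ h3 χ₀ h0 x hx]
      ring
    rw [e1, zero_div, zero_div]
    exact ⟨memLocalRing_zero, memLocalRing_zero, fun _ => rfl⟩

/-- The full sum. -/
theorem loc_all {χ₀ χ₁ χ₂ χ₃ : IrrCharacter G} (h0 : χ₀ ∈ B) (h1 : χ₁ ∈ B) (h2 : χ₂ ∈ B) (h3 : χ₃ ∈ B)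
    (h01 : χ₀ ≠ χ₁) (h02 : χ₀ ≠ χ₂) (h03 : χ₀ ≠ χ₃) (h12 : χ₁ ≠ χ₂) (h13 : χ₁ ≠ χ₃) (h23 : χ₂ ≠ χ₃) (x : G) :
    MemLocalRing M (((χ₀ : G → ℂ) x + (χ₁ : G → ℂ) x + (χ₂ : G → ℂ) x + (χ₃ : G → ℂ) x) / 4) ∧
    MemLocalRing M (((χ₀ : G → ℂ) x + (χ₁ : G → ℂ) x + (χ₂ : G → ℂ) x + (χ₃ : G → ℂ) x) / (Nat.card (Subgroup.centralizer ({x} : Set G)) : ℂ)) ∧
    (2 ∣ orderOf x → (χ₀ : G → ℂ) x + (χ₁ : G → ℂ) x + (χ₂ : G → ℂ) x + (χ₃ : G → ℂ) x = 0) := by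
  have := S.isPrime
  have e0 := eq_four S.hk ((S.hmB _).2 h0) ((S.hmB _).2 h1) ((S.hmB _).2 h2) ((S.hmB _).2 h3) h01 h02 h03 h12 h13 h23 (fun χ : IrrCharacter G => (χ : G → ℂ) x)
  rw [← e0]
  refine ⟨?_, S.hPr x, S.hzero x⟩
  by_cases hx : 2 ∣ orderOf x
  · rw [S.hzero x hx, zero_div]
    exact memLocalRing_zero
  · rw [e0, S.hreg χ₁ h1 χ₀ h0 x hx, S.hreg χ₂ h2 χ₀ h0 x hx, S.hreg χ₃ h3 χ₀ h0 x hx]
    have e1 : ((χ₀ : G → ℂ) x + (χ₀ : G → ℂ) x + (χ₀ : G → ℂ) x + (χ₀ : G → ℂ) x) / 4 = (χ₀ : G → ℂ) x := by ring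
    rw [e1]
    exact val_loc χ₀ x

end Side1

end One

section Match

universe u v

variable {G : Type u} [Group G] [Fintype G] {G' : Type v} [Group G'] [Fintype G'] {M : Ideal AlgInt}
  {B : Set (IrrCharacter G)} {B' : Set (IrrCharacter G')} {Bf : Finset (IrrCharacter G)} {Bf' : Finset (IrrCharacter G')}

open Classical in
theorem exists_match_fin (hc : Bf'.card = Bf.card) :
    ∃ (I : IrrCharacter G' → IrrCharacter G) (J : IrrCharacter G → IrrCharacter G'), (∀ η ∈ Bf', I η ∈ Bf) ∧ (∀ χ ∈ Bf, J χ ∈ Bf') ∧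
      (∀ η ∈ Bf', J (I η) = η) ∧ (∀ χ ∈ Bf, I (J χ) = χ) := by
  let Xeq : Bf' ≃ Bf := Finset.equivOfCardEq hc
  refine ⟨fun η => if h : η ∈ Bf' then (Xeq ⟨η, h⟩).1 else oneIrr G, fun χ => if h : χ ∈ Bf then (Xeq.symm ⟨χ, h⟩).1 else oneIrr G', ?_, ?_, ?_, ?_⟩
  · intro η h
    simp only [dif_pos h]
    exact (Xeq ⟨η, h⟩).2
  · intro χ h
    simp only [dif_pos h]
    exact (Xeq.symm ⟨χ, h⟩).2
  · intro η h
    simp only [dif_pos h]
    rw [dif_pos (Xeq ⟨η, h⟩).2]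
    simp
  · intro χ h
    simp only [dif_pos h]
    rw [dif_pos (Xeq.symm ⟨χ, h⟩).2]
    simp

open Classical in
theorem kernel_sum (hB' : ∀ η, η ∈ Bf' ↔ η ∈ B') (I : IrrCharacter G' → IrrCharacter G) (ε : IrrCharacter G' → ℤ) (x : G) (y : G') :
    signedBijectionKernel B' I ε x y = ∑ η ∈ Bf', (ε η : ℂ) * (I η : G → ℂ) x * (η : G' → ℂ) y := by
  unfold signedBijectionKernel
  rw [finsum_mem_irr]
  symm
  refine Finset.sum_subset_zero_on_sdiff (Finset.subset_univ _) ?_ ?_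
  · intro η hη
    have : η ∉ B' := fun h => (Finset.mem_sdiff.1 hη).2 ((hB' _).2 h)
    rw [if_neg this]
  · intro η hη
    rw [if_pos ((hB' _).1 hη)]

open Classical in
/-- The perfect isometry in rank three. -/
theorem perfect_three {D : IrrCharacter G → ℤ} {D' : IrrCharacter G' → ℤ} (S : Side3 M B D Bf) (S' : Side3 M B' D' Bf') :
    ∃ (I : IrrCharacter G' → IrrCharacter G) (ε : IrrCharacter G' → ℤ), IsPerfectIsometry 2 M B' B I ε := by
  have := S.isPrime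
  obtain ⟨I, J, hI, hJ, hJI, hIJ⟩ := exists_match_fin (Bf := Bf) (Bf' := Bf') (by rw [S.hk, S'.hk])
  obtain ⟨ε, hε⟩ : ∃ ε : IrrCharacter G' → ℤ, ε = fun η => D' η * D (I η) := ⟨_, rfl⟩
  have hker : ∀ x y, signedBijectionKernel B' I ε x y = ∑ η ∈ Bf', ((D (I η) : ℂ) * (I η : G → ℂ) x) * ((D' η : ℂ) * (η : G' → ℂ) y) := by
    intro x y
    rw [kernel_sum S'.hmB]
    refine Finset.sum_congr rfl fun η _ => ?_
    rw [hε]
    push_cast
    ring
  have hswap : ∀ (g : IrrCharacter G' → ℂ), ∑ η ∈ Bf', g η = ∑ χ ∈ Bf, g (J χ) := by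
    intro g
    refine Finset.sum_nbij' I J hI hJ hJI hIJ fun η hη => ?_
    rw [hJI η hη]
  have hswap' : ∀ (g : IrrCharacter G → ℂ), ∑ η ∈ Bf', g (I η) = ∑ χ ∈ Bf, g χ := by
    intro g
    refine Finset.sum_nbij' I J hI hJ hJI hIJ fun η hη => rfl
  refine ⟨I, ε, ⟨⟨?_, ?_, ?_⟩, ?_, ?_⟩⟩
  · intro η hη
    exact (S.hmB _).1 (hI η ((S'.hmB _).2 hη))
  · intro η hη η' hη' h
    rw [← hJI η ((S'.hmB _).2 hη), ← hJI η' ((S'.hmB _).2 hη'), h]
  · intro χ hχ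
    exact ⟨J χ, (S'.hmB _).1 (hJ χ ((S.hmB _).2 hχ)), hIJ χ ((S.hmB _).2 hχ)⟩
  · intro η hη
    rw [hε]
    simp only
    rcases S'.hD.1 η hη with h | h <;> rcases S.hD.1 (I η) ((S.hmB _).1 (hI η ((S'.hmB _).2 hη))) with h' | h' <;> rw [h, h'] <;> norm_num
  · intro x y
    refine ⟨?_, ?_, ?_⟩
    · rw [hker x y]
      have e1 : ∑ η ∈ Bf', ((D (I η) : ℂ) * (I η : G → ℂ) x) * ((D' η : ℂ) * (η : G' → ℂ) y) =
          ∑ χ ∈ Bf, ((D' (J χ) : ℂ) * (J χ : G' → ℂ) y) * ((D χ : ℂ) * (χ : G → ℂ) x) := by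
        rw [hswap (fun η => ((D (I η) : ℂ) * (I η : G → ℂ) x) * ((D' η : ℂ) * (η : G' → ℂ) y))]
        refine Finset.sum_congr rfl fun χ hχ => ?_
        rw [hIJ χ hχ, mul_comm]
      rw [e1]
      by_cases hy : 2 ∣ orderOf y
      · obtain ⟨t, h1, h2, -⟩ := S'.hsing y hy
        exact S.comb_const t h2 (fun χ hχ => h1 _ ((S'.hmB _).1 (hJ χ ((S.hmB _).2 hχ)))) x
      · refine S.comb_zero (fun χ => S'.w_loc _ y) ?_ x
        rw [← hswap (fun η => (D' η : ℂ) * (η : G' → ℂ) y)]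
        exact S'.sum_reg hy
    · rw [hker x y]
      by_cases hx : 2 ∣ orderOf x
      · obtain ⟨t, h1, h2, -⟩ := S.hsing x hx
        exact S'.comb_const t h2 (a := fun η => (D (I η) : ℂ) * (I η : G → ℂ) x) (fun η hη => h1 _ ((S.hmB _).1 (hI η ((S'.hmB _).2 hη)))) y
      · refine S'.comb_zero (a := fun η => (D (I η) : ℂ) * (I η : G → ℂ) x) (fun η => S.w_loc _ x) ?_ y
        rw [hswap' (fun χ => (D χ : ℂ) * (χ : G → ℂ) x)]
        exact S.sum_reg hx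
    · unfold IsPRegular
      by_cases hx : 2 ∣ orderOf x <;> by_cases hy : 2 ∣ orderOf y
      · exact Or.inl (by simp [hx, hy])
      · right
        rw [hker x y]
        obtain ⟨t, h1, -, -⟩ := S.hsing x hx
        rw [Finset.sum_congr rfl fun η hη => by rw [h1 _ ((S.hmB _).1 (hI η hη))], ← Finset.mul_sum, S'.sum_reg hy, mul_zero]
      · right
        rw [hker x y]
        obtain ⟨t, h1, -, -⟩ := S'.hsing y hy
        rw [Finset.sum_congr rfl fun η hη => by rw [h1 _ ((S'.hmB _).1 hη)], ← Finset.sum_mul,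
          hswap' (fun χ => (D χ : ℂ) * (χ : G → ℂ) x), S.sum_reg hx, zero_mul]
      · exact Or.inl (by simp [hx, hy])

open Classical in
/-- The perfect isometry in rank one. -/
theorem perfect_one (S : Side1 M B Bf) (S' : Side1 M B' Bf') :
    ∃ (I : IrrCharacter G' → IrrCharacter G) (ε : IrrCharacter G' → ℤ), IsPerfectIsometry 2 M B' B I ε := by
  have := S.isPrime
  obtain ⟨I, J, hI, hJ, hJI, hIJ⟩ := exists_match_fin (Bf := Bf) (Bf' := Bf') (by rw [S.hk, S'.hk])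
  obtain ⟨ee⟩ : Nonempty (Fin 4 ≃ Bf') := ⟨(Finset.equivFinOfCardEq S'.hk).symm⟩
  obtain ⟨η, hη⟩ : ∃ η : Fin 4 → IrrCharacter G', η = fun i => (ee i).1 := ⟨_, rfl⟩
  have hηf : ∀ i, η i ∈ Bf' := fun i => by rw [hη]; exact (ee i).2
  have hinj : Function.Injective η := by
    intro i j h
    rw [hη] at h
    exact ee.injective (Subtype.ext h)
  have hne : ∀ i j : Fin 4, i ≠ j → η i ≠ η j := fun i j h h' => h (hinj h')
  have hne' : ∀ i j : Fin 4, i ≠ j → I (η i) ≠ I (η j) := fun i j h h' => by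
    apply hne i j h
    rw [← hJI _ (hηf i), ← hJI _ (hηf j), h']
  have hB1 : ∀ i, η i ∈ B' := fun i => (S'.hmB _).1 (hηf i)
  have hB2 : ∀ i, I (η i) ∈ B := fun i => (S.hmB _).1 (hI _ (hηf i))
  have hsum := fun (g : IrrCharacter G' → ℂ) => eq_four S'.hk (hηf 0) (hηf 1) (hηf 2) (hηf 3) (hne 0 1 (by decide)) (hne 0 2 (by decide)) (hne 0 3 (by decide))
    (hne 1 2 (by decide)) (hne 1 3 (by decide)) (hne 2 3 (by decide)) g
  have hker : ∀ x y, signedBijectionKernel B' I (fun _ => 1) x y =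
      (I (η 0) : G → ℂ) x * (η 0 : G' → ℂ) y + (I (η 1) : G → ℂ) x * (η 1 : G' → ℂ) y +
      (I (η 2) : G → ℂ) x * (η 2 : G' → ℂ) y + (I (η 3) : G → ℂ) x * (η 3 : G' → ℂ) y := by
    intro x y
    rw [kernel_sum S'.hmB, hsum]
    simp
  have hA0 := fun x => S.loc_all (hB2 0) (hB2 1) (hB2 2) (hB2 3) (hne' 0 1 (by decide)) (hne' 0 2 (by decide)) (hne' 0 3 (by decide))
    (hne' 1 2 (by decide)) (hne' 1 3 (by decide)) (hne' 2 3 (by decide)) x
  have hA1 := fun x => S.loc_bal (hB2 0) (hB2 1) (hB2 2) (hB2 3) (hne' 0 1 (by decide)) (hne' 0 2 (by decide)) (hne' 0 3 (by decide))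
    (hne' 1 2 (by decide)) (hne' 1 3 (by decide)) (hne' 2 3 (by decide)) x
  have hA2 := fun x => S.loc_bal (hB2 0) (hB2 2) (hB2 1) (hB2 3) (hne' 0 2 (by decide)) (hne' 0 1 (by decide)) (hne' 0 3 (by decide))
    (hne' 2 1 (by decide)) (hne' 2 3 (by decide)) (hne' 1 3 (by decide)) x
  have hA3 := fun x => S.loc_bal (hB2 0) (hB2 3) (hB2 1) (hB2 2) (hne' 0 3 (by decide)) (hne' 0 1 (by decide)) (hne' 0 2 (by decide))
    (hne' 3 1 (by decide)) (hne' 3 2 (by decide)) (hne' 1 2 (by decide)) x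
  have hB0 := fun y => S'.loc_all (hB1 0) (hB1 1) (hB1 2) (hB1 3) (hne 0 1 (by decide)) (hne 0 2 (by decide)) (hne 0 3 (by decide))
    (hne 1 2 (by decide)) (hne 1 3 (by decide)) (hne 2 3 (by decide)) y
  have hB1' := fun y => S'.loc_bal (hB1 0) (hB1 1) (hB1 2) (hB1 3) (hne 0 1 (by decide)) (hne 0 2 (by decide)) (hne 0 3 (by decide))
    (hne 1 2 (by decide)) (hne 1 3 (by decide)) (hne 2 3 (by decide)) y
  have hB2' := fun y => S'.loc_bal (hB1 0) (hB1 2) (hB1 1) (hB1 3) (hne 0 2 (by decide)) (hne 0 1 (by decide)) (hne 0 3 (by decide))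
    (hne 2 1 (by decide)) (hne 2 3 (by decide)) (hne 1 3 (by decide)) y
  have hB3' := fun y => S'.loc_bal (hB1 0) (hB1 3) (hB1 1) (hB1 2) (hne 0 3 (by decide)) (hne 0 1 (by decide)) (hne 0 2 (by decide))
    (hne 3 1 (by decide)) (hne 3 2 (by decide)) (hne 1 2 (by decide)) y
  refine ⟨I, fun _ => 1, ⟨⟨?_, ?_, ?_⟩, fun _ _ => Or.inl rfl, ?_⟩⟩
  · intro x hx
    exact (S.hmB _).1 (hI x ((S'.hmB _).2 hx))
  · intro x hx x' hx' h
    rw [← hJI x ((S'.hmB _).2 hx), ← hJI x' ((S'.hmB _).2 hx'), h]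
  · intro χ hχ
    exact ⟨J χ, (S'.hmB _).1 (hJ χ ((S.hmB _).2 hχ)), hIJ χ ((S.hmB _).2 hχ)⟩
  · intro x y
    rw [hker x y]
    obtain ⟨a0, a1, a2, a3, e0, e1, e2, e3⟩ : ∃ a0 a1 a2 a3 : ℂ, a0 = (I (η 0) : G → ℂ) x ∧ a1 = (I (η 1) : G → ℂ) x ∧ a2 = (I (η 2) : G → ℂ) x ∧ a3 = (I (η 3) : G → ℂ) x := ⟨_, _, _, _, rfl, rfl, rfl, rfl⟩
    obtain ⟨b0, b1, b2, b3, f0, f1, f2, f3⟩ : ∃ b0 b1 b2 b3 : ℂ, b0 = (η 0 : G' → ℂ) y ∧ b1 = (η 1 : G' → ℂ) y ∧ b2 = (η 2 : G' → ℂ) y ∧ b3 = (η 3 : G' → ℂ) y := ⟨_, _, _, _, rfl, rfl, rfl, rfl⟩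
    obtain ⟨p01, p02, p03⟩ := hA0 x
    obtain ⟨p11, p12, p13⟩ := hA1 x
    obtain ⟨p21, p22, p23⟩ := hA2 x
    obtain ⟨p31, p32, p33⟩ := hA3 x
    obtain ⟨q01, q02, q03⟩ := hB0 y
    obtain ⟨q11, q12, q13⟩ := hB1' y
    obtain ⟨q21, q22, q23⟩ := hB2' y
    obtain ⟨q31, q32, q33⟩ := hB3' y
    rw [← e0, ← e1, ← e2, ← e3] at p01 p02 p03 p11 p12 p13 p21 p22 p23 p31 p32 p33 ⊢
    rw [← f0, ← f1, ← f2, ← f3] at q01 q02 q03 q11 q12 q13 q21 q22 q23 q31 q32 q33 ⊢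
    refine ⟨?_, ?_, ?_⟩
    · have e : (a0 * b0 + a1 * b1 + a2 * b2 + a3 * b3) / (Nat.card (Subgroup.centralizer ({x} : Set G)) : ℂ) =
          ((a0 + a1 + a2 + a3) / (Nat.card (Subgroup.centralizer ({x} : Set G)) : ℂ)) * ((b0 + b1 + b2 + b3) / 4) +
          ((a0 + a1 - a2 - a3) / (Nat.card (Subgroup.centralizer ({x} : Set G)) : ℂ)) * ((b0 + b1 - b2 - b3) / 4) +
          ((a0 + a2 - a1 - a3) / (Nat.card (Subgroup.centralizer ({x} : Set G)) : ℂ)) * ((b0 + b2 - b1 - b3) / 4) +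
          ((a0 + a3 - a1 - a2) / (Nat.card (Subgroup.centralizer ({x} : Set G)) : ℂ)) * ((b0 + b3 - b1 - b2) / 4) := by ring
      rw [e]
      exact memLocalRing_add (memLocalRing_add (memLocalRing_add (memLocalRing_mul p02 q01) (memLocalRing_mul p12 q11)) (memLocalRing_mul p22 q21)) (memLocalRing_mul p32 q31)
    · have e : (a0 * b0 + a1 * b1 + a2 * b2 + a3 * b3) / (Nat.card (Subgroup.centralizer ({y} : Set G')) : ℂ) =
          ((a0 + a1 + a2 + a3) / 4) * ((b0 + b1 + b2 + b3) / (Nat.card (Subgroup.centralizer ({y} : Set G')) : ℂ)) +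
          ((a0 + a1 - a2 - a3) / 4) * ((b0 + b1 - b2 - b3) / (Nat.card (Subgroup.centralizer ({y} : Set G')) : ℂ)) +
          ((a0 + a2 - a1 - a3) / 4) * ((b0 + b2 - b1 - b3) / (Nat.card (Subgroup.centralizer ({y} : Set G')) : ℂ)) +
          ((a0 + a3 - a1 - a2) / 4) * ((b0 + b3 - b1 - b2) / (Nat.card (Subgroup.centralizer ({y} : Set G')) : ℂ)) := by ring
      rw [e]
      exact memLocalRing_add (memLocalRing_add (memLocalRing_add (memLocalRing_mul p01 q02) (memLocalRing_mul p11 q12)) (memLocalRing_mul p21 q22)) (memLocalRing_mul p31 q32)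
    · unfold IsPRegular
      have e : a0 * b0 + a1 * b1 + a2 * b2 + a3 * b3 = ((a0 + a1 + a2 + a3) * (b0 + b1 + b2 + b3) + (a0 + a1 - a2 - a3) * (b0 + b1 - b2 - b3) +
          (a0 + a2 - a1 - a3) * (b0 + b2 - b1 - b3) + (a0 + a3 - a1 - a2) * (b0 + b3 - b1 - b2)) / 4 := by ring
      by_cases hx : 2 ∣ orderOf x <;> by_cases hy : 2 ∣ orderOf y
      · exact Or.inl (by simp [hx, hy])
      · right
        rw [e, p03 hx, q13 hy, q23 hy, q33 hy]
        ring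
      · right
        rw [e, q03 hy, p13 hx, p23 hx, p33 hx]
        ring
      · exact Or.inl (by simp [hx, hy])

end Match

section Main

universe u v

variable {G : Type u} [Group G] [Fintype G] {G' : Type v} [Group G'] [Fintype G'] {M : Ideal AlgInt}
  {B : Set (IrrCharacter G)} {B' : Set (IrrCharacter G')}

open Classical in
/-- **Two blocks with Klein four defect groups and the same rank are perfectly isometric.** -/
theorem klein_perfect (S : KSide M B) (S' : KSide M B') (hr : blockRank 2 B = 1 ∨ blockRank 2 B = 3) (h : blockRank 2 B' = blockRank 2 B) :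
    ∃ (I : IrrCharacter G' → IrrCharacter G) (ε : IrrCharacter G' → ℤ), IsPerfectIsometry 2 M B' B I ε := by
  rcases hr with hr | hr
  · exact perfect_one (exists_side1 S hr) (exists_side1 S' (h.trans hr))
  · obtain ⟨D, hD⟩ := exists_side3 S hr
    obtain ⟨D', hD'⟩ := exists_side3 S' (h.trans hr)
    exact perfect_three hD hD'

theorem isKleinFour_of_mulEquiv {X Y : Type*} [Group X] [Group Y] (e : X ≃* Y) (h : IsKleinFour X) : IsKleinFour Y where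
  card_four := by
    rw [← Nat.card_congr e.toEquiv]
    exact h.card_four
  exponent_two := by
    rw [← Monoid.exponent_eq_of_mulEquiv e]
    exact h.exponent_two

end Main

section Up

variable {G : Type*} [Group G] [Fintype G] {M : Ideal AlgInt}

/-- The Brauer correspondent of a block with Klein four defect group. -/
theorem perfect_up_klein (hM : IsPModular 2 M) {L : Subgroup G} {S : Subgroup L} {B : Set (IrrCharacter G)} {c : Set (IrrCharacter L)}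
    (h : Cen (up S) ≤ L) (hN : Subgroup.normalizer ((up S : Subgroup G) : Set G) ≤ L)
    (hcS : IsDefectGroup 2 M c S) (hV : IsKleinFour S) (hD : IsDefectGroup 2 M B (up S))
    (hind : IsInducedBlock M L c B) :
    ∃ (I : IrrCharacter L → IrrCharacter G) (ε : IrrCharacter L → ℤ), IsPerfectIsometry 2 M c B I ε := by
  classical
  have := isPModular_isPrime hM
  have hc := hind.1
  have hB := hind.2.1
  obtain ⟨s, hs⟩ := exists_pair_on_defect hM hcS hc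
  have hpg : IsPGroup 2 (up S) := isPGroup_of_isDefectGroup hD
  have hb := pair_up_of_induced hM h hs hind hpg
  have hsb : IsPBlock M s := (isBrauerPairOf_iff.1 hs).1.2
  have hbb : IsPBlock M (mapBlock (cenIso S h) s) := (isBrauerPairOf_iff.1 hb).1.2
  obtain ⟨TL, hTL⟩ := exists_pairT hsb
  obtain ⟨TG, hTG⟩ := exists_pairT hbb
  have hTmap : TG = up TL := by
    ext g
    constructor
    · intro hg
      obtain ⟨h1, h2⟩ := (hTG g).1 hg
      have hgL : g ∈ L := hN h1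
      have h3 : (⟨g, hgL⟩ : L) ∈ Subgroup.normalizer (S : Set L) := mem_normalizer_of_coe h1
      exact ⟨⟨g, hgL⟩, (hTL _).2 ⟨h3, (stab_up_iff h hsb h3).1 h2⟩, rfl⟩
    · rintro ⟨u, hu, rfl⟩
      obtain ⟨h1, h2⟩ := (hTL u).1 hu
      exact (hTG _).2 ⟨coe_mem_normalizer_up h1, (stab_up_iff h hsb h1).2 h2⟩
  have he : (Cen (up S)).relIndex TG = (Cen S).relIndex TL := by
    rw [hTmap, cen_up_eq h]
    exact Subgroup.relIndex_map_map_of_injective _ _ L.subtype_injective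
  have hVG : IsKleinFour (up S) := isKleinFour_of_mulEquiv (S.equivMapOfInjective L.subtype L.subtype_injective) hV
  obtain ⟨S₁, hr₁⟩ := kSide_of_klein hM hB hD hVG
  obtain ⟨S₂, -⟩ := kSide_of_klein hM hc hcS hV
  have h₁ := (klein_block hM hB hD hVG (isInducedBlock_of_pair hM hb) hTG).2.2
  have h₂ := (klein_block hM hc hcS hV (isInducedBlock_of_pair hM hs) hTL).2.2
  exact klein_perfect S₁ S₂ hr₁ (by rw [h₁, h₂, he])

end Up

section Norm

variable {G : Type*} [Group G] [Finite G] {M : Ideal AlgInt}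

theorem perfect_klein_aux (hM : IsPModular 2 M) {B : Set (IrrCharacter G)} (hB : IsPBlock M B) {P : Subgroup G}
    (hPD : IsDefectGroup 2 M B P) (hV : IsKleinFour P) {H : Subgroup G} (hH : H = Subgroup.normalizer (P : Set G)) {c : Set (IrrCharacter H)}
    (hcD : IsDefectGroup 2 M c (P.subgroupOf H)) (hc : IsInducedBlock M H c B) :
    ∃ (I : IrrCharacter H → IrrCharacter G) (ε : IrrCharacter H → ℤ), IsPerfectIsometry 2 M c B I ε := by
  classical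
  cases nonempty_fintype G
  have hPH : P ≤ H := by
    rw [hH]
    exact Subgroup.le_normalizer
  have hCH : Cen P ≤ H := by
    rw [hH]
    exact cen_le_normalizer P
  have hNH : Subgroup.normalizer (P : Set G) ≤ H := by
    rw [hH]
  have hSV : IsKleinFour (P.subgroupOf H) := isKleinFour_of_mulEquiv (Subgroup.subgroupOfEquivOfLe hPH).symm hV
  obtain ⟨S, hS⟩ : ∃ S, S = P.subgroupOf H := ⟨_, rfl⟩
  rw [← hS] at hcD hSV
  have hup : P = up S := by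
    rw [hS]
    exact (Subgroup.map_subgroupOf_eq_of_le hPH).symm
  clear hS hH hPH
  subst hup
  exact perfect_up_klein hM hCH hNH hcD hSV hPD hc

end Norm

end Cfsg.Agent.Lib.FF
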