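import Mathlib

/-!
# Traces over a cyclic group in characteristic `p`
-/

set_option autoImplicit false
set_option linter.unusedSectionVars false
set_option linter.unusedSimpArgs false
set_option linter.unusedVariables false

open Polynomial

namespace Cfsg.Agent.Lib.FF

/-- In characteristic `p`, `1 + X + ... + X^(p^n-1) = (X-1)^(p^n-1)`. -/
theorem geom_eq_sub_pow (F : Type*) [Field F] (p : ℕ) [Fact p.Prime] [CharP F p] (n : ℕ) :
    ∑ i ∈ Finset.range (p ^ n), (X : F[X]) ^ i = (X - 1) ^ (p ^ n - 1) := by
  have hq : 0 < p ^ n := pow_pos (Fact.out : p.Prime).pos n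
  have h1 : (∑ i ∈ Finset.range (p ^ n), (X : F[X]) ^ i) * (X - 1) = X ^ (p ^ n) - 1 := geom_sum_mul _ _
  have h2 : ((X : F[X]) - 1) ^ (p ^ n) = X ^ (p ^ n) - 1 := by
    rw [sub_pow_char_pow, one_pow]
  have h3 : ((X : F[X]) - 1) ≠ 0 := by
    have := X_sub_C_ne_zero (1 : F)
    simpa using this
  apply mul_right_cancel₀ h3
  rw [h1, ← h2, ← pow_succ, Nat.sub_add_cancel hq]

theorem X_sub_one_pow (F : Type*) [Field F] (p : ℕ) [Fact p.Prime] [CharP F p] (n : ℕ) :
    ((X : F[X]) - 1) ^ (p ^ n) = X ^ (p ^ n) - 1 := by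
  rw [sub_pow_char_pow, one_pow]

section Trace

variable {F V : Type*} [Field F] [AddCommGroup V] [Module F V] (p : ℕ) [Fact p.Prime] [CharP F p] (n : ℕ)

theorem range_pow_le {N : Module.End F V} {a b : ℕ} (h : a ≤ b) :
    LinearMap.range (N ^ b) ≤ LinearMap.range (N ^ a) := by
  rintro _ ⟨u, rfl⟩
  refine ⟨(N ^ (b - a)) u, ?_⟩
  rw [← Module.End.mul_apply, ← pow_add, Nat.add_sub_cancel' h]

/-- The image of a trace over a cyclic `p`-group. -/
theorem trace_range (A A' : Module.End F V) (hAA' : A * A' = 1) (hA'A : A' * A = 1) (d : ℕ)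
    (hd : (A - 1) ^ d = 0) (hdq : d ≤ p ^ n) (w : Module.End F V) (v : V) :
    (∑ i ∈ Finset.range (p ^ n), A ^ i * w * A' ^ i) v ∈ LinearMap.range ((A - 1) ^ (p ^ n - d)) := by
  classical
  have hq : 0 < p ^ n := pow_pos (Fact.out : p.Prime).pos n
  set N := A - 1 with hN
  let L : Module.End F (Module.End F V) := LinearMap.mulLeft F A
  let R : Module.End F (Module.End F V) := LinearMap.mulRight F A'
  let T : Module.End F (Module.End F V) := L * R
  have hT : ∀ (i : ℕ) (w : Module.End F V), (T ^ i) w = A ^ i * w * A' ^ i := by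
    intro i
    induction i with
    | zero => intro w; simp
    | succ i ih =>
      intro w
      rw [pow_succ', Module.End.mul_apply, ih]
      change A * (A ^ i * w * A' ^ i * A') = _
      rw [pow_succ' A, pow_succ A']
      simp only [mul_assoc]
  have hsum : ∑ i ∈ Finset.range (p ^ n), T ^ i = (T - 1) ^ (p ^ n - 1) := by
    have := congrArg (aeval T) (geom_eq_sub_pow F p n)
    simpa [map_sum, map_pow, map_sub, aeval_X, map_one] using this
  have hL : (∑ i ∈ Finset.range (p ^ n), A ^ i * w * A' ^ i) = ((T - 1) ^ (p ^ n - 1)) w := by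
    rw [← hsum, LinearMap.sum_apply]
    exact Finset.sum_congr rfl fun i _ => (hT i w).symm
  let a : Module.End F (Module.End F V) := LinearMap.mulLeft F N
  let c : Module.End F (Module.End F V) := L * LinearMap.mulRight F (A' - 1)
  have hTac : T - 1 = a + c := by
    ext1 w
    change A * (w * A') - w = (A - 1) * w + A * (w * (A' - 1))
    noncomm_ring
  have hcomm : Commute a c := by
    ext1 w
    change (A - 1) * (A * (w * (A' - 1))) = A * ((A - 1) * w * (A' - 1))
    noncomm_ring
  have hc : ∀ (m : ℕ) (w : Module.End F V), (c ^ m) w = A ^ m * w * (A' - 1) ^ m := by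
    intro m
    induction m with
    | zero => intro w; simp
    | succ m ih =>
      intro w
      rw [pow_succ', Module.End.mul_apply, ih]
      change A * (A ^ m * w * (A' - 1) ^ m * (A' - 1)) = _
      rw [pow_succ' A, pow_succ (A' - 1)]
      simp only [mul_assoc]
  have ha : ∀ (m : ℕ) (w : Module.End F V), (a ^ m) w = N ^ m * w := by
    intro m
    induction m with
    | zero => intro w; simp
    | succ m ih =>
      intro w
      rw [pow_succ', Module.End.mul_apply, ih]
      change N * (N ^ m * w) = _
      rw [pow_succ' N, mul_assoc]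
  have hA'1 : (A' - 1) ^ d = 0 := by
    have e : A' - 1 = (-A') * N := by
      rw [hN, mul_sub, neg_mul, hA'A, mul_one]
      abel
    have hcm : Commute (-A') N := by
      apply Commute.neg_left
      rw [hN]
      apply Commute.sub_right
      · exact hA'A.trans hAA'.symm
      · exact Commute.one_right _
    rw [e, hcm.mul_pow, hd, mul_zero]
  have hc0 : ∀ m, d ≤ m → c ^ m = 0 := by
    intro m hm
    ext1 w
    rw [hc, pow_eq_zero_of_le hm hA'1]
    simp
  rw [hL, hTac, hcomm.add_pow, LinearMap.sum_apply, LinearMap.sum_apply]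
  refine Submodule.sum_mem _ fun m hm => ?_
  have hm' : m < p ^ n := by
    have := Finset.mem_range.1 hm
    omega
  by_cases hmd : d ≤ p ^ n - 1 - m
  · rw [hc0 _ hmd]
    simp
  · rw [mul_assoc, Module.End.mul_apply, ha, Module.End.mul_apply]
    apply range_pow_le (N := N) (a := p ^ n - d) (b := m) (by omega)
    exact ⟨_, rfl⟩

end Trace

section Free

open MulAction in
/-- Sum over a set on which a group acts freely outside one fixed point. -/
theorem sum_free_action {P X M : Type*} [Group P] [Fintype P] [MulAction P X] [Fintype X] [DecidableEq X]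
    [AddCommGroup M] (S : AddSubgroup M) (f : X → M) (q₀ : X) (hq₀ : ∀ a : P, a • q₀ = q₀)
    (hfree : ∀ q, q ≠ q₀ → ∀ a : P, a • q = q → a = 1) (hS : ∀ q, q ≠ q₀ → ∑ a : P, f (a • q) ∈ S) :
    ∑ q ∈ Finset.univ.erase q₀, f q ∈ S := by
  classical
  let Ω := MulAction.orbitRel.Quotient P X
  let π : X → Ω := fun q => Quotient.mk (MulAction.orbitRel P X) q
  haveI : Fintype Ω := Fintype.ofFinite _
  have hπ : ∀ q q' : X, π q = π q' → ∃ a : P, a • q' = q := by
    intro q q' h
    have := Quotient.exact h
    obtain ⟨a, ha⟩ := (MulAction.orbitRel_apply).1 this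
    exact ⟨a, ha⟩
  rw [← Finset.sum_fiberwise (Finset.univ.erase q₀) π f]
  refine AddSubgroup.sum_mem _ fun ω _ => ?_
  obtain ⟨q₁, rfl⟩ : ∃ q₁, π q₁ = ω := Quotient.exists_rep ω
  by_cases h1 : q₁ = q₀
  · have : Finset.filter (fun q => π q = π q₁) (Finset.univ.erase q₀) = ∅ := by
      ext q
      simp only [Finset.mem_filter, Finset.mem_erase, Finset.mem_univ, and_true, Finset.notMem_empty, iff_false,
        not_and]
      intro hq hqπ
      obtain ⟨a, ha⟩ := hπ _ _ hqπ
      rw [h1, hq₀] at ha
      exact hq ha.symm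
    rw [this, Finset.sum_empty]
    exact S.zero_mem
  · have hinj : Function.Injective (fun a : P => a • q₁) := by
      intro a b hab
      have h2 : (b⁻¹ * a) • q₁ = q₁ := by
        rw [mul_smul]
        exact inv_smul_eq_iff.2 hab
      have h3 := hfree q₁ h1 _ h2
      exact (inv_mul_eq_one.1 h3).symm
    have : Finset.filter (fun q => π q = π q₁) (Finset.univ.erase q₀) =
        Finset.univ.image (fun a : P => a • q₁) := by
      ext q
      simp only [Finset.mem_filter, Finset.mem_erase, Finset.mem_univ, and_true, Finset.mem_image, true_and]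
      constructor
      · rintro ⟨_, h⟩
        obtain ⟨a, ha⟩ := hπ _ _ h
        exact ⟨a, ha⟩
      · rintro ⟨a, rfl⟩
        constructor
        · intro h
          apply h1
          have : q₁ = a⁻¹ • q₀ := by rw [← h, inv_smul_smul]
          rw [this, hq₀]
        · apply Quotient.sound
          exact (MulAction.orbitRel_apply).2 ⟨a, rfl⟩
    rw [this, Finset.sum_image (fun a _ b _ h => hinj h)]
    exact hS q₁ h1

end Free

end Cfsg.Agent.Lib.FF
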